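import Mathlib
import Cfsg.Prelude.Def_OddOrderLocal
import Cfsg.Agent.Lib.Helper54.S68Stmt

set_option autoImplicit false

/-!
# S1369 (BG 14.7(f)): statements of the pieces  (helper23)

Setting `Cfg M K U Ms`: exactly the hypotheses of S1367 / S1368 / S1434 / S1369 (`M = K U M_σ`
a σ-decomposition, `K ≠ 1`, `ks M K = M_σ ∩ C_G(K)`, `Ms` maximal, `K = Ms_σ ∩ C_G(ks M K)`,
`ks M K` a Hall `κ(Ms)`-subgroup of `Ms`).  So for `h : Cfg M K U Ms` the LANDED statements apply: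
`Cfsg.Agent.S1367.result hG M h.hM K U h.hKU h.neK Ms h.hMs h.eK h.hKs` (same for `S1368`,
`S1434`), `Cfsg.Agent.S1354.result hG M h.hM K h.hKU.cyclic h.hKU.hall` (`.1 : ks M K ≠ ⊥`).
`Zhat K Ks` is helper54's `Cfsg.Agent.Lib.Helper54.S68Stmt.Zhat` (defeq to the set in S1434).

S1351 and S1366 are NOT landed yet: they enter as the hypotheses `H51`, `H66`.

Clause 1 (`CL1`): `U = 1` and `Us = 1` contradict helper90's `FamCount.main` (ι = Fin 2,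
`W = K ⊔ ks M K`).  Clause 2 (`CL2`): for `H` maximal with `κ(H) ≠ ∅` get `Cfg H K' U' Hs`
(`ExPair`); the two conjugate-sets of S1434 have more than `|G|/2` elements, so they meet
(`Meet`): `h z h⁻¹ = z'`; `C_G(z) = K ⊔ ks M K` (`CZ`), so `K' ⊔ ks H K' = h (K ⊔ ks M K) h⁻¹`
(`CConj`); `Fin'` finishes with S1367 for both configurations.
-/

namespace Cfsg.Agent.Lib.Helper23.S69Stmt

open Cfsg.Agent.Lib.Helper54.S68Stmt

universe u

/-- `K* = M_σ ∩ C_G(K)`. -/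
abbrev ks {G : Type u} [Group G] (M K : Subgroup G) : Subgroup G :=
  Cfsg.sigmaCore M ⊓ Subgroup.centralizer (K : Set G)

/-- The standing configuration of S1367 / S1368 / S1434 / S1369. -/
structure Cfg {G : Type u} [Group G] (M K U Ms : Subgroup G) : Prop where
  hM : IsCoatom M
  hKU : Cfsg.IsSigmaDecomposition M K U
  neK : K ≠ ⊥
  hMs : IsCoatom Ms
  eK : K = Cfsg.sigmaCore Ms ⊓ Subgroup.centralizer ((ks M K : Subgroup G) : Set G)
  hKs : Cfsg.IsPiHallOf (Cfsg.kappa Ms) (ks M K) Ms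

/-- The statement of S1351 (not landed yet). -/
def H51 : Prop :=
  ∀ {G : Type u} [Group G] [Finite G], Cfsg.IsMinSimpleOddOrder G →
  ∀ (M : Subgroup G), IsCoatom M →
    (∃ K : Subgroup G, Cfsg.IsPiHallOf (Cfsg.kappa M) K M) ∧
      ∀ K : Subgroup G, Cfsg.IsPiHallOf (Cfsg.kappa M) K M → IsCyclic K

/-- The existence part of S1366 (not landed yet). -/
def H66 : Prop :=
  ∀ {G : Type u} [Group G] [Finite G], Cfsg.IsMinSimpleOddOrder G →
  ∀ (M K U : Subgroup G), IsCoatom M → Cfsg.IsSigmaDecomposition M K U → K ≠ ⊥ →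
    ∃ Ms : Subgroup G, Cfg M K U Ms

/-- NCONJ: `M` and `Ms` are not conjugate.  (`K ≠ 1`: a prime `q` of `|K|`
(`Nat.exists_prime_and_dvd`) is in `κ(M)` (`h.hKU.hall.2.1`), so `q ∉ σ(M)` (def of `kappa`);
`K ≤ Ms_σ` (`h.eK`), so `q ∣ |Ms_σ|` and `q ∈ σ(Ms)`
(`Cfsg.Agent.Lib.Helper9.BG11b.mem_sigma_of_dvd hG h.hMs`); if `Ms = g M g⁻¹` or `M = g Ms g⁻¹`
then `σ(Ms) = σ(M)` by `Cfsg.Agent.Lib.Helper9.BG11b.sigma_cj` (`cj g M` is an abbrev of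
`M.map (MulAut.conj g).toMonoidHom`).) -/
def NConj : Prop :=
  ∀ {G : Type u} [Group G] [Finite G], Cfsg.IsMinSimpleOddOrder G →
  ∀ (M K U Ms : Subgroup G), Cfg M K U Ms →
    (∀ g : G, Ms ≠ M.map (MulAut.conj g).toMonoidHom) ∧
      (∀ g : G, M ≠ Ms.map (MulAut.conj g).toMonoidHom)

/-- COV: if `U = 1` then `M = M_σ K`.  (`hKU.compl.2.2.2 m hm` gives `m = a * b`, `a ∈ ⊥`,
`b ∈ K ⊔ M_σ`; `K ≤ M` normalizes `M_σ`
(`Cfsg.Agent.Lib.Helper9.BG11b.sigmaCore_normal M : M ≤ normalizer (sigmaCore M)`), so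
`b = s * k` with `s ∈ M_σ`, `k ∈ K` (`sup_comm`, `Subgroup.mem_sup_of_normal_right`-style or
`Cfsg.Agent.Lib.Helper47.Syl.exists_mul_of_mem_sup_left`).) -/
def Cov : Prop :=
  ∀ {G : Type u} [Group G] [Finite G], Cfsg.IsMinSimpleOddOrder G →
  ∀ (M K : Subgroup G), IsCoatom M → Cfsg.IsSigmaDecomposition M K ⊥ →
    ∀ m ∈ M, ∃ a ∈ Cfsg.sigmaCore M, ∃ b ∈ K, m = a * b

/-- PRIMESUB (pure group theory): a subgroup `X` of prime order `p` of a cyclic `A ⊔ B` lies in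
`A` or in `B`.  (`x` a generator of `X`, `x = a * b`, `a ∈ A`, `b ∈ B` commuting (`A ⊔ B` is
commutative, so `A` normalizes `B`); if `p ∤ |A|` and `p ∤ |B|` then `orderOf (a * b)` divides
`|A| * |B|`, prime to `p`: contradiction.  If `p ∣ |A|`: Cauchy gives `X' ≤ A` of order `p`;
two subgroups of equal order of the cyclic `A ⊔ B` are equal
(`Cfsg.Agent.Lib.Helper9.ProdCyc.eq_of_card_eq_of_le_cyclic`, or `IsCyclic.card_...` in
`↥(A ⊔ B)`), so `X = X' ≤ A`.  Same for `B`.) -/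
def PrimeSub : Prop :=
  ∀ {G : Type u} [Group G] [Finite G] (A B X : Subgroup G), IsCyclic ↥(A ⊔ B) → X ≤ A ⊔ B →
    (Nat.card X).Prime → X ≤ A ∨ X ≤ B

/-- CL1 (clause 1 of S1369): `U ≠ 1` or every `Us` is `≠ 1`.  (Otherwise apply
`Cfsg.Agent.Lib.Helper90.FamCount.main hG (ι := Fin 2) (L := ![M, Ms]) (W := K ⊔ ks M K)`:
`hnc` = `NConj`; `hW`, `hint` from `S1368.result` (`M ⊓ Ms = K ⊔ ks M K`, cyclic, hence
commutative); `hcov` = `Cov` for `(M, K)` and for `(Ms, ks M K)`; `hcent`: `x ∈ W ⊓ M_σ`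
commutes with `K` (`W` commutative), so `x ∈ ks M K` and `C_G(x) ≤ M` by
`Cfsg.Agent.Lib.Helper22.S68CENT.main` for the `Pair M K Ms (ks M K)`
(`⟨h.hM, h.hMs, h.hKU.hall, h.hKs, rfl, h.eK, h.neK, (S1354.result ..).1⟩`); `x ∈ W ⊓ Ms_σ`
commutes with `ks M K`, so `x ∈ K` (`h.eK`) and `C_G(x) ≤ Ms` by `S68CENT.main` for `Pair.symm`;
`hpr`: `p ∣ |W|`: Cauchy gives `X ≤ W` of order `p`, `PrimeSub`: `X ≤ K ≤ Ms_σ` (so `p ∈ σ(Ms)`,
`mem_sigma_of_dvd`) or `X ≤ ks M K ≤ M_σ` (so `p ∈ σ(M)`).) -/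
def CL1 : Prop :=
  ∀ {G : Type u} [Group G] [Finite G], Cfsg.IsMinSimpleOddOrder G →
  ∀ (M K U Ms : Subgroup G), Cfg M K U Ms →
    U ≠ ⊥ ∨ ∀ Us : Subgroup G, Cfsg.IsSigmaDecomposition Ms (ks M K) Us → Us ≠ ⊥

/-- MEET (pure): two subsets with more than `|G|/2` elements meet.  (`Set.ncard_union_add_ncard_inter`
or `Set.ncard_union_le` + `Set.ncard_le_card`/`Set.ncard_coe`-style bound `ncard (S ∪ T) ≤ |G|`.) -/
def Meet : Prop :=
  ∀ {G : Type u} [Group G] [Finite G] (S T : Set G), Nat.card G < 2 * S.ncard →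
    Nat.card G < 2 * T.ncard → (S ∩ T).Nonempty

/-- CZ: `C_G(z) = K ⊔ ks M K` for `z ∈ Zhat`.  (`z = x * y`, `x ∈ K`, `y ∈ ks M K`
(`ks M K ≤ C_G(K)` so e.g. `Cfsg.Agent.Lib.Helper47.Syl.exists_mul_of_mem_sup_left` /
`Subgroup.mem_sup_of_normal_*`); `x ≠ 1` as `z ∉ ks M K`, `y ≠ 1` as `z ∉ K`; clause 3 of
`Cfsg.Agent.S1434.result`.) -/
def CZ : Prop :=
  ∀ {G : Type u} [Group G] [Finite G], Cfsg.IsMinSimpleOddOrder G →
  ∀ (M K U Ms : Subgroup G), Cfg M K U Ms → ∀ z ∈ Zhat K (ks M K),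
    Subgroup.centralizer ({z} : Set G) = K ⊔ ks M K

/-- CCONJ (pure): `C_G(h z h⁻¹) = h C_G(z) h⁻¹`. -/
def CConj : Prop :=
  ∀ {G : Type u} [Group G] (h z : G),
    Subgroup.centralizer ({h * z * h⁻¹} : Set G) =
      (Subgroup.centralizer ({z} : Set G)).map (MulAut.conj h).toMonoidHom

/-- EXPAIR: a maximal `H` with `κ(H) ≠ ∅` has a configuration.  (`H51`: a Hall `κ(H)`-subgroup
`K'`, cyclic.  `K' ≠ 1`: `p ∈ κ(H)` divides `|H|` (def of `kappa`) and not `K'.relIndex H`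
(Hall, `.2.2`), so `p ∣ |K'|`.  `(Cfsg.Agent.S1352.result hG H hH K' hc hK').1` gives `U'`;
`H66` gives `Hs`.) -/
def ExPair : Prop :=
  H51.{u} → H66.{u} → ∀ {G : Type u} [Group G] [Finite G], Cfsg.IsMinSimpleOddOrder G →
  ∀ (H : Subgroup G), IsCoatom H → (Cfsg.kappa H).Nonempty →
    ∃ K' U' Hs : Subgroup G, Cfg H K' U' Hs

/-- CENTCONJ (pure): `C_G(h⁻¹ X h) ≤ N` ⟹ `C_G(X) ≤ h N h⁻¹`. -/
def CentConj : Prop :=
  ∀ {G : Type u} [Group G] (h : G) (X N : Subgroup G),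
    Subgroup.centralizer ((X.map (MulAut.conj h⁻¹).toMonoidHom : Subgroup G) : Set G) ≤ N →
      Subgroup.centralizer (X : Set G) ≤ N.map (MulAut.conj h).toMonoidHom

/-- COATOMCONJ (pure): a conjugate of a maximal subgroup is maximal. -/
def CoatomConj : Prop :=
  ∀ {G : Type u} [Group G] (h : G) (M : Subgroup G), IsCoatom M →
    IsCoatom (M.map (MulAut.conj h).toMonoidHom)

/-- FIN: if `K' ⊔ ks H K' = h (K ⊔ ks M K) h⁻¹` then `H = h M h⁻¹` or `H = h Ms h⁻¹`.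
(`ks H K' ≠ 1` (`(S1354.result ..).1`): Cauchy gives `X ≤ ks H K'` of prime order.
`X ≤ h K h⁻¹ ⊔ h (ks M K) h⁻¹` (`Subgroup.map_sup`), which is cyclic (`S1368.result` for `H`),
so `PrimeSub`: `X ≤ h K h⁻¹` or `X ≤ h (ks M K) h⁻¹`.  `X₀ := h⁻¹ X h` has the same prime order
(`Subgroup.card_map_of_injective`) and lies in `K` resp. `ks M K`; `S1367.result` for `M`:
`C_G(X₀) ≤ Ms` resp. `≤ M`; `CentConj`: `C_G(X) ≤ h Ms h⁻¹` resp. `h M h⁻¹`, a coatom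
(`CoatomConj`); the uniqueness in `(S1367.result for H).1 X _ _` gives it `= H`.) -/
def Fin' : Prop :=
  PrimeSub.{u} → CentConj.{u} → CoatomConj.{u} →
  ∀ {G : Type u} [Group G] [Finite G], Cfsg.IsMinSimpleOddOrder G →
  ∀ (M K U Ms H K' U' Hs : Subgroup G), Cfg M K U Ms → Cfg H K' U' Hs → ∀ h : G,
    K' ⊔ ks H K' = (K ⊔ ks M K).map (MulAut.conj h).toMonoidHom →
      H = M.map (MulAut.conj h).toMonoidHom ∨ H = Ms.map (MulAut.conj h).toMonoidHom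

/-- CL2 (clause 2 of S1369).  (`ExPair` gives `Cfg H K' U' Hs`; the last clause of
`S1434.result` for both configurations and `Meet` give `a = g z g⁻¹ = g' z' g'⁻¹`,
`z ∈ Zhat K (ks M K)`, `z' ∈ Zhat K' (ks H K')`; `h := g'⁻¹ g`, `h z h⁻¹ = z'`; `CZ` twice and
`CConj`: `K' ⊔ ks H K' = (K ⊔ ks M K).map (conj h)`; `Fin'`.) -/
def CL2 : Prop :=
  H51.{u} → H66.{u} → ∀ {G : Type u} [Group G] [Finite G], Cfsg.IsMinSimpleOddOrder G →
  ∀ (M K U Ms : Subgroup G), Cfg M K U Ms → ∀ H : Subgroup G, IsCoatom H →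
    (Cfsg.kappa H).Nonempty →
      ∃ g : G, H = M.map (MulAut.conj g).toMonoidHom ∨ H = Ms.map (MulAut.conj g).toMonoidHom

end Cfsg.Agent.Lib.Helper23.S69Stmt
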