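import Mathlib
import Cfsg.Prelude.Def_OddOrderLocal
import Cfsg.Prelude.Def_OddOrder
import Cfsg.Agent.S0024
import Cfsg.Agent.S0025
import Cfsg.Agent.Lib.Helper23.Cores
import Cfsg.Agent.Lib.Helper24.PGroupBasic
import Cfsg.Agent.Lib.Helper53.SylowMore

set_option autoImplicit false

namespace Cfsg.Agent.Lib.Helper23.Transitivity

open Cfsg.Agent.Lib.Helper23.Cores

variable {G : Type*} [Group G]

/-- All prime divisors of `n` lie in `π`. -/
def IsPiNum (π : Set ℕ) (n : ℕ) : Prop := ∀ p : ℕ, p.Prime → p ∣ n → p ∈ π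

theorem isPiNum_of_dvd {π : Set ℕ} {m n : ℕ} (h : IsPiNum π n) (hd : m ∣ n) : IsPiNum π m :=
  fun p hp hpm => h p hp (hpm.trans hd)

/-- `O_π(G)` is a `π`-group. -/
theorem isPiNum_card_piCore [Finite G] (π : Set ℕ) : IsPiNum π (Nat.card (Cfsg.piCore π G)) := by
  unfold Cfsg.piCore
  apply card_sSup_of_normal (IsPiNum π)
  · intro p hp h1
    exact absurd (Nat.le_of_dvd one_pos h1) (not_le.mpr hp.one_lt)
  · intro a b c ha hb hc p hp hpc
    rcases (hp.dvd_mul).mp (hpc.trans hc) with h | h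
    · exact ha p hp h
    · exact hb p hp h
  · intro N hN
    exact hN.1
  · intro N hN
    exact hN.2

/-- `O_π(X)` is a `π`-group. -/
theorem isPiNum_card_piCoreOf [Finite G] (π : Set ℕ) (X : Subgroup G) :
    IsPiNum π (Nat.card (Cfsg.piCoreOf π X)) := by
  unfold Cfsg.piCoreOf
  rw [Subgroup.card_map_of_injective (Subgroup.subtype_injective _)]
  exact isPiNum_card_piCore π

theorem piCoreOf_le (π : Set ℕ) (X : Subgroup G) : Cfsg.piCoreOf π X ≤ X := by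
  unfold Cfsg.piCoreOf
  exact Subgroup.map_subtype_le _

/-- A subgroup `X` normalizes `N` as soon as it maps `N` into itself by conjugation. -/
theorem le_normalizer_of_conj_mem {X N : Subgroup G} (h : ∀ x ∈ X, ∀ y ∈ N, x * y * x⁻¹ ∈ N) :
    X ≤ Subgroup.normalizer (N : Set G) := by
  intro x hx
  rw [Subgroup.mem_normalizer_iff]
  intro y
  constructor
  · exact h x hx y
  · intro hy
    have := h x⁻¹ (X.inv_mem hx) _ hy
    have e : x⁻¹ * (x * y * x⁻¹) * x⁻¹⁻¹ = y := by group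
    rwa [e] at this

theorem conj_mem_of_le_normalizer {X N : Subgroup G} (h : X ≤ Subgroup.normalizer (N : Set G))
    {x y : G} (hx : x ∈ X) (hy : y ∈ N) : x * y * x⁻¹ ∈ N :=
  (Subgroup.mem_normalizer_iff.mp (h hx) y).mp hy

/-- `X` normalizes `O_π(X)`. -/
theorem le_normalizer_piCoreOf (π : Set ℕ) (X : Subgroup G) :
    X ≤ Subgroup.normalizer (Cfsg.piCoreOf π X : Set G) := by
  apply le_normalizer_of_conj_mem
  intro x hx y hy
  unfold Cfsg.piCoreOf at hy ⊢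
  obtain ⟨y', hy', rfl⟩ := hy
  refine ⟨⟨x, hx⟩ * y' * ⟨x, hx⟩⁻¹, ?_, rfl⟩
  exact (Cfsg.piCore_normal π ↥X).conj_mem y' hy' ⟨x, hx⟩

/-- A `π`-subgroup of `X` normalized by `X` lies in `O_π(X)`. -/
theorem le_piCoreOf [Finite G] (π : Set ℕ) {X N : Subgroup G} (hNX : N ≤ X)
    (hn : X ≤ Subgroup.normalizer (N : Set G)) (hπ : IsPiNum π (Nat.card N)) :
    N ≤ Cfsg.piCoreOf π X := by
  have h1 : (N.subgroupOf X).Normal := (Subgroup.normal_subgroupOf_iff_le_normalizer hNX).mpr hn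
  have h2 : Nat.card ↥(N.subgroupOf X) = Nat.card N :=
    Nat.card_congr (Subgroup.subgroupOfEquivOfLe hNX).toEquiv
  have h3 : N.subgroupOf X ≤ Cfsg.piCore π ↥X := by
    unfold Cfsg.piCore
    apply le_sSup
    exact ⟨h1, by rw [h2]; exact hπ⟩
  have h4 : (N.subgroupOf X).map X.subtype = N := Subgroup.map_subgroupOf_eq_of_le hNX
  rw [← h4]
  unfold Cfsg.piCoreOf
  exact Subgroup.map_mono h3

theorem coprime_of_isPiNum {a n : ℕ} (h : IsPiNum (Cfsg.primesNotDvd a) n) : a.Coprime n := by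
  apply Nat.Coprime.symm
  apply Nat.coprime_of_dvd
  intro k hk hkn hka
  exact (h k hk hkn).2 hka

/-! ### Invariant `q`-subgroups -/

theorem mem_inv_iff [Finite G] (A : Subgroup G) (q : ℕ) (hq : q.Prime) (Y : Subgroup G) :
    Y ∈ Cfsg.invSubgroups ⊤ A {q} ↔ IsPGroup q Y ∧ A ≤ Subgroup.normalizer (Y : Set G) := by
  unfold Cfsg.invSubgroups
  simp only [Set.mem_ofPred_eq, le_top, true_and, Set.mem_singleton_iff]
  have hF : Fact q.Prime := ⟨hq⟩
  constructor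
  · rintro ⟨h1, h2⟩
    refine ⟨?_, h2⟩
    have hne : Nat.card Y ≠ 0 := Nat.card_pos.ne'
    have := Nat.eq_prime_pow_of_unique_prime_dvd hne (fun {d} hd hdvd => h1 d hd hdvd)
    exact IsPGroup.of_card this
  · rintro ⟨h1, h2⟩
    refine ⟨?_, h2⟩
    intro p hp hpd
    obtain ⟨n, hn⟩ := IsPGroup.iff_card.mp h1
    rw [hn] at hpd
    exact (Nat.prime_dvd_prime_iff_eq hp hq).mp (hp.dvd_of_dvd_pow hpd)

theorem map_conj_one (Y : Subgroup G) : Y.map (MulAut.conj (1 : G)).toMonoidHom = Y := by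
  ext x
  simp

theorem map_conj_map_conj (Y : Subgroup G) (k k' : G) :
    (Y.map (MulAut.conj k).toMonoidHom).map (MulAut.conj k').toMonoidHom =
      Y.map (MulAut.conj (k' * k)).toMonoidHom := by
  rw [Subgroup.map_map]
  congr 1
  ext x
  simp [mul_assoc]

theorem conj_mem_inv [Finite G] {A : Subgroup G} {q : ℕ} (hq : q.Prime) {Y : Subgroup G}
    (hY : Y ∈ Cfsg.invSubgroups ⊤ A {q}) {k : G} (hk : k ∈ Subgroup.centralizer (A : Set G)) :
    Y.map (MulAut.conj k).toMonoidHom ∈ Cfsg.invSubgroups ⊤ A {q} := by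
  rw [mem_inv_iff A q hq] at hY ⊢
  refine ⟨hY.1.map _, ?_⟩
  apply le_normalizer_of_conj_mem
  rintro a ha _ ⟨y, hy, rfl⟩
  refine ⟨a * y * a⁻¹, conj_mem_of_le_normalizer hY.2 ha hy, ?_⟩
  have hak : a * k = k * a := Subgroup.mem_centralizer_iff.mp hk a ha
  have hak' : a⁻¹ * k⁻¹ = k⁻¹ * a⁻¹ := by rw [← mul_inv_rev, ← mul_inv_rev, hak]
  simp only [MulEquiv.coe_toMonoidHom, MulAut.conj_apply]
  calc k * (a * y * a⁻¹) * k⁻¹ = (k * a) * y * (a⁻¹ * k⁻¹) := by group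
    _ = (a * k) * y * (k⁻¹ * a⁻¹) := by rw [hak, hak']
    _ = a * (k * y * k⁻¹) * a⁻¹ := by group

theorem conj_mem_maxInv [Finite G] {A : Subgroup G} {q : ℕ} (hq : q.Prime) {Q : Subgroup G}
    (hQ : Q ∈ Cfsg.maxInvSubgroups ⊤ A {q}) {k : G} (hk : k ∈ Subgroup.centralizer (A : Set G)) :
    Q.map (MulAut.conj k).toMonoidHom ∈ Cfsg.maxInvSubgroups ⊤ A {q} := by
  refine ⟨conj_mem_inv hq hQ.1 hk, fun R hR hle => ?_⟩
  have hk' : k⁻¹ ∈ Subgroup.centralizer (A : Set G) := inv_mem hk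
  have hR' := conj_mem_inv hq hR hk'
  have hle' : Q ≤ R.map (MulAut.conj k⁻¹).toMonoidHom := by
    have := Subgroup.map_mono (f := (MulAut.conj k⁻¹).toMonoidHom) hle
    rwa [map_conj_map_conj, inv_mul_cancel, map_conj_one] at this
  have := hQ.2 _ hR' hle'
  rw [← this, map_conj_map_conj, mul_inv_cancel, map_conj_one]

theorem exists_maxInv_ge [Finite G] {A : Subgroup G} {q : ℕ} {Y : Subgroup G}
    (hY : Y ∈ Cfsg.invSubgroups ⊤ A {q}) : ∃ R ∈ Cfsg.maxInvSubgroups ⊤ A {q}, Y ≤ R := by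
  obtain ⟨R, hR, hYR, hmax⟩ := Cfsg.Agent.Lib.Helper24.PGroupBasic.exists_maximal_subgroup
    (fun R => R ∈ Cfsg.invSubgroups ⊤ A {q}) Y hY
  exact ⟨R, ⟨hR, fun B hB hRB => hmax B hB hRB⟩, hYR⟩

/-- Conjugacy of subgroups under elements of `K`. -/
def KConj (K Q Q' : Subgroup G) : Prop := ∃ k ∈ K, Q' = Q.map (MulAut.conj k).toMonoidHom

theorem kConj_trans {K Q Q' Q'' : Subgroup G} (h1 : KConj K Q Q') (h2 : KConj K Q' Q'') :
    KConj K Q Q'' := by
  obtain ⟨k, hk, rfl⟩ := h1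
  obtain ⟨k', hk', rfl⟩ := h2
  exact ⟨k' * k, K.mul_mem hk' hk, by rw [map_conj_map_conj]⟩

theorem normalizer_ne_top_of_simple (hS : IsSimpleGroup G) {D : Subgroup G} (h1 : D ≠ ⊥)
    (h2 : D ≠ ⊤) : Subgroup.normalizer (D : Set G) ≠ ⊤ := by
  intro h
  have hn : D.Normal := Subgroup.normalizer_eq_top_iff.mp h
  rcases hn.eq_bot_or_eq_top with h | h
  · exact h1 h
  · exact h2 h

theorem hyp_le {A : Subgroup G} (hA : Cfsg.TransitivityHypothesis A) {X : Subgroup G}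
    (hX : X ≠ ⊤) (hAX : A ≤ X) {Y : Subgroup G}
    (hY : Y ∈ Cfsg.invSubgroups X A (Cfsg.primesNotDvd (Nat.card A))) :
    Y ≤ Cfsg.piCoreOf (Cfsg.primesNotDvd (Nat.card A)) X := by
  rw [← hA.2.2 X hX hAX]
  exact le_sSup hY

/-- Under the transitivity hypothesis, every `π(A)'`-subgroup centralized by `A` lies in
`K = O_{π(A)'}(C_G(A))`. -/
theorem le_K [Finite G] (hS : IsSimpleGroup G) {A : Subgroup G}
    (hA : Cfsg.TransitivityHypothesis A) {Y : Subgroup G}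
    (hYC : Y ≤ Subgroup.centralizer (A : Set G))
    (hYπ : IsPiNum (Cfsg.primesNotDvd (Nat.card A)) (Nat.card Y)) :
    Y ≤ Cfsg.piCoreOf (Cfsg.primesNotDvd (Nat.card A)) (Subgroup.centralizer (A : Set G)) := by
  have hNA : Subgroup.normalizer (A : Set G) ≠ ⊤ := normalizer_ne_top_of_simple hS hA.1 hA.2.1
  have hCN : Subgroup.centralizer (A : Set G) ≤ Subgroup.normalizer (A : Set G) :=
    Subgroup.centralizer_le_normalizer _
  have hYinv : Y ∈ Cfsg.invSubgroups (Subgroup.normalizer (A : Set G)) A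
      (Cfsg.primesNotDvd (Nat.card A)) := by
    refine ⟨hYC.trans hCN, hYπ, ?_⟩
    apply le_normalizer_of_conj_mem
    intro a ha y hy
    have := Subgroup.mem_centralizer_iff.mp (hYC hy) a ha
    rw [this, mul_inv_cancel_right]
    exact hy
  have hYM := hyp_le hA hNA Subgroup.le_normalizer hYinv
  obtain ⟨M, hM⟩ : ∃ M, M = Cfsg.piCoreOf (Cfsg.primesNotDvd (Nat.card A))
    (Subgroup.normalizer (A : Set G)) := ⟨_, rfl⟩
  rw [← hM] at hYM
  have hMπ : IsPiNum (Cfsg.primesNotDvd (Nat.card A)) (Nat.card M) := by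
    rw [hM]; exact isPiNum_card_piCoreOf _ _
  have hMN : M ≤ Subgroup.normalizer (A : Set G) := by
    rw [hM]; exact piCoreOf_le _ _
  have hNM : Subgroup.normalizer (A : Set G) ≤ Subgroup.normalizer (M : Set G) := by
    rw [hM]; exact le_normalizer_piCoreOf _ _
  have hcop : (Nat.card A).Coprime (Nat.card M) := coprime_of_isPiNum hMπ
  have hMA : M ⊓ A = ⊥ := (Subgroup.disjoint_of_coprime_natCard hcop.symm).eq_bot
  have hMC : M ≤ Subgroup.centralizer (A : Set G) := by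
    intro m hm
    refine Subgroup.mem_centralizer_iff.mpr ?_
    intro a ha
    have h1 : m * a * m⁻¹ * a⁻¹ ∈ A :=
      A.mul_mem (conj_mem_of_le_normalizer hMN hm ha) (A.inv_mem ha)
    have h2 : m * a * m⁻¹ * a⁻¹ ∈ M := by
      have : a * m⁻¹ * a⁻¹ ∈ M :=
        conj_mem_of_le_normalizer (Subgroup.le_normalizer.trans hNM) ha (M.inv_mem hm)
      have e : m * a * m⁻¹ * a⁻¹ = m * (a * m⁻¹ * a⁻¹) := by group
      rw [e]
      exact M.mul_mem hm this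
    have h3 : m * a * m⁻¹ * a⁻¹ ∈ M ⊓ A := ⟨h2, h1⟩
    rw [hMA, Subgroup.mem_bot] at h3
    have h4 := mul_inv_eq_one.mp h3
    exact (mul_inv_eq_iff_eq_mul.mp h4).symm
  have hMK := le_piCoreOf (Cfsg.primesNotDvd (Nat.card A)) hMC (hCN.trans hNM) hMπ
  exact hYM.trans hMK

/-- The bridging step of Thompson transitivity: for a proper subgroup `H ≥ A` and two
`A`-invariant `q`-subgroups there is a maximal `A`-invariant `q`-subgroup `R` and `x ∈ K` with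
`H ∩ Q₁ ≤ R` and `H ∩ Q₂ ≤ R^x`. -/
theorem bridge [Finite G] (hG : Cfsg.IsMinSimpleOddOrder G) {A : Subgroup G}
    (hA : Cfsg.TransitivityHypothesis A) {q : ℕ} (hq : q.Prime) (hqA : ¬ q ∣ Nat.card A)
    {Q₁ Q₂ : Subgroup G} (h₁ : Q₁ ∈ Cfsg.invSubgroups ⊤ A {q})
    (h₂ : Q₂ ∈ Cfsg.invSubgroups ⊤ A {q}) {H : Subgroup G} (hH : H ≠ ⊤) (hAH : A ≤ H) :
    ∃ R ∈ Cfsg.maxInvSubgroups ⊤ A {q},
      ∃ x ∈ Cfsg.piCoreOf (Cfsg.primesNotDvd (Nat.card A)) (Subgroup.centralizer (A : Set G)),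
        H ⊓ Q₁ ≤ R ∧ H ⊓ Q₂ ≤ R.map (MulAut.conj x).toMonoidHom := by
  have hF : Fact q.Prime := ⟨hq⟩
  have hS : IsSimpleGroup G := hG.2.1
  have hAsolv : Group.IsSolvable A := hG.2.2.2 A hA.2.1
  rw [mem_inv_iff A q hq] at h₁ h₂
  obtain ⟨L, hL⟩ : ∃ L, L = Cfsg.piCoreOf (Cfsg.primesNotDvd (Nat.card A)) H := ⟨_, rfl⟩
  have hLπ : IsPiNum (Cfsg.primesNotDvd (Nat.card A)) (Nat.card L) := by
    rw [hL]; exact isPiNum_card_piCoreOf _ H
  have hAL : A ≤ Subgroup.normalizer (L : Set G) := by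
    rw [hL]; exact hAH.trans (le_normalizer_piCoreOf _ H)
  have hcop : (Nat.card A).Coprime (Nat.card L) := coprime_of_isPiNum hLπ
  have hT : ∀ Q : Subgroup G, IsPGroup q Q → A ≤ Subgroup.normalizer (Q : Set G) →
      H ⊓ Q ≤ L ∧ IsPGroup q ↥(H ⊓ Q) ∧
        A ≤ Subgroup.normalizer ((H ⊓ Q : Subgroup G) : Set G) := by
    intro Q hQ hAQ
    have hp : IsPGroup q ↥(H ⊓ Q) := hQ.to_le inf_le_right
    have hn : A ≤ Subgroup.normalizer ((H ⊓ Q : Subgroup G) : Set G) := by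
      apply le_normalizer_of_conj_mem
      intro a ha y hy
      exact ⟨H.mul_mem (H.mul_mem (hAH ha) hy.1) (H.inv_mem (hAH ha)),
        conj_mem_of_le_normalizer hAQ ha hy.2⟩
    refine ⟨?_, hp, hn⟩
    rw [hL]
    apply hyp_le hA hH hAH
    refine ⟨inf_le_left, ?_, hn⟩
    intro p hp' hpd
    obtain ⟨n, hn'⟩ := IsPGroup.iff_card.mp hp
    rw [hn'] at hpd
    have : p = q := (Nat.prime_dvd_prime_iff_eq hp' hq).mp (hp'.dvd_of_dvd_pow hpd)
    rw [this]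
    exact ⟨hq, hqA⟩
  obtain ⟨hT₁L, hT₁p, hT₁A⟩ := hT Q₁ h₁.1 h₁.2
  obtain ⟨hT₂L, hT₂p, hT₂A⟩ := hT Q₂ h₂.1 h₂.2
  obtain ⟨P₁, hP₁T, hP₁A⟩ := Cfsg.Agent.S0025.result A L hAL hcop (Or.inl hAsolv) q (H ⊓ Q₁)
    hT₁L hT₁p hT₁A
  obtain ⟨P₂, hP₂T, hP₂A⟩ := Cfsg.Agent.S0025.result A L hAL hcop (Or.inl hAsolv) q (H ⊓ Q₂)
    hT₂L hT₂p hT₂A
  obtain ⟨c, hcA, hc⟩ := Cfsg.Agent.S0024.result A L hAL hcop (Or.inl hAsolv) q P₁ P₂ hP₁A hP₂A
  have hxK : (c : G) ∈ Cfsg.piCoreOf (Cfsg.primesNotDvd (Nat.card A))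
      (Subgroup.centralizer (A : Set G)) := by
    have : L ⊓ Subgroup.centralizer (A : Set G) ≤ Cfsg.piCoreOf (Cfsg.primesNotDvd (Nat.card A))
        (Subgroup.centralizer (A : Set G)) :=
      le_K hS hA inf_le_right (isPiNum_of_dvd hLπ (Subgroup.card_dvd_of_le inf_le_left))
    exact this ⟨c.2, hcA⟩
  have hS₁ : (P₁ : Subgroup L).map L.subtype ∈ Cfsg.invSubgroups ⊤ A {q} := by
    rw [mem_inv_iff A q hq]
    exact ⟨P₁.isPGroup'.map _, hP₁A⟩
  obtain ⟨R, hR, hS₁R⟩ := exists_maxInv_ge hS₁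
  refine ⟨R, hR, (c : G), hxK, hP₁T.trans hS₁R, ?_⟩
  have hconj : (P₂ : Subgroup L).map L.subtype =
      ((P₁ : Subgroup L).map L.subtype).map (MulAut.conj (c : G)).toMonoidHom := by
    rw [← hc]
    have e1 : ((MulAut.conj c • P₁ : Sylow q L) : Subgroup L) =
        (P₁ : Subgroup L).map (MulAut.conj c).toMonoidHom := rfl
    rw [e1, Subgroup.map_map, Subgroup.map_map]
    congr 1
  rw [hconj] at hP₂T
  exact hP₂T.trans (Subgroup.map_mono hS₁R)

theorem card_lt_of_lt [Finite G] {H K : Subgroup G} (h : H < K) : Nat.card H < Nat.card K := by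
  by_contra hcon
  push Not at hcon
  exact h.ne (Subgroup.eq_of_le_of_card_ge h.le hcon)

/-- Thompson transitivity for maximal invariant `q`-subgroups with nontrivial intersection. -/
theorem kConj_of_inf_ne_bot [Finite G] (hG : Cfsg.IsMinSimpleOddOrder G) {A : Subgroup G}
    (hA : Cfsg.TransitivityHypothesis A) {q : ℕ} (hq : q.Prime) (hqA : ¬ q ∣ Nat.card A) :
    ∀ m : ℕ, ∀ Q Q' : Subgroup G, Q ∈ Cfsg.maxInvSubgroups ⊤ A {q} →
      Q' ∈ Cfsg.maxInvSubgroups ⊤ A {q} → Q ⊓ Q' ≠ ⊥ →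
      Nat.card G - Nat.card ↥(Q ⊓ Q') = m →
      KConj (Cfsg.piCoreOf (Cfsg.primesNotDvd (Nat.card A)) (Subgroup.centralizer (A : Set G)))
        Q Q' := by
  have hF : Fact q.Prime := ⟨hq⟩
  have hS : IsSimpleGroup G := hG.2.1
  intro m
  induction m using Nat.strong_induction_on with
  | _ m ih =>
    intro Q Q' hQ hQ' hne hm
    by_cases hD1 : Q ⊓ Q' = Q
    · have hle : Q ≤ Q' := inf_eq_left.mp hD1
      have := hQ.2 Q' hQ'.1 hle
      exact ⟨1, one_mem _, by rw [map_conj_one, this]⟩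
    by_cases hD2 : Q ⊓ Q' = Q'
    · have hle : Q' ≤ Q := inf_eq_right.mp hD2
      have := hQ'.2 Q hQ.1 hle
      exact ⟨1, one_mem _, by rw [map_conj_one, this]⟩
    have hQp := (mem_inv_iff A q hq Q).mp hQ.1
    have hQ'p := (mem_inv_iff A q hq Q').mp hQ'.1
    have hDtop : Q ⊓ Q' ≠ ⊤ := by
      intro h
      apply hD1
      have hQtop : Q = ⊤ := top_le_iff.mp (h ▸ inf_le_left)
      rw [h, hQtop]
    have hN : Subgroup.normalizer ((Q ⊓ Q' : Subgroup G) : Set G) ≠ ⊤ :=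
      normalizer_ne_top_of_simple hS hne hDtop
    have hAN : A ≤ Subgroup.normalizer ((Q ⊓ Q' : Subgroup G) : Set G) := by
      apply le_normalizer_of_conj_mem
      intro a ha y hy
      exact ⟨conj_mem_of_le_normalizer hQp.2 ha hy.1, conj_mem_of_le_normalizer hQ'p.2 ha hy.2⟩
    obtain ⟨R, hR, x, hx, hR1, hR2⟩ := bridge hG hA hq hqA hQ.1 hQ'.1 hN hAN
    obtain ⟨t, htQ, htN, htD⟩ := Cfsg.Agent.Lib.Helper53.SylowMore.exists_normalizer_not_mem
      Q (Q ⊓ Q') hQp.1 inf_le_left hD1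
    obtain ⟨t', htQ', htN', htD'⟩ := Cfsg.Agent.Lib.Helper53.SylowMore.exists_normalizer_not_mem
      Q' (Q ⊓ Q') hQ'p.1 inf_le_right hD2
    have hxC : x ∈ Subgroup.centralizer (A : Set G) := (piCoreOf_le _ _) hx
    have hRx := conj_mem_maxInv hq hR hxC
    have hlt1 : Q ⊓ Q' < Q ⊓ R := by
      refine lt_of_le_of_ne (le_inf inf_le_left ?_) ?_
      · exact (le_inf Subgroup.le_normalizer inf_le_left).trans hR1
      · intro h
        apply htD
        rw [h]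
        exact ⟨htQ, hR1 ⟨htN, htQ⟩⟩
    have hlt2 : Q ⊓ Q' < R.map (MulAut.conj x).toMonoidHom ⊓ Q' := by
      refine lt_of_le_of_ne (le_inf ?_ inf_le_right) ?_
      · exact (le_inf Subgroup.le_normalizer inf_le_right).trans hR2
      · intro h
        apply htD'
        rw [h]
        exact ⟨hR2 ⟨htN', htQ'⟩, htQ'⟩
    have hc1 := card_lt_of_lt hlt1
    have hc2 := card_lt_of_lt hlt2
    have hle1 : Nat.card ↥(Q ⊓ R) ≤ Nat.card G := Subgroup.card_le_card_group _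
    have hle2 : Nat.card ↥(R.map (MulAut.conj x).toMonoidHom ⊓ Q') ≤ Nat.card G :=
      Subgroup.card_le_card_group _
    have r1 := ih (Nat.card G - Nat.card ↥(Q ⊓ R)) (by omega) Q R hQ hR (ne_bot_of_gt hlt1) rfl
    have r2 := ih (Nat.card G - Nat.card ↥(R.map (MulAut.conj x).toMonoidHom ⊓ Q')) (by omega)
      _ Q' hRx hQ' (ne_bot_of_gt hlt2) rfl
    exact kConj_trans r1 (kConj_trans ⟨x, hx, rfl⟩ r2)

/-- Bender–Glauberman Lemma 7.1 (Thompson transitivity): two maximal `A`-invariant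
`q`-subgroups meeting a common proper subgroup `H ≥ A` nontrivially are conjugate under
`K = O_{π(A)'}(C_G(A))`. -/
theorem kConj_of_meet [Finite G] (hG : Cfsg.IsMinSimpleOddOrder G) {A : Subgroup G}
    (hA : Cfsg.TransitivityHypothesis A) {q : ℕ} (hq : q.Prime) (hqA : ¬ q ∣ Nat.card A)
    {Q₁ Q₂ : Subgroup G} (h₁ : Q₁ ∈ Cfsg.maxInvSubgroups ⊤ A {q})
    (h₂ : Q₂ ∈ Cfsg.maxInvSubgroups ⊤ A {q}) {H : Subgroup G} (hH : H ≠ ⊤) (hAH : A ≤ H)
    (hH₁ : H ⊓ Q₁ ≠ ⊥) (hH₂ : H ⊓ Q₂ ≠ ⊥) :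
    KConj (Cfsg.piCoreOf (Cfsg.primesNotDvd (Nat.card A)) (Subgroup.centralizer (A : Set G)))
      Q₁ Q₂ := by
  obtain ⟨R, hR, x, hx, hR1, hR2⟩ := bridge hG hA hq hqA h₁.1 h₂.1 hH hAH
  have hxC : x ∈ Subgroup.centralizer (A : Set G) := (piCoreOf_le _ _) hx
  have hRx := conj_mem_maxInv hq hR hxC
  have n1 : Q₁ ⊓ R ≠ ⊥ := by
    intro h
    apply hH₁
    rw [eq_bot_iff, ← h]
    exact le_inf inf_le_right hR1
  have n2 : R.map (MulAut.conj x).toMonoidHom ⊓ Q₂ ≠ ⊥ := by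
    intro h
    apply hH₂
    rw [eq_bot_iff, ← h]
    exact le_inf hR2 inf_le_right
  exact kConj_trans (kConj_of_inf_ne_bot hG hA hq hqA _ Q₁ R h₁ hR n1 rfl)
    (kConj_trans ⟨x, hx, rfl⟩ (kConj_of_inf_ne_bot hG hA hq hqA _ _ Q₂ hRx h₂ n2 rfl))

end Cfsg.Agent.Lib.Helper23.Transitivity
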