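import Mathlib
import Cfsg.Prelude.Def_OddOrderLocal

set_option autoImplicit false

/-!
# S1438 (BG 15.x: `H ≠ 1` a Hall subgroup of `M_σ`: `C_M(H) = C_{M_σ}(H) X`, `X` a cyclic
`τ₂(M)`-group; fusion in `H` is controlled by `N_M(H)`): statements of the pieces (helper23)

Every Prop's docstring is its proof.  `Ms = sigmaCore M`.  LANDED tools: S1350 (`.1`: `Ms` is a
Hall `σ(M)`-subgroup), S1351 + S1352 (a σ-decomposition `K, U` exists), S1355, S1359, S1364,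
S1365, S1374, S1417, `Helper17.S64NC.main : Helper93.S64Stmt.NC` (cyclic normal Hall subgroup
meets `M''` trivially; see how `Helper78.S64NOTCYC` applies it), `Helper17.S64FHHALL.main`,
`Helper55.S66Base.primAct`, `Helper90.BG14U.uset_of_decomp` (`.compl : IsComplIn (K ⊔ U) Ms M`),
`Helper22.BG1210.{exists_conj_le_compl, coprime_compl, coprime_card_sigmaCore, hall_conj}`,
`Helper9.BG11b.{sigmaCore_le, sigmaCore_normal}`, `Helper9.BG10a.isSolvable_of_ne_top`,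
`Helper71.Fitting.{le_fitting, fitting_isNilpotent}`.
-/

namespace Cfsg.Agent.Lib.Helper23.HNStmt

universe u

open Cfsg

/-- PURE.  In a nilpotent subgroup `N`, a Hall subgroup is determined by its order.
Proof: for a prime `p ∣ |A|`, a Sylow `p`-subgroup of `A` has order `p ^ v_p(|N|)` (coprime
index), so it is a Sylow `p`-subgroup of `N`, hence THE Sylow `p`-subgroup `P_p` of `N` (normal,
`N` nilpotent); every element of `A` or `B` is a product of its prime-power parts, each in the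
corresponding `P_p`, `p ∣ |A| = |B|`; so `A, B ≤ T := ⨆ P_p`, and `|T| ≤ ∏ |P_p| = |A|`
(or: `B ≤ T ≤ A` and equal cards). -/
def HallNilUniq : Prop :=
  ∀ {G : Type u} [Group G] [Finite G] (N A B : Subgroup G), Group.IsNilpotent N → A ≤ N → B ≤ N →
    Nat.card A = Nat.card B → (Nat.card A).Coprime (A.relIndex N) → A = B

/-- PURE (P. Hall, solvable groups; `Helper22.BG1210.hall_conj` / `Cfsg.Agent.S3745`): two Hall
subgroups of the same order of a solvable subgroup `S` are conjugate in `S`. -/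
def HallConj : Prop :=
  ∀ {G : Type u} [Group G] [Finite G] (S A B : Subgroup G), Group.IsSolvable S → A ≤ S → B ≤ S →
    Nat.card A = Nat.card B → (Nat.card A).Coprime (A.relIndex S) →
    ∃ s ∈ S, B = A.map (MulAut.conj s).toMonoidHom

/-- PURE (Sylow): an element of prime order `p` of `M` is `M`-conjugate into any `K ≤ M` of index
prime to `p`. -/
def ConjHall : Prop :=
  ∀ {G : Type u} [Group G] [Finite G] (M K : Subgroup G), K ≤ M → ∀ x ∈ M, ∀ p : ℕ, p.Prime →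
    orderOf x = p → ¬ p ∣ K.relIndex M → ∃ m ∈ M, m * x * m⁻¹ ∈ K

/-- PURE.  Fusion in a Hall subgroup `H` of `S`, where `F ≤ S ≤ D`, `F` a nilpotent normal Hall
subgroup of `X` and `D / F` nilpotent.
Proof: (1) `m H m⁻¹` is a Hall subgroup of `S` of the order of `H` (`S` normal): `HallConj` gives
`s ∈ S` with `m H m⁻¹ = s H s⁻¹`; `n₀ = s⁻¹ m ∈ N(H)`, `x₀ = n₀ x n₀⁻¹ ∈ H`, `s x₀ s⁻¹ ∈ H`.
(2) `H F / F` is a Hall subgroup of the nilpotent `S / F` (image of `S` in `D.map mk`), hence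
normal (`HallNilUniq` for it and its conjugates), so `s H s⁻¹ ≤ H F`, a Hall subgroup of `H ⊔ F`
of the order of `H`: `HallConj` in `H ⊔ F` gives `s H s⁻¹ = f H f⁻¹` with `f ∈ F`
(an element of `H ⊔ F` is `f h`); `n₁ = f⁻¹ s ∈ N(H)`, `x₁ = n₁ x₀ n₁⁻¹ ∈ H`, `f x₁ f⁻¹ ∈ H`.
(3) `A = H ⊓ F` is a Hall subgroup of `F` (`|F : A| = |H F : H|` divides `|S : H|`); `F`
nilpotent: `A` is normal in `F` and has a complement `R` in `F`
(`Subgroup.exists_right_complement'_of_coprime`), `|R| = |F : A|` prime to `|H|`, so `R ⊓ H = ⊥`;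
`x₁ R x₁⁻¹ = R` (`HallNilUniq` in `F`).  `f = h₀ r` (`h₀ ∈ A`, `r ∈ R`): `r x₁ r⁻¹ ∈ H`, and
`r x₁ r⁻¹ x₁⁻¹ ∈ R ⊓ H = ⊥`, so `f x₁ f⁻¹ = h₀ x₁ h₀⁻¹` and `n = h₀ n₁ n₀`. -/
def FusHall : Prop :=
  ∀ {X : Type u} [Group X] [Finite X], Group.IsSolvable X →
  ∀ (S F D H : Subgroup X) [F.Normal], S.Normal → F ≤ S → S ≤ D → Group.IsNilpotent F →
    (Nat.card F).Coprime F.index → Group.IsNilpotent ↥(D.map (QuotientGroup.mk' F)) →
    H ≤ S → (Nat.card H).Coprime (H.relIndex S) →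
    ∀ x ∈ H, ∀ m : X, m * x * m⁻¹ ∈ H →
      ∃ n ∈ Subgroup.normalizer (H : Set X), n * x * n⁻¹ = m * x * m⁻¹

/-- BG.  Fusion of elements of `M_σ` is controlled by `M`.
Proof: `x = 1`: `m = 1`.  Else `(S1374.result hG M hM x hx hx1).2` gives `R` with
`IsComplIn (M ⊓ C(x)) R (C(x))` (so `R ≤ C({x})`) and, as `x ∈ M.map (conj g⁻¹)`, some `r ∈ R`
with `M.map (conj r) = M.map (conj g⁻¹)`; then `g * r` normalizes `M`, `N_G(M) = M` (`M` maximal,
`G` simple), `m = g * r`, `m x m⁻¹ = g x g⁻¹`. -/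
def FusM : Prop :=
  ∀ {G : Type u} [Group G] [Finite G], Cfsg.IsMinSimpleOddOrder G →
  ∀ (M : Subgroup G), IsCoatom M → ∀ x ∈ Cfsg.sigmaCore M, ∀ g : G, g * x * g⁻¹ ∈ M →
    ∃ m ∈ M, m * x * m⁻¹ = g * x * g⁻¹

/-- The second half of S1438. -/
def Part2 : Prop :=
  ∀ {G : Type u} [Group G] [Finite G], Cfsg.IsMinSimpleOddOrder G →
  ∀ (M : Subgroup G), IsCoatom M → ∀ (H : Subgroup G), H ≤ Cfsg.sigmaCore M → H ≠ ⊥ →
    (Nat.card H).Coprime (H.relIndex (Cfsg.sigmaCore M)) →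
    ∀ x ∈ H, ∀ g : G, g * x * g⁻¹ ∈ H →
      ∃ n ∈ M ⊓ Subgroup.normalizer (H : Set G), n * x * n⁻¹ = g * x * g⁻¹

/-- BG, existence of the complement (any `H`).  `C = M ⊓ C(H)`, `S₁ = Ms ⊓ C(H) = C ⊓ Ms` is
normal in `C`, `|S₁|` divides `|Ms|`, `|C : S₁| = |C Ms : Ms|` divides `|M : Ms|`, coprime to
`|Ms|` (`(S1350.result hG M hM).1`); Schur–Zassenhaus in `↥C`
(`Subgroup.exists_right_complement'_of_coprime`), `X` = image of the complement. -/
def Compl : Prop :=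
  ∀ {G : Type u} [Group G] [Finite G], Cfsg.IsMinSimpleOddOrder G →
  ∀ (M : Subgroup G), IsCoatom M → ∀ (H : Subgroup G),
    ∃ X : Subgroup G, X ≤ M ⊓ Subgroup.centralizer (H : Set G) ∧
      (Nat.card X).Coprime (Nat.card (Cfsg.sigmaCore M)) ∧
      M ⊓ Subgroup.centralizer (H : Set G) =
        (Cfsg.sigmaCore M ⊓ Subgroup.centralizer (H : Set G)) ⊔ X

/-- BG.  No nontrivial Hall subgroup of `M_σ` lies in `K* = Ms ⊓ C(K)`.
Proof: `(S1364.result hG M hM K U hKU hK1)`: `K*` cyclic, `K* ≤ fittingHallOf M`;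
`(S1365.result ..).2 : K* ≤ M''`.  `H'` is cyclic, `H' ≤ fittingHallOf M` (nilpotent, normalized by
`M`); for `m ∈ M`, `m H' m⁻¹ ≤ fittingHallOf M` has the order of `H'`, and
`(Nat.card H').Coprime (H'.relIndex (fittingHallOf M))` (`fittingHallOf M ≤ Ms`, S1355), so
`m H' m⁻¹ = H'` (`HallNilUniq`): `H'` is normal in `M`.  `|H'|` is prime to `H'.relIndex M`
(`= H'.relIndex Ms * Ms.relIndex M`; S1350).  `Helper17.S64NC.main` for `H'.subgroupOf M` in `↥M`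
(as in `Helper78.S64NOTCYC`): `H' ⊓ M'' = ⊥`, so `H' = ⊥`. -/
def NoHallInKs : Prop :=
  ∀ {G : Type u} [Group G] [Finite G], Cfsg.IsMinSimpleOddOrder G →
  ∀ (M : Subgroup G), IsCoatom M → ∀ (K U : Subgroup G), Cfsg.IsSigmaDecomposition M K U → K ≠ ⊥ →
  ∀ H' : Subgroup G, H' ≤ Cfsg.sigmaCore M ⊓ Subgroup.centralizer (K : Set G) →
    (Nat.card H').Coprime (H'.relIndex (Cfsg.sigmaCore M)) → H' = ⊥

/-- BG.  No element of prime order `p ∈ κ(M)` centralizes a nontrivial Hall subgroup `H` of `M_σ`.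
Proof: `K, U` a σ-decomposition (`(S1351.result hG M hM).1`, `.2`, `(S1352.result ..).1`);
`p ∈ κ(M)` divides `|M|` and not `K.relIndex M` (`hKU.hall.2.2`), so `K ≠ ⊥` and `ConjHall` gives
`m ∈ M` with `x' = m x m⁻¹ ∈ K`, `x' ≠ 1`; `H' = H.map (conj m) ≤ Ms` is centralized by `x'`,
so `H' ≤ Ms ⊓ C({x'}) = Ms ⊓ C(K)` (`Helper55.S66Base.primAct`); `H'` has the order and the
relative index of `H`; `NoHallInKs`: `H' = ⊥`, so `H = ⊥`. -/
def KapNo : Prop :=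
  ∀ {G : Type u} [Group G] [Finite G], Cfsg.IsMinSimpleOddOrder G →
  ∀ (M : Subgroup G), IsCoatom M → ∀ (H : Subgroup G), H ≤ Cfsg.sigmaCore M → H ≠ ⊥ →
    (Nat.card H).Coprime (H.relIndex (Cfsg.sigmaCore M)) →
    ∀ x ∈ M ⊓ Subgroup.centralizer (H : Set G), ∀ p : ℕ, p.Prime → orderOf x = p →
      p ∉ Cfsg.kappa M

/-- BG.  The primes of `|X|` are in `τ₂(M)`.
Proof: `p ∣ |X|`: `p ∉ σ(M)` (else `p ∣ |Ms|` by S1350 as `p ∣ |M|`, against coprimality);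
`PRankLE p 2 M` (`p ∉ α(M)` since `α(M) ⊆ σ(M)`: as in `Helper22.BG1210` / `Helper9.BG10b`);
if `PRankLE p 1 M`: every Sylow `p`-subgroup `P` of `M` is cyclic (`p` odd, no `Z_p × Z_p`), and
for `x ∈ X` of order `p` (Cauchy) and `1 ≠ h ∈ H`: `P` contains a conjugate `m x m⁻¹`
(`ConjHall`/Sylow), which commutes with `m h m⁻¹ ∈ Ms`; so `p ∈ κ(M)`, against `KapNo`. -/
def Tau2X : Prop :=
  ∀ {G : Type u} [Group G] [Finite G], Cfsg.IsMinSimpleOddOrder G →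
  ∀ (M : Subgroup G), IsCoatom M → ∀ (H : Subgroup G), H ≤ Cfsg.sigmaCore M → H ≠ ⊥ →
    (Nat.card H).Coprime (H.relIndex (Cfsg.sigmaCore M)) →
    ∀ X : Subgroup G, X ≤ M ⊓ Subgroup.centralizer (H : Set G) →
      (Nat.card X).Coprime (Nat.card (Cfsg.sigmaCore M)) →
      ∀ p : ℕ, p.Prime → p ∣ Nat.card X → p ∈ Cfsg.tau2 M

/-- BG.  `X` is commutative.
Proof: `K, U` a σ-decomposition, `E = K ⊔ U`, `hE = (Helper90.BG14U.uset_of_decomp hG hM hKU).compl`;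
`|X|` is prime to `|Ms|` (`τ₂` primes are outside `σ(M)`;
`Helper22.BG1210.coprime_card_sigmaCore`); `Helper22.BG1210.exists_conj_le_compl`: `c ∈ M` with
`X' = X.map (conj c) ≤ E`.  `X' ≤ U`: `K` normalizes `U` (`hKU.normal`), `e = u k` and the order
of `k` modulo `U` divides `orderOf e` (a `τ₂`-number) and `|K|` (a `κ`-number; a `κ`-prime has
cyclic Sylow subgroups, so `PRankLE p 1 M`, not in `τ₂`).  Each `u ∈ X'` centralizes
`c h c⁻¹ ∈ Ms`, `h ∈ H`, `h ≠ 1`: `u ∈ U ∩ sigmaHat M`; `S1359.result`: the closure of that set is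
commutative; so `X'` and `X` are commutative. -/
def XAb : Prop :=
  ∀ {G : Type u} [Group G] [Finite G], Cfsg.IsMinSimpleOddOrder G →
  ∀ (M : Subgroup G), IsCoatom M → ∀ (H : Subgroup G), H ≤ Cfsg.sigmaCore M → H ≠ ⊥ →
    ∀ X : Subgroup G, X ≤ M ⊓ Subgroup.centralizer (H : Set G) →
      (∀ p : ℕ, p.Prime → p ∣ Nat.card X → p ∈ Cfsg.tau2 M) →
      ∀ a ∈ X, ∀ b ∈ X, a * b = b * a

/-- PURE.  A finite commutative group without subgroups `Z_p × Z_p` is cyclic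
(e.g. `IsCyclic.of_exponent_eq_card`, or the Sylow subgroups are cyclic). -/
def CycPure : Prop :=
  ∀ {G : Type u} [Group G] [Finite G] (X : Subgroup G), (∀ a ∈ X, ∀ b ∈ X, a * b = b * a) →
    (∀ (p : ℕ) (A : Subgroup G), p.Prime → A ≤ X → (∀ a ∈ A, a ^ p = 1) → Nat.card A = p ^ 2 →
      False) → IsCyclic X

/-- BG.  `X` is cyclic.
Proof: `CycPure`; a subgroup `A ≤ X` of exponent `p` and order `p ^ 2` is elementary abelian,
`A ≤ M`, `p ∣ |X|` so `p ∈ τ₂(M)`; `(S1417.result hG M hM p hp A _).2.2.2.1 : Ms ⊓ C(A) = ⊥`, but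
`H ≤ Ms ⊓ C(A)`. -/
def XCyc : Prop :=
  ∀ {G : Type u} [Group G] [Finite G], Cfsg.IsMinSimpleOddOrder G →
  ∀ (M : Subgroup G), IsCoatom M → ∀ (H : Subgroup G), H ≤ Cfsg.sigmaCore M → H ≠ ⊥ →
    ∀ X : Subgroup G, X ≤ M ⊓ Subgroup.centralizer (H : Set G) →
      (∀ p : ℕ, p.Prime → p ∣ Nat.card X → p ∈ Cfsg.tau2 M) →
      (∀ a ∈ X, ∀ b ∈ X, a * b = b * a) → IsCyclic X

end Cfsg.Agent.Lib.Helper23.HNStmt
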