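-- helper23: elementary facts around M_F (fittingHall) and complements, used for type-P data.
import Mathlib
import Cfsg.Prelude.Def_OddOrderLocal
import Cfsg.Agent.Lib.Helper23.Cores

set_option autoImplicit false

namespace Cfsg.Agent.Lib.Helper23.TypeP

open Cfsg
open Cfsg.Agent.Lib.Helper23.Cores

/-- If `A` and `B` are complements inside `M`, then `|M| = |A| |B|`. -/
theorem card_of_isComplIn {G : Type*} [Group G] {A B M : Subgroup G} (h : IsComplIn A B M) :
    Nat.card M = Nat.card A * Nat.card B := by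
  obtain ⟨hA, hB, hAB, hprod⟩ := h
  rw [← Nat.card_prod]
  symm
  apply Nat.card_congr
  refine Equiv.ofBijective
    (fun ab : A × B => (⟨(ab.1 : G) * ab.2, M.mul_mem (hA ab.1.2) (hB ab.2.2)⟩ : M)) ⟨?_, ?_⟩
  · rintro ⟨⟨a, ha⟩, ⟨b, hb⟩⟩ ⟨⟨a', ha'⟩, ⟨b', hb'⟩⟩ heq
    have heq' : a * b = a' * b' := congrArg Subtype.val heq
    have h1 : a'⁻¹ * a = b' * b⁻¹ := by
      calc a'⁻¹ * a = a'⁻¹ * (a * b) * b⁻¹ := by group
        _ = a'⁻¹ * (a' * b') * b⁻¹ := by rw [heq']
        _ = b' * b⁻¹ := by group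
    have h2 : a'⁻¹ * a ∈ A ⊓ B :=
      ⟨A.mul_mem (A.inv_mem ha') ha, h1 ▸ B.mul_mem hb' (B.inv_mem hb)⟩
    rw [hAB] at h2
    have h3 : a'⁻¹ * a = 1 := by simpa using h2
    have h4 : a = a' := by
      have := congrArg (fun t => a' * t) h3
      simpa using this
    subst h4
    have h5 : b = b' := by simpa using heq'
    subst h5
    rfl
  · rintro ⟨m, hm⟩
    obtain ⟨a, ha, b, hb, rfl⟩ := hprod m hm
    exact ⟨(⟨a, ha⟩, ⟨b, hb⟩), rfl⟩

/-- A subgroup of `M` meeting `M_F` trivially has order prime to that of `M_F`. -/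
theorem coprime_card_fittingHallOf {G : Type*} [Group G] [Finite G] (M U : Subgroup G)
    (hUM : U ≤ M) (hdisj : fittingHallOf M ⊓ U = ⊥) :
    (Nat.card U).Coprime (Nat.card (fittingHallOf M)) := by
  have hcardH : Nat.card (fittingHallOf M) = Nat.card (fittingHall M) := by
    unfold fittingHallOf
    exact Subgroup.card_map_of_injective M.subtype_injective
  rw [hcardH]
  have hcardU : Nat.card (U.subgroupOf M) = Nat.card U :=
    Nat.card_congr (Subgroup.subgroupOfEquivOfLe hUM).toEquiv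
  rw [← hcardU]
  apply card_sSup_of_normal (fun n => (Nat.card (U.subgroupOf M)).Coprime n)
    (Nat.coprime_one_right _)
  · intro a b c ha hb hc
    exact Nat.Coprime.coprime_dvd_right hc (Nat.Coprime.mul_right ha hb)
  · intro N hN; exact hN.1
  · rintro N ⟨hNn, hNnil, hNc⟩
    have hle : N ≤ fittingHall M := le_sSup ⟨hNn, hNnil, hNc⟩
    have hdisj' : N ⊓ U.subgroupOf M = ⊥ := by
      rw [eq_bot_iff]
      intro x hx
      have hx2 : (x : G) ∈ U := hx.2
      have h1 : (x : G) ∈ fittingHallOf M ⊓ U := ⟨⟨x, hle hx.1, rfl⟩, hx2⟩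
      rw [hdisj] at h1
      have h2 : (x : G) = 1 := by simpa using h1
      show x ∈ (⊥ : Subgroup M)
      rw [Subgroup.mem_bot]
      exact Subtype.ext h2
    have hdvd : Nat.card (U.subgroupOf M) ∣ N.index := by
      have h1 : N.relIndex (U.subgroupOf M) = Nat.card (U.subgroupOf M) := by
        rw [← Subgroup.inf_relIndex_right, hdisj', Subgroup.relIndex_bot_left]
      rw [← h1]
      exact Subgroup.relIndex_dvd_index_of_normal N (U.subgroupOf M)
    exact Nat.Coprime.coprime_dvd_left hdvd hNc.symm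

/-- If `u` acts on `H` by conjugation the way `h ∈ H` does and the orders of `h` and `u` are coprime,
then `u` centralizes `H`. -/
theorem centralizes_of_inner {G : Type*} [Group G] (H : Subgroup G) (u h : G) (hh : h ∈ H)
    (hact : ∀ x ∈ H, u * x * u⁻¹ = h * x * h⁻¹) (hcop : (orderOf h).Coprime (orderOf u)) :
    ∀ x ∈ H, u * x = x * u := by
  have hz : ∀ x ∈ H, Commute (h⁻¹ * u) x := by
    intro x hx
    have h1 := hact x hx
    show h⁻¹ * u * x = x * (h⁻¹ * u)
    calc h⁻¹ * u * x = h⁻¹ * (u * x * u⁻¹) * u := by group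
      _ = h⁻¹ * (h * x * h⁻¹) * u := by rw [h1]
      _ = x * (h⁻¹ * u) := by group
  have hzh : Commute h (h⁻¹ * u) := (hz h hh).symm
  have hu : u = h * (h⁻¹ * u) := by group
  have hpow : u ^ orderOf h = (h⁻¹ * u) ^ orderOf h := by
    conv_lhs => rw [hu]
    rw [hzh.mul_pow, pow_orderOf_eq_one, one_mul]
  obtain ⟨m, hm⟩ := exists_pow_eq_self_of_coprime hcop
  intro x hx
  have hc : Commute ((h⁻¹ * u) ^ orderOf h) x := (hz x hx).pow_left _
  rw [← hpow] at hc
  have hc2 : Commute ((u ^ orderOf h) ^ m) x := hc.pow_left m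
  rw [hm] at hc2
  exact hc2

/-- Orders of elements of `M_F` and of a subgroup meeting it trivially are coprime. -/
theorem coprime_orderOf_fittingHallOf {G : Type*} [Group G] [Finite G] (M U : Subgroup G)
    (hUM : U ≤ M) (hdisj : fittingHallOf M ⊓ U = ⊥) (h u : G) (hh : h ∈ fittingHallOf M)
    (hu : u ∈ U) : (orderOf h).Coprime (orderOf u) := by
  have hcop := coprime_card_fittingHallOf M U hUM hdisj
  exact Nat.Coprime.coprime_dvd_left (Subgroup.orderOf_dvd_natCard _ hh)
    (Nat.Coprime.coprime_dvd_right (Subgroup.orderOf_dvd_natCard _ hu) hcop.symm)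

end Cfsg.Agent.Lib.Helper23.TypeP
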