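import Mathlib
import Cfsg.Agent.Lib.Helper96.AltStmt2

/-! Piece G2 of S5165 (part 2): a `p`-group of linear automorphisms of `ZMod p × ZMod p` containing
the shear consists of shears. -/

set_option autoImplicit false

namespace Cfsg.Agent.Lib.Helper23.AltG2

open Equiv Cfsg.Agent.Lib.Helper96.AltStmt Cfsg.Agent.Lib.Helper96.AltModel
  Cfsg.Agent.Lib.Helper96.AltStmt2

theorem main : ShearGroup := by
  intro p _ Q hQ hshear M hM
  obtain ⟨s, hs, hs'⟩ := hshear
  let _inst : MulAction Q (ZMod p × ZMod p) :=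
    { smul := fun g v => (g : (ZMod p × ZMod p) ≃ₗ[ZMod p] (ZMod p × ZMod p)) v
      one_smul := fun v => rfl
      mul_smul := fun g h v => rfl }
  have hcard : p ∣ Nat.card (ZMod p × ZMod p) := by
    rw [Nat.card_prod, Nat.card_zmod]
    exact dvd_mul_right p p
  have h0 : (0 : ZMod p × ZMod p) ∈ MulAction.fixedPoints Q (ZMod p × ZMod p) := by
    intro g
    show (g : (ZMod p × ZMod p) ≃ₗ[ZMod p] (ZMod p × ZMod p)) 0 = 0
    exact map_zero _
  obtain ⟨v, hv, hv0⟩ := hQ.exists_fixed_point_of_prime_dvd_card_of_fixed_point _ hcard h0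
  have hv' : ∀ g ∈ Q, g v = v := fun g hg => hv ⟨g, hg⟩
  obtain ⟨i₀, j₀⟩ := v
  have hi0 : i₀ = 0 := by
    have h1 := hv' s hs
    rw [hs'] at h1
    simpa using h1
  subst hi0
  have hj0 : j₀ ≠ 0 := by
    rintro rfl
    exact hv0 rfl
  have hfix : ∀ g ∈ Q, g ((0 : ZMod p), (1 : ZMod p)) = (0, 1) := by
    intro g hg
    have h1 := hv' g hg
    have h2 : ((0 : ZMod p), (1 : ZMod p)) = j₀⁻¹ • ((0 : ZMod p), j₀) := by
      simp [hj0]
    rw [h2, map_smul, h1]
  have hM' : ∀ i j, M (i, j) = ((M (1, 0)).1 * i, (M (1, 0)).2 * i + j) := by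
    intro i j
    have h1 : ((i, j) : ZMod p × ZMod p) = i • ((1 : ZMod p), (0 : ZMod p)) +
        j • ((0 : ZMod p), (1 : ZMod p)) := by simp
    rw [h1, map_add, map_smul, map_smul, hfix M hM]
    ext
    · simp [mul_comm]
    · simp [mul_comm]
  have hpow : ∀ N : ℕ, ∃ cN : ZMod p, ∀ i j,
      (M ^ N) (i, j) = ((M (1, 0)).1 ^ N * i, cN * i + j) := by
    intro N
    induction N with
    | zero => exact ⟨0, fun i j => by simp⟩
    | succ N ih =>
      obtain ⟨cN, h⟩ := ih
      refine ⟨cN * (M (1, 0)).1 + (M (1, 0)).2, fun i j => ?_⟩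
      rw [pow_succ, LinearEquiv.mul_apply, hM', h]
      ext
      · simp only
        ring
      · simp only
        ring
  obtain ⟨e, he⟩ := hQ ⟨M, hM⟩
  have he' : M ^ p ^ e = 1 := by
    have := congrArg Subtype.val he
    simpa using this
  obtain ⟨cN, hN⟩ := hpow (p ^ e)
  have ha : (M (1, 0)).1 ^ p ^ e = 1 := by
    have h1 := hN 1 0
    rw [he'] at h1
    have h2 := congrArg Prod.fst h1
    simpa using h2.symm
  have ha1 : (M (1, 0)).1 = 1 := by
    rw [ZMod.pow_card_pow] at ha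
    exact ha
  refine ⟨(M (1, 0)).2, fun i j => ?_⟩
  rw [hM', ha1, one_mul, add_comm]

end Cfsg.Agent.Lib.Helper23.AltG2
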