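import Mathlib
import Cfsg.Agent.Lib.Helper96.AltStmt2

/-! Piece PT of S5165 (part 2): a `p`-element `mk 1 t b` has `t = 1`. -/

set_option autoImplicit false

namespace Cfsg.Agent.Lib.Helper23.AltPT

open Equiv Cfsg.Agent.Lib.Helper96.AltStmt Cfsg.Agent.Lib.Helper96.AltModel
  Cfsg.Agent.Lib.Helper96.AltStmt2

theorem mk_one_pow (p : ℕ) [Fact p.Prime] (β δ : Type) (t : β → (ZMod p)ˣ) (b : β → ZMod p)
    (N : ℕ) : ∃ b' : β → ZMod p,
      (mk p δ (1 : Perm β) t b) ^ N = mk p δ (1 : Perm β) (fun i => t i ^ N) b' := by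
  induction N with
  | zero =>
    refine ⟨fun _ => 0, ?_⟩
    rw [pow_zero, ← mk_one p]
    congr 1
    funext i
    simp
  | succ N ih =>
    obtain ⟨b', h⟩ := ih
    rw [pow_succ, h, mk_mul]
    refine ⟨fun i => ((t ((1 : Perm β) i) ^ N : (ZMod p)ˣ) : ZMod p) * b i + b' ((1 : Perm β) i), ?_⟩
    congr 1
    funext i
    simp [pow_succ]

theorem main : PElt := by
  intro p _ β δ t b e h
  obtain ⟨b', hb'⟩ := mk_one_pow p β δ t b (p ^ e)
  rw [hb', ← mk_one p, mk_eq_iff] at h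
  obtain ⟨-, h1, -⟩ := h
  funext i
  have h2 : t i ^ p ^ e = 1 := congrFun h1 i
  have h3 : t i ^ (p - 1) = 1 := ZMod.units_pow_card_sub_one_eq_one p (t i)
  have hp : p.Prime := Fact.out
  have hcop : Nat.Coprime (p ^ e) (p - 1) := by
    apply Nat.Coprime.pow_left
    rw [hp.coprime_iff_not_dvd]
    exact Nat.not_dvd_of_pos_of_lt (by have := hp.two_le; omega) (by have := hp.two_le; omega)
  have h4 := pow_gcd_eq_one.2 ⟨h2, h3⟩
  rw [Nat.Coprime.gcd_eq_one hcop, pow_one] at h4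
  exact h4

end Cfsg.Agent.Lib.Helper23.AltPT
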