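import Mathlib
import Cfsg.Agent.Lib.Helper96.AltStmt2

/-! Piece WM of S5165 (part 2): `C_p ≀ H` is a maximal `p`-subgroup if `H` is and there are less
than `p` extra points. -/

set_option autoImplicit false

namespace Cfsg.Agent.Lib.Helper23.AltWM

open Equiv Cfsg.Agent.Lib.Helper96.AltStmt Cfsg.Agent.Lib.Helper96.AltModel
  Cfsg.Agent.Lib.Helper96.AltStmt2

theorem rho_eq_one (p : ℕ) [Fact p.Prime] (δ : Type) [DecidableEq δ] [Fintype δ]
    (hδ : Fintype.card δ < p) (ρ : Perm δ) (e : ℕ) (h : ρ ^ p ^ e = 1) : ρ = 1 := by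
  have hp : p.Prime := Fact.out
  have h2 : ρ ^ Fintype.card (Perm δ) = 1 := pow_card_eq_one
  have hcop : Nat.Coprime (p ^ e) (Fintype.card (Perm δ)) := by
    apply Nat.Coprime.pow_left
    rw [hp.coprime_iff_not_dvd, Fintype.card_perm, hp.dvd_factorial]
    exact not_le.2 hδ
  have h4 := pow_gcd_eq_one.2 ⟨h, h2⟩
  rwa [Nat.Coprime.gcd_eq_one hcop, pow_one] at h4

theorem inr_pow (p : ℕ) [Fact p.Prime] (β δ : Type) (σ : Perm β) (t : β → (ZMod p)ˣ)
    (b : β → ZMod p) (ρ : Perm δ) (N : ℕ) (d : δ) :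
    ((mk p δ σ t b * inrPerm p β ρ) ^ N) (Sum.inr d) = Sum.inr ((ρ ^ N) d) := by
  induction N generalizing d with
  | zero => simp
  | succ N ih =>
    rw [pow_succ, Perm.mul_apply, pow_succ, Perm.mul_apply]
    exact ih (ρ d)

theorem mk_pow_gen (p : ℕ) [Fact p.Prime] (β δ : Type) (σ : Perm β) (t : β → (ZMod p)ˣ)
    (b : β → ZMod p) (N : ℕ) : ∃ (t' : β → (ZMod p)ˣ) (b' : β → ZMod p),
      (mk p δ σ t b) ^ N = mk p δ (σ ^ N) t' b' := by
  induction N with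
  | zero => exact ⟨fun _ => 1, fun _ => 0, by rw [pow_zero, pow_zero, mk_one p]⟩
  | succ N ih =>
    obtain ⟨t', b', h⟩ := ih
    rw [pow_succ, h, mk_mul, pow_succ]
    exact ⟨_, _, rfl⟩

theorem main : WrMax := by
  intro hNT hNF hPE p _ β δ _ _ _ _ hδ H hH hHmax Q hQ hWQ
  have hTQ : Tr p β δ ≤ Q := (Tr_le_Wr p H).trans hWQ
  let H' : Subgroup (Perm β) :=
    { carrier := {σ | ∃ (t : β → (ZMod p)ˣ) (b : β → ZMod p), mk p δ σ t b ∈ Q}
      mul_mem' := by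
        rintro σ σ' ⟨t, b, h⟩ ⟨t', b', h'⟩
        have := Q.mul_mem h h'
        rw [mk_mul] at this
        exact ⟨_, _, this⟩
      one_mem' := ⟨fun _ => 1, fun _ => 0, by rw [mk_one p]; exact Q.one_mem⟩
      inv_mem' := by
        rintro σ ⟨t, b, h⟩
        have := Q.inv_mem h
        rw [mk_inv] at this
        exact ⟨_, _, this⟩ }
  have hH'p : IsPGroup p H' := by
    rintro ⟨σ, t, b, h⟩
    obtain ⟨e, he⟩ := hQ ⟨_, h⟩
    have he' : (mk p δ σ t b) ^ p ^ e = 1 := by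
      have := congrArg Subtype.val he
      simpa using this
    obtain ⟨t', b', hpw⟩ := mk_pow_gen p β δ σ t b (p ^ e)
    rw [hpw, ← mk_one p, mk_eq_iff] at he'
    exact ⟨e, Subtype.ext he'.1⟩
  have hHH' : H ≤ H' := by
    intro τ hτ
    exact ⟨fun _ => 1, fun _ => 0, hWQ ⟨τ, hτ, fun _ => 0, rfl⟩⟩
  have hH'H : H' ≤ H := hHmax H' hH'p hHH'
  intro g hg
  have hgN : g ∈ Subgroup.normalizer (Tr p β δ : Set (Perm (β × ZMod p ⊕ δ))) :=
    hNT p β δ hδ Q hQ hTQ g (Subgroup.le_normalizer hg)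
  obtain ⟨σ, t, b, ρ, rfl⟩ := hNF p β δ g hgN
  obtain ⟨e, he⟩ := hQ ⟨_, hg⟩
  have he' : (mk p δ σ t b * inrPerm p β ρ) ^ p ^ e = 1 := by
    have := congrArg Subtype.val he
    simpa using this
  have hρ : ρ = 1 := by
    apply rho_eq_one p δ hδ ρ e
    ext d
    have h1 := inr_pow p β δ σ t b ρ (p ^ e) d
    rw [he'] at h1
    simpa using h1.symm
  subst hρ
  have hinr : inrPerm p β (1 : Perm δ) = 1 := by
    ext x
    rcases x with x | d <;> rfl
  rw [hinr, mul_one] at hg ⊢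
  have hσ : σ ∈ H := hH'H ⟨t, b, hg⟩
  have hσQ : mk p δ σ (fun _ => 1) (fun _ => 0) ∈ Q := hWQ ⟨σ, hσ, fun _ => 0, rfl⟩
  have hform : mk p δ σ t b * (mk p δ σ (fun _ => 1) (fun _ => 0))⁻¹ =
      mk p δ 1 (fun i => t (σ⁻¹ i)) (fun i => b (σ⁻¹ i)) := by
    rw [mk_inv, mk_mul, mk_eq_iff]
    refine ⟨mul_inv_cancel σ, ?_, ?_⟩ <;> funext i <;> simp
  have hmem := Q.mul_mem hg (Q.inv_mem hσQ)
  rw [hform] at hmem
  obtain ⟨e2, he2⟩ := hQ ⟨_, hmem⟩
  have he2' : (mk p δ (1 : Perm β) (fun i => t (σ⁻¹ i)) (fun i => b (σ⁻¹ i))) ^ p ^ e2 = 1 := by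
    have := congrArg Subtype.val he2
    simpa using this
  have ht' := hPE p β δ _ _ e2 he2'
  have ht : t = fun _ => 1 := by
    funext i
    have := congrFun ht' (σ i)
    simpa using this
  subst ht
  exact ⟨σ, hσ, b, rfl⟩

end Cfsg.Agent.Lib.Helper23.AltWM
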