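import Mathlib
import Cfsg.Agent.Lib.Helper96.AltStmt2

/-! Piece WP of S5165 (part 2): `C_p ≀ H` is a `p`-group if `H` is. -/

set_option autoImplicit false

namespace Cfsg.Agent.Lib.Helper23.AltWP

open Equiv Cfsg.Agent.Lib.Helper96.AltStmt Cfsg.Agent.Lib.Helper96.AltModel
  Cfsg.Agent.Lib.Helper96.AltStmt2

theorem mk_pow (p : ℕ) [Fact p.Prime] (β δ : Type) (τ : Perm β) (b : β → ZMod p)
    (N : ℕ) : ∃ b' : β → ZMod p,
      (mk p δ τ (fun _ => 1) b) ^ N = mk p δ (τ ^ N) (fun _ => 1) b' := by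
  induction N with
  | zero =>
    refine ⟨fun _ => 0, ?_⟩
    rw [pow_zero, pow_zero, mk_one p]
  | succ N ih =>
    obtain ⟨b', h⟩ := ih
    rw [pow_succ, h, mk_mul, pow_succ]
    refine ⟨fun i => (((1 : (ZMod p)ˣ) : (ZMod p)ˣ) : ZMod p) * b i + b' (τ i), ?_⟩
    congr 1
    funext i
    simp

theorem tr_pow (p : ℕ) [Fact p.Prime] (β δ : Type) (b : β → ZMod p) (N : ℕ) :
    (mk p δ (1 : Perm β) (fun _ => 1) b) ^ N =
      mk p δ (1 : Perm β) (fun _ => 1) (fun i => (N : ZMod p) * b i) := by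
  induction N with
  | zero =>
    rw [pow_zero, ← mk_one p]
    congr 1
    funext i
    simp
  | succ N ih =>
    rw [pow_succ, ih, mk_mul]
    congr 1
    · exact one_mul 1
    · funext i
      simp
      ring

theorem main : WrPGroup := by
  intro p _ β δ H hH
  rintro ⟨g, τ, hτ, b, rfl⟩
  obtain ⟨a, ha⟩ := hH ⟨τ, hτ⟩
  have ha' : τ ^ p ^ a = 1 := by
    have := congrArg Subtype.val ha
    simpa using this
  refine ⟨a + 1, ?_⟩
  apply Subtype.ext
  show (mk p δ τ (fun _ => 1) b) ^ p ^ (a + 1) = 1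
  obtain ⟨b', hb'⟩ := mk_pow p β δ τ b (p ^ a)
  rw [pow_succ, pow_mul, hb', ha', tr_pow, ← mk_one p]
  congr 1
  funext i
  simp

end Cfsg.Agent.Lib.Helper23.AltWP
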