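import Mathlib
import Cfsg.Prelude.Def_Transfer
import Cfsg.Agent.Lib.Helper31.CoprimeGen
import Cfsg.Agent.Lib.Helper53.ElemAb

/-
helper23: group-theoretic preliminaries for Bender-Glauberman 12.13 (S1422).

* `rank_two_generation'` : rank two coprime generation where the two acting elements `a`, `b`
  only commute modulo the kernel of the action on `X`.
* `mem_sup_of_commute` : elements of `H ⊔ K` are products when `H`, `K` commute elementwise.
* `eq_zpowers_of_card_prime` : a subgroup of prime order is generated by each nontrivial element.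
* `card_center_of_card_cube`, `comm_mem_center_of_card_cube` : nonabelian groups of order `p ^ 3`.
* For a nonabelian subgroup `Q` of order `p ^ 3` and exponent `p`, with
  `Z = Q ⊓ centralizer Q`: `card_Z`, `comm_mem_Z`, `exists_conj_eq_mul`, `elemAb_sup`,
  `exists_conj_line` (the subgroups of order `p` of `Z ⊔ zpowers u` other than `Z` are
  conjugate under `Q`), `normalizer_le_of_conj`.
-/

set_option autoImplicit false

namespace Cfsg.Agent.Lib.Helper23.BG1213a

open Cfsg.Agent.Lib.Helper31.CoprimeGen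

variable {G : Type*} [Group G]

open scoped Pointwise in
/-- Rank two coprime generation inside a finite group, the acting elements `a`, `b` commuting
only modulo the kernel of the action on `X`. -/
theorem rank_two_generation' [Finite G] {p : ℕ} [Fact p.Prime]
    (E X : Subgroup G) (hE : IsPGroup p E) (hX : ¬ p ∣ Nat.card X)
    (hEX : E ≤ Subgroup.normalizer (X : Set G)) (a b : G) (ha : a ∈ E) (hb : b ∈ E)
    (hab : ∀ x ∈ X, a * b * x * (a * b)⁻¹ = b * a * x * (b * a)⁻¹) (hap : a ^ p = 1)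
    (hbp : b ^ p = 1) :
    X ≤ (X ⊓ Subgroup.centralizer {b}) ⊔
      ⨆ j ∈ Finset.range p, X ⊓ Subgroup.centralizer {a * b ^ j} := by
  obtain ⟨X₀, hX₀⟩ : ∃ X₀, X₀ = (X ⊓ Subgroup.centralizer {b}) ⊔
      ⨆ j ∈ Finset.range p, X ⊓ Subgroup.centralizer {a * b ^ j} := ⟨_, rfl⟩
  rw [← hX₀]
  have hb_le : X ⊓ Subgroup.centralizer {b} ≤ X₀ := hX₀ ▸ le_sup_left
  have hj_le : ∀ j ∈ Finset.range p, X ⊓ Subgroup.centralizer {a * b ^ j} ≤ X₀ := fun j hj => by
    rw [hX₀]
    exact le_sup_of_le_right (le_biSup (fun j => X ⊓ Subgroup.centralizer {a * b ^ j}) hj)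
  have key : ∀ q : ℕ, q.Prime → ¬ q ∣ (X₀.subgroupOf X).index := by
    intro q hq
    have : Fact q.Prime := ⟨hq⟩
    have hE' : IsPGroup p (E.subgroupOf (Subgroup.normalizer (X : Set G))) := hE.comap_subtype
    have hcard : ¬ p ∣ Nat.card (Sylow q X) := by
      intro h
      obtain P : Sylow q X := default
      exact hX ((h.trans (Sylow.card_dvd_index P)).trans (Subgroup.index_dvd_card _))
    obtain ⟨P, hP⟩ := hE'.nonempty_fixed_point_of_prime_not_dvd_card (Sylow q X) hcard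
    have hconjP : ∀ g (hg : g ∈ E) (x : X), x ∈ P → (⟨g * x * g⁻¹,
        ((Subgroup.mem_normalizer_iff.mp (hEX hg)) x).mp x.2⟩ : X) ∈ P := by
      intro g hg x hx
      have h1 := hP ⟨⟨g, hEX hg⟩, Subgroup.mem_subgroupOf.mpr hg⟩
      have h2 : (⟨g, hEX hg⟩ : Subgroup.normalizer (X : Set G)) • (P : Subgroup X) = P := by
        have h3 := congrArg (fun R : Sylow q X => (R : Subgroup X)) h1
        exact h3
      have h4 := Subgroup.smul_mem_pointwise_smul x
        (⟨g, hEX hg⟩ : Subgroup.normalizer (X : Set G)) (P : Subgroup X) hx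
      rw [h2] at h4
      exact h4
    obtain ⟨S, hS⟩ : ∃ S : Subgroup G, S = (P : Subgroup X).map X.subtype := ⟨_, rfl⟩
    have hSX : S ≤ X := hS ▸ Subgroup.map_subtype_le _
    have hconjS : ∀ g ∈ E, ∀ n ∈ S, g * n * g⁻¹ ∈ S := by
      intro g hg n hn
      rw [hS] at hn ⊢
      obtain ⟨x, hx, rfl⟩ := hn
      exact ⟨_, hconjP g hg x hx, rfl⟩
    have hnorm : ∀ g ∈ E, g ∈ Subgroup.normalizer (S : Set G) := by
      intro g hg
      rw [Subgroup.mem_normalizer_iff]
      intro n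
      refine ⟨hconjS g hg n, fun h => ?_⟩
      have h5 := hconjS g⁻¹ (E.inv_mem hg) _ h
      have h6 : g⁻¹ * (g * n * g⁻¹) * g⁻¹⁻¹ = n := by group
      rwa [h6] at h5
    have hSq : IsPGroup q S := hS ▸ P.isPGroup'.map _
    have : Group.IsNilpotent S := hSq.isNilpotent
    have hSp : ¬ p ∣ Nat.card S := fun h => hX (h.trans (Subgroup.card_dvd_of_le hSX))
    obtain ⟨a', ha'⟩ : ∃ a' : Subgroup.normalizer (S : Set G), a' = ⟨a, hnorm a ha⟩ := ⟨_, rfl⟩
    obtain ⟨b', hb'⟩ : ∃ b' : Subgroup.normalizer (S : Set G), b' = ⟨b, hnorm b hb⟩ := ⟨_, rfl⟩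
    have hcomm : Commute (S.normalizerMonoidHom a') (S.normalizerMonoidHom b') := by
      show _ * _ = _ * _
      rw [← map_mul, ← map_mul]
      apply MulEquiv.ext
      intro s
      apply Subtype.ext
      show ((a' * b' : Subgroup.normalizer (S : Set G)) : G) * (s : G) *
          ((a' * b' : Subgroup.normalizer (S : Set G)) : G)⁻¹ =
        ((b' * a' : Subgroup.normalizer (S : Set G)) : G) * (s : G) *
          ((b' * a' : Subgroup.normalizer (S : Set G)) : G)⁻¹
      rw [ha', hb']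
      exact hab s (hSX s.2)
    have hα : (S.normalizerMonoidHom a') ^ p = 1 := by
      rw [← map_pow]
      have h7 : a' ^ p = 1 := Subtype.ext (by simp [ha', hap])
      rw [h7, map_one]
    have hβ : (S.normalizerMonoidHom b') ^ p = 1 := by
      rw [← map_pow]
      have h7 : b' ^ p = 1 := Subtype.ext (by simp [hb', hbp])
      rw [h7, map_one]
    have hgen := nilpotent_generation hSp _ _ hcomm hα hβ
    have hfix : ∀ g : Subgroup.normalizer (S : Set G),
        fixSub (S.normalizerMonoidHom g) ≤ (X ⊓ Subgroup.centralizer {(g : G)}).subgroupOf S := by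
      intro g y hy
      rw [Subgroup.mem_subgroupOf]
      refine ⟨hSX y.2, ?_⟩
      show (y : G) ∈ Subgroup.centralizer {(g : G)}
      rw [Subgroup.mem_centralizer_singleton_iff]
      have h8 : (g : G) * y * (g : G)⁻¹ = y := congrArg Subtype.val hy
      symm
      calc (g : G) * y = (g : G) * y * (g : G)⁻¹ * g := by group
        _ = y * g := by rw [h8]
    have hSX₀ : S ≤ X₀ := by
      intro s hs
      have h9 : (⟨s, hs⟩ : S) ∈ fixSub (S.normalizerMonoidHom b') ⊔
          ⨆ j ∈ Finset.range p, fixSub (S.normalizerMonoidHom a' * S.normalizerMonoidHom b' ^ j) := by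
        rw [hgen]; exact Subgroup.mem_top _
      have h10 : fixSub (S.normalizerMonoidHom b') ⊔
          ⨆ j ∈ Finset.range p, fixSub (S.normalizerMonoidHom a' * S.normalizerMonoidHom b' ^ j)
          ≤ X₀.subgroupOf S := by
        refine sup_le ?_ (iSup₂_le fun j hj => ?_)
        · refine (hfix b').trans ?_
          intro y hy
          have hy' := Subgroup.mem_subgroupOf.mp hy
          rw [hb'] at hy'
          exact hb_le hy'
        · rw [← map_pow, ← map_mul]
          refine (hfix (a' * b' ^ j)).trans ?_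
          intro y hy
          have hy' := Subgroup.mem_subgroupOf.mp hy
          rw [ha', hb'] at hy'
          exact hj_le j hj hy'
      exact Subgroup.mem_subgroupOf.mp (h10 h9)
    have hPle : (P : Subgroup X) ≤ X₀.subgroupOf X := by
      intro x hx
      rw [Subgroup.mem_subgroupOf]
      exact hSX₀ (hS ▸ ⟨x, hx, rfl⟩)
    intro hdvd
    exact P.not_dvd_index (hdvd.trans (Subgroup.index_dvd_of_le hPle))
  have hidx : (X₀.subgroupOf X).index = 1 := Nat.eq_one_iff_not_exists_prime_dvd.mpr key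
  rw [Subgroup.index_eq_one] at hidx
  intro x hx
  have h11 : (⟨x, hx⟩ : X) ∈ X₀.subgroupOf X := by rw [hidx]; exact Subgroup.mem_top _
  exact Subgroup.mem_subgroupOf.mp h11

/-- Elements of `H ⊔ K` are products when `H` and `K` commute elementwise. -/
theorem mem_sup_of_commute {H K : Subgroup G} (hc : ∀ h ∈ H, ∀ k ∈ K, h * k = k * h) {x : G}
    (hx : x ∈ H ⊔ K) : ∃ h ∈ H, ∃ k ∈ K, x = h * k := by
  let T : Subgroup G :=
    { carrier := {x | ∃ h ∈ H, ∃ k ∈ K, x = h * k}
      one_mem' := ⟨1, H.one_mem, 1, K.one_mem, by simp⟩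
      mul_mem' := by
        rintro _ _ ⟨h, hh, k, hk, rfl⟩ ⟨h', hh', k', hk', rfl⟩
        refine ⟨h * h', H.mul_mem hh hh', k * k', K.mul_mem hk hk', ?_⟩
        calc h * k * (h' * k') = h * (k * h') * k' := by group
          _ = h * (h' * k) * k' := by rw [hc h' hh' k hk]
          _ = h * h' * (k * k') := by group
      inv_mem' := by
        rintro _ ⟨h, hh, k, hk, rfl⟩
        refine ⟨h⁻¹, H.inv_mem hh, k⁻¹, K.inv_mem hk, ?_⟩
        rw [mul_inv_rev]
        exact (hc h⁻¹ (H.inv_mem hh) k⁻¹ (K.inv_mem hk)).symm }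
  have hle : H ⊔ K ≤ T := sup_le (fun h hh => ⟨h, hh, 1, K.one_mem, by simp⟩)
    (fun k hk => ⟨1, H.one_mem, k, hk, by simp⟩)
  exact hle hx

/-- A subgroup of prime order is generated by each of its nontrivial elements. -/
theorem eq_zpowers_of_card_prime [Finite G] {p : ℕ} [Fact p.Prime] {H : Subgroup G}
    (hH : Nat.card H = p) {h : G} (hh : h ∈ H) (h1 : h ≠ 1) : H = Subgroup.zpowers h := by
  have hle : Subgroup.zpowers h ≤ H := by rw [Subgroup.zpowers_le]; exact hh
  symm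
  apply Subgroup.eq_of_le_of_card_ge hle
  rw [hH, Nat.card_zpowers]
  have hd : orderOf h ∣ p := by
    have := Subgroup.orderOf_dvd_natCard H hh
    rwa [hH] at this
  rcases (Nat.dvd_prime (Fact.out : p.Prime)).mp hd with h2 | h2
  · exact absurd (orderOf_eq_one_iff.mp h2) h1
  · exact h2.ge

/-- The center of a nonabelian group of order `p ^ 3` has order `p`. -/
theorem card_center_of_card_cube {Q : Type*} [Group Q] [Finite Q] {p : ℕ} [Fact p.Prime]
    (hQ : Nat.card Q = p ^ 3) (hna : ¬ ∀ a b : Q, a * b = b * a) :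
    Nat.card (Subgroup.center Q) = p := by
  have hpp : p.Prime := Fact.out
  have hPG : IsPGroup p Q := IsPGroup.of_card hQ
  have hnt : Nontrivial Q := by
    rw [← Finite.one_lt_card_iff_nontrivial, hQ]
    exact Nat.one_lt_pow (by norm_num) hpp.one_lt
  have hcn : Nontrivial (Subgroup.center Q) := hPG.center_nontrivial
  have hdvd : Nat.card (Subgroup.center Q) ∣ p ^ 3 := hQ ▸ Subgroup.card_subgroup_dvd_card _
  obtain ⟨k, hk3, hk⟩ := (Nat.dvd_prime_pow hpp).mp hdvd
  have hidx : Nat.card (Q ⧸ Subgroup.center Q) * p ^ k = p ^ 3 := by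
    rw [← hk, ← hQ]; exact (Subgroup.card_eq_card_quotient_mul_card_subgroup _).symm
  have hk0 : k ≠ 0 := by
    rintro rfl
    rw [pow_zero] at hk
    have := Finite.one_lt_card_iff_nontrivial.mpr hcn
    omega
  have hk3' : k ≠ 3 := by
    rintro rfl
    apply hna
    have htop : Subgroup.center Q = ⊤ := Subgroup.eq_top_of_le_card _ (by rw [hk, hQ])
    intro a b
    have hb : b ∈ Subgroup.center Q := htop ▸ Subgroup.mem_top b
    exact Subgroup.mem_center_iff.mp hb a
  have hk2 : k ≠ 2 := by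
    rintro rfl
    apply hna
    have hq : Nat.card (Q ⧸ Subgroup.center Q) = p := by
      have h1 : Nat.card (Q ⧸ Subgroup.center Q) * p ^ 2 = p * p ^ 2 := by rw [hidx]; ring
      exact Nat.eq_of_mul_eq_mul_right (pow_pos hpp.pos 2) h1
    have hcyc : IsCyclic (Q ⧸ Subgroup.center Q) := isCyclic_of_prime_card hq
    exact commutative_of_cyclic_center_quotient (QuotientGroup.mk' (Subgroup.center Q))
      (by rw [QuotientGroup.ker_mk'])
  have hk1 : k = 1 := by omega
  rw [hk, hk1, pow_one]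

/-- In a nonabelian group of order `p ^ 3` commutators are central. -/
theorem comm_mem_center_of_card_cube {Q : Type*} [Group Q] [Finite Q] {p : ℕ} [Fact p.Prime]
    (hQ : Nat.card Q = p ^ 3) (hna : ¬ ∀ a b : Q, a * b = b * a) (a b : Q) :
    (b * a)⁻¹ * (a * b) ∈ Subgroup.center Q := by
  have hpp : p.Prime := Fact.out
  have hc := card_center_of_card_cube hQ hna
  have hq : Nat.card (Q ⧸ Subgroup.center Q) = p ^ 2 := by
    have h1 := Subgroup.card_eq_card_quotient_mul_card_subgroup (Subgroup.center Q)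
    rw [hQ, hc] at h1
    have h2 : Nat.card (Q ⧸ Subgroup.center Q) * p = p ^ 2 * p := by rw [← h1]; ring
    exact Nat.eq_of_mul_eq_mul_right hpp.pos h2
  have h3 := IsPGroup.commutative_of_card_eq_prime_sq hq
    (QuotientGroup.mk a : Q ⧸ Subgroup.center Q) (QuotientGroup.mk b)
  have h4 : ((b * a : Q) : Q ⧸ Subgroup.center Q) = ((a * b : Q) : Q ⧸ Subgroup.center Q) := by
    rw [QuotientGroup.mk_mul, QuotientGroup.mk_mul]; exact h3.symm
  exact QuotientGroup.eq.mp h4

section Extra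

variable [Finite G] {p : ℕ} [Fact p.Prime] {Q : Subgroup G}

theorem not_comm_type (hna : ¬ IsMulCommutative Q) : ¬ ∀ a b : ↥Q, a * b = b * a :=
  fun h => hna ⟨⟨h⟩⟩

theorem mem_center_iff_mem (x : ↥Q) :
    x ∈ Subgroup.center ↥Q ↔ (x : G) ∈ Q ⊓ Subgroup.centralizer (Q : Set G) := by
  rw [Subgroup.mem_center_iff, Subgroup.mem_inf, Subgroup.mem_centralizer_iff]
  constructor
  · intro h
    refine ⟨x.2, fun g hg => ?_⟩
    exact congrArg Subtype.val (h ⟨g, hg⟩)
  · rintro ⟨-, h⟩ g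
    exact Subtype.ext (h g g.2)

theorem card_Z (hQ : Nat.card Q = p ^ 3) (hna : ¬ IsMulCommutative Q) :
    Nat.card ↥(Q ⊓ Subgroup.centralizer (Q : Set G)) = p := by
  rw [← card_center_of_card_cube hQ (not_comm_type hna)]
  have h : (Subgroup.center ↥Q).map Q.subtype = Q ⊓ Subgroup.centralizer (Q : Set G) := by
    ext x
    constructor
    · rintro ⟨z, hz, rfl⟩
      exact (mem_center_iff_mem z).mp hz
    · intro hx
      exact ⟨⟨x, hx.1⟩, (mem_center_iff_mem ⟨x, hx.1⟩).mpr hx, rfl⟩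
  rw [← h, Subgroup.card_map_of_injective Q.subtype_injective]

theorem comm_mem_Z (hQ : Nat.card Q = p ^ 3) (hna : ¬ IsMulCommutative Q) {a b : G}
    (ha : a ∈ Q) (hb : b ∈ Q) :
    (b * a)⁻¹ * (a * b) ∈ Q ⊓ Subgroup.centralizer (Q : Set G) := by
  have h := comm_mem_center_of_card_cube hQ (not_comm_type hna) (⟨a, ha⟩ : ↥Q) ⟨b, hb⟩
  exact (mem_center_iff_mem _).mp h

/-- A noncentral element `u` of `Q` is conjugate in `Q` to `u * z` for every central `z`. -/
theorem exists_conj_eq_mul (hQ : Nat.card Q = p ^ 3) (hna : ¬ IsMulCommutative Q) {u : G}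
    (hu : u ∈ Q) (huZ : u ∉ Q ⊓ Subgroup.centralizer (Q : Set G)) {z : G}
    (hz : z ∈ Q ⊓ Subgroup.centralizer (Q : Set G)) :
    ∃ g ∈ Q, g * u * g⁻¹ = u * z := by
  have hpp : p.Prime := Fact.out
  have hex : ∃ s ∈ Q, s * u ≠ u * s := by
    by_contra hcon
    push Not at hcon
    exact huZ ⟨hu, Subgroup.mem_centralizer_iff.mpr hcon⟩
  obtain ⟨s, hs, hsu⟩ := hex
  obtain ⟨c, hc⟩ : ∃ c, c = (u * s)⁻¹ * (s * u) := ⟨_, rfl⟩
  have hcZ : c ∈ Q ⊓ Subgroup.centralizer (Q : Set G) := hc ▸ comm_mem_Z hQ hna hs hu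
  have h1 : s * u = u * s * c := by rw [hc]; group
  have hc1 : c ≠ 1 := by
    intro h
    apply hsu
    rw [h1, h, mul_one]
  have hcs : c * s = s * c := ((Subgroup.mem_centralizer_iff.mp hcZ.2) s hs).symm
  have hconj : s * u * s⁻¹ = u * c := by
    calc s * u * s⁻¹ = u * s * c * s⁻¹ := by rw [h1]
      _ = u * (s * c) * s⁻¹ := by group
      _ = u * (c * s) * s⁻¹ := by rw [hcs]
      _ = u * c := by group
  have hpow : ∀ n : ℕ, s ^ n * u * (s ^ n)⁻¹ = u * c ^ n := by
    intro n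
    induction n with
    | zero => simp
    | succ n ih =>
      have hcn : c ^ n * s = s * c ^ n := (Commute.pow_left (show Commute c s from hcs) n).eq
      calc s ^ (n + 1) * u * (s ^ (n + 1))⁻¹ = s * (s ^ n * u * (s ^ n)⁻¹) * s⁻¹ := by
            rw [pow_succ']; group
        _ = s * (u * c ^ n) * s⁻¹ := by rw [ih]
        _ = (s * u * s⁻¹) * (s * c ^ n) * s⁻¹ := by group
        _ = (u * c) * (c ^ n * s) * s⁻¹ := by rw [hconj, hcn]
        _ = u * c ^ (n + 1) := by rw [pow_succ']; group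
  have hZc := eq_zpowers_of_card_prime (card_Z hQ hna) hcZ hc1
  have hzc : z ∈ Subgroup.zpowers c := hZc ▸ hz
  obtain ⟨n, hn⟩ := mem_powers_iff_mem_zpowers.mpr hzc
  refine ⟨s ^ n, Q.pow_mem hs n, ?_⟩
  rw [hpow n, ← hn]

/-- For noncentral `u ∈ Q` the subgroup `Z ⊔ ⟨u⟩` is elementary abelian of order `p ^ 2`. -/
theorem elemAb_sup (hQ : Nat.card Q = p ^ 3) (hna : ¬ IsMulCommutative Q)
    (hexp : ∀ x ∈ Q, x ^ p = 1) {u : G} (hu : u ∈ Q)
    (huZ : u ∉ Q ⊓ Subgroup.centralizer (Q : Set G)) :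
    (Q ⊓ Subgroup.centralizer (Q : Set G)) ⊔ Subgroup.zpowers u ≤ Q ∧
    Cfsg.IsElementaryAbelian p ((Q ⊓ Subgroup.centralizer (Q : Set G)) ⊔ Subgroup.zpowers u) ∧
      Nat.card ↥((Q ⊓ Subgroup.centralizer (Q : Set G)) ⊔ Subgroup.zpowers u) = p ^ 2 := by
  have hpp : p.Prime := Fact.out
  have hcZ' := card_Z hQ hna
  obtain ⟨Z, hZ⟩ : ∃ Z, Z = Q ⊓ Subgroup.centralizer (Q : Set G) := ⟨_, rfl⟩
  rw [← hZ] at huZ hcZ' ⊢
  have hZQ : Z ≤ Q := hZ ▸ inf_le_left
  have hZc : ∀ z ∈ Z, ∀ h ∈ Q, h * z = z * h := by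
    intro z hz
    rw [hZ] at hz
    exact Subgroup.mem_centralizer_iff.mp hz.2
  have hle : Z ⊔ Subgroup.zpowers u ≤ Q := sup_le hZQ (by rw [Subgroup.zpowers_le]; exact hu)
  have hel : Cfsg.IsElementaryAbelian p (Z ⊔ Subgroup.zpowers u) := by
    have h1 : Z ⊔ Subgroup.zpowers u = Subgroup.closure ((Z : Set G) ∪ {u}) := by
      rw [Subgroup.closure_union, Subgroup.closure_eq, Subgroup.zpowers_eq_closure]
    rw [h1]
    apply Cfsg.Agent.Lib.Helper53.ElemAb.elemAb_closure
    · rintro x (hx | hx) y (hy | hy)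
      · exact hZc y hy x (hZQ hx)
      · rw [Set.mem_singleton_iff] at hy; subst hy; exact (hZc x hx y hu).symm
      · rw [Set.mem_singleton_iff] at hx; subst hx; exact hZc y hy x hu
      · rw [Set.mem_singleton_iff] at hx hy; rw [hx, hy]
    · rintro x (hx | hx)
      · exact hexp x (hZQ hx)
      · rw [Set.mem_singleton_iff] at hx; rw [hx]; exact hexp u hu
  refine ⟨hle, hel, ?_⟩
  have hub : Nat.card ↥(Z ⊔ Subgroup.zpowers u) ≤ p ^ 2 := by
    have h2 := card_sup_zpowers_le Z u p hpp.pos (hexp u hu) (fun d hd => (hZc d hd u hu).symm)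
    rw [hcZ'] at h2
    calc _ ≤ p * p := h2
      _ = p ^ 2 := by ring
  have hlt : Z < Z ⊔ Subgroup.zpowers u := by
    refine lt_of_le_of_ne le_sup_left ?_
    intro h
    apply huZ
    rw [h]
    exact (le_sup_right : Subgroup.zpowers u ≤ _) (Subgroup.mem_zpowers u)
  have hlb : p < Nat.card ↥(Z ⊔ Subgroup.zpowers u) := by
    by_contra hc
    push Not at hc
    exact hlt.ne (Subgroup.eq_of_le_of_card_ge le_sup_left (hcZ'.symm ▸ hc))
  have hpg : IsPGroup p ↥(Z ⊔ Subgroup.zpowers u) := (IsPGroup.of_card hQ).to_le hle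
  obtain ⟨n, hn⟩ := IsPGroup.iff_card.mp hpg
  rw [hn] at hlb hub ⊢
  have h1n : 1 < n := by
    by_contra hc
    push Not at hc
    have := Nat.pow_le_pow_right hpp.pos hc
    rw [pow_one] at this
    omega
  exact le_antisymm hub (Nat.pow_le_pow_right hpp.pos h1n)

/-- The subgroups of order `p` of `Z ⊔ ⟨u⟩` other than `Z` are conjugate under `Q`. -/
theorem exists_conj_line (hQ : Nat.card Q = p ^ 3) (hna : ¬ IsMulCommutative Q)
    (hexp : ∀ x ∈ Q, x ^ p = 1) {u : G} (hu : u ∈ Q)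
    (huZ : u ∉ Q ⊓ Subgroup.centralizer (Q : Set G)) {B B' : Subgroup G}
    (hB : B ≤ (Q ⊓ Subgroup.centralizer (Q : Set G)) ⊔ Subgroup.zpowers u)
    (hBc : Nat.card B = p) (hBZ : B ≠ Q ⊓ Subgroup.centralizer (Q : Set G))
    (hB' : B' ≤ (Q ⊓ Subgroup.centralizer (Q : Set G)) ⊔ Subgroup.zpowers u)
    (hBc' : Nat.card B' = p) (hBZ' : B' ≠ Q ⊓ Subgroup.centralizer (Q : Set G)) :
    ∃ g ∈ Q, B'.map (MulAut.conj g).toMonoidHom = B := by
  have hpp : p.Prime := Fact.out
  obtain ⟨hAQ, hAel, hAc⟩ := elemAb_sup hQ hna hexp hu huZ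
  have hcZ := card_Z hQ hna
  obtain ⟨Z, hZ⟩ : ∃ Z, Z = Q ⊓ Subgroup.centralizer (Q : Set G) := ⟨_, rfl⟩
  rw [← hZ] at huZ hB hBZ hB' hBZ' hAQ hAel hAc hcZ
  obtain ⟨A, hA⟩ : ∃ A, A = Z ⊔ Subgroup.zpowers u := ⟨_, rfl⟩
  rw [← hA] at hB hB' hAQ hAel hAc
  have hZQ : Z ≤ Q := hZ ▸ inf_le_left
  have hZA : Z ≤ A := hA ▸ le_sup_left
  have hZc : ∀ z ∈ Z, ∀ h ∈ Q, h * z = z * h := by
    intro z hz
    rw [hZ] at hz
    exact Subgroup.mem_centralizer_iff.mp hz.2
  have hmeet : ∀ C : Subgroup G, Nat.card C = p → C ≠ Z → ∀ x ∈ C, x ∈ Z → x = 1 := by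
    intro C hC hCZ x hxC hxZ
    by_contra hx1
    apply hCZ
    rw [eq_zpowers_of_card_prime hC hxC hx1, eq_zpowers_of_card_prime hcZ hxZ hx1]
  have hsup : B' ⊔ Z = A := by
    apply Subgroup.eq_of_le_of_card_ge (sup_le hB' hZA)
    rw [hAc]
    have hlt : p < Nat.card ↥(B' ⊔ Z) := by
      by_contra hc
      push Not at hc
      have h1 : Z = B' ⊔ Z := Subgroup.eq_of_le_of_card_ge le_sup_right (hcZ.symm ▸ hc)
      have h2 : B' ≤ Z := by rw [h1]; exact le_sup_left
      have h3 : B' = Z := Subgroup.eq_of_le_of_card_ge h2 (by rw [hBc', hcZ])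
      exact hBZ' h3
    have hpg : IsPGroup p ↥(B' ⊔ Z) := (IsPGroup.of_card hQ).to_le ((sup_le hB' hZA).trans hAQ)
    obtain ⟨n, hn⟩ := IsPGroup.iff_card.mp hpg
    rw [hn] at hlt ⊢
    have h1n : 1 < n := by
      by_contra hc
      push Not at hc
      have := Nat.pow_le_pow_right hpp.pos hc
      rw [pow_one] at this
      omega
    exact Nat.pow_le_pow_right hpp.pos h1n
  obtain ⟨b, hbB, hb1⟩ : ∃ b ∈ B, b ≠ 1 := by
    by_contra hcon
    push Not at hcon
    have hbot : B = ⊥ := by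
      rw [eq_bot_iff]
      intro x hx
      exact Subgroup.mem_bot.mpr (hcon x hx)
    rw [hbot, Subgroup.card_bot] at hBc
    exact hpp.one_lt.ne hBc
  have hbA : b ∈ B' ⊔ Z := by rw [hsup]; exact hB hbB
  obtain ⟨b', hb', z, hz, hbz⟩ :=
    mem_sup_of_commute (fun h hh k hk => hZc k hk h (hAQ (hB' hh))) hbA
  have hb'Z : b' ∉ Z := by
    intro h
    have hbZ : b ∈ Z := by rw [hbz]; exact Z.mul_mem h hz
    exact hb1 (hmeet B hBc hBZ b hbB hbZ)
  have hb'1 : b' ≠ 1 := fun h => hb'Z (h ▸ Z.one_mem)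
  have hb'Q : b' ∈ Q := hAQ (hB' hb')
  rw [hZ] at hb'Z hz
  obtain ⟨g, hg, hgb⟩ := exists_conj_eq_mul hQ hna hb'Q hb'Z hz
  refine ⟨g, hg, ?_⟩
  rw [eq_zpowers_of_card_prime hBc' hb' hb'1, eq_zpowers_of_card_prime hBc hbB hb1,
    MonoidHom.map_zpowers]
  congr 1
  show g * b' * g⁻¹ = b
  rw [hgb, hbz]

/-- Normalizers of conjugate subgroups: if `B = g B' g⁻¹` with `g ∈ L` and `N(B') ≤ L`
then `N(B) ≤ L`. -/
theorem normalizer_le_of_conj {B B' L : Subgroup G} {g : G} (hg : g ∈ L)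
    (h : B'.map (MulAut.conj g).toMonoidHom = B) (hN : Subgroup.normalizer (B' : Set G) ≤ L) :
    Subgroup.normalizer (B : Set G) ≤ L := by
  rw [← h, ← Subgroup.map_equiv_normalizer_eq]
  rintro _ ⟨n, hn, rfl⟩
  show g * n * g⁻¹ ∈ L
  exact L.mul_mem (L.mul_mem hg (hN hn)) (L.inv_mem hg)

end Extra

end Cfsg.Agent.Lib.Helper23.BG1213a
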