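import Mathlib
import Cfsg.Prelude.Def_Blocks
import Cfsg.Agent.Lib.CT.Orth
import Cfsg.Agent.Lib.CT.Ops
import Cfsg.Agent.Lib.Helper80.DefOneLoc

/-!
Piece S4503/K7a: the function `p` on the `p`-regular elements and `0` on the `p`-singular
elements of `C_G(P)` (`P` a Sylow `p`-subgroup of order `p`) is a character.
-/

set_option autoImplicit false

namespace Cfsg.Agent.Lib.Helper23.BrK7a

open Cfsg Cfsg.Agent.Lib.CT.Wedderburn Cfsg.Agent.Lib.CT.Orth Cfsg.Agent.Lib.CT.Ops
open scoped ComplexConjugate

universe u
variable {G : Type u} [Group G]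

/-- The regular character of a finite group is a character. -/
theorem isCharacter_regular (H : Type u) [Group H] [Finite H] [DecidableEq H] :
    IsCharacter H (fun z : H => if z = 1 then (Nat.card H : ℂ) else 0) := by
  have := Fintype.ofFinite H
  have := finite_irrCharacter H
  have := Fintype.ofFinite (IrrCharacter H)
  have h2 : (fun z : H => if z = 1 then (Nat.card H : ℂ) else 0) =
      fun z => ∑ χ ∈ (Finset.univ : Finset (IrrCharacter H)),
        (charDegree (χ : H → ℂ) : ℂ) * (χ : H → ℂ) z := by
    funext z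
    by_cases hz : z = 1
    · subst hz
      rw [if_pos rfl, ← sum_apply_one_sq_sum]
      refine Finset.sum_congr rfl fun χ _ => ?_
      rw [char_natCast_charDegree (isCharacter_of_irr χ.2), sq]
    · rw [if_neg hz, ← sum_apply_one_mul_of_ne_sum z hz]
      refine Finset.sum_congr rfl fun χ _ => ?_
      rw [char_natCast_charDegree (isCharacter_of_irr χ.2)]
  rw [h2]
  exact isCharacter_sum' (Finset.univ : Finset (IrrCharacter H))
    (fun (χ : IrrCharacter H) z => (charDegree (χ : H → ℂ) : ℂ) * (χ : H → ℂ) z)
    (fun χ _ => isCharacter_natCast_mul (isCharacter_of_irr χ.2) _)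

open Classical in
/-- [K7a] -/
theorem isCharacter_preg [Finite G] (p : ℕ) [Fact p.Prime] (P : Sylow p G)
    (hP : Nat.card P = p) :
    IsCharacter ↥(Subgroup.centralizer ((P : Subgroup G) : Set G))
      (fun c : ↥(Subgroup.centralizer ((P : Subgroup G) : Set G)) =>
        if p ∣ orderOf c then (0 : ℂ) else (p : ℂ)) := by
  obtain ⟨π, -, hπ⟩ := Cfsg.Agent.Lib.Helper80.DefOneLoc.exists_proj P hP
  have h1 := isCharacter_comp_hom π (isCharacter_regular ↥(P : Subgroup G))
  have h2 : (fun c : ↥(Subgroup.centralizer ((P : Subgroup G) : Set G)) =>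
        if p ∣ orderOf c then (0 : ℂ) else (p : ℂ)) =
      fun x => (fun z : ↥(P : Subgroup G) =>
        if z = 1 then (Nat.card ↥(P : Subgroup G) : ℂ) else 0) (π x) := by
    funext c
    by_cases hc : p ∣ orderOf c
    · rw [if_pos hc]
      show _ = if π c = 1 then _ else _
      rw [if_neg (fun h => (hπ c).mp h hc)]
    · rw [if_neg hc]
      show _ = if π c = 1 then _ else _
      rw [if_pos ((hπ c).mpr hc)]
      have hP' : Nat.card ↥(P : Subgroup G) = p := hP
      rw [hP']
  rw [h2]
  exact h1

end Cfsg.Agent.Lib.Helper23.BrK7a
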