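import Mathlib
import Cfsg.Prelude.Def_Blocks
import Cfsg.Agent.Lib.CT.Orth
import Cfsg.Agent.Lib.CT.Ops
import Cfsg.Agent.Lib.CT.NormOne
import Cfsg.Agent.Lib.CT.Kernel
import Cfsg.Agent.Lib.Helper80.DefOneLoc

/-!
Piece S4503/K7b: for a character `Φ` of `C_G(P)` (`P` a Sylow `p`-subgroup of order `p`) of
norm `f`, the inner product of `Φ conj Φ` with `p` times the indicator of the `p`-regular
elements is at most `f ^ 2`.
-/

set_option autoImplicit false
set_option linter.unusedSectionVars false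
set_option linter.style.haveILetI false

namespace Cfsg.Agent.Lib.Helper23.BrK7b

open Cfsg Cfsg.Agent.Lib.CT.Wedderburn
open scoped ComplexConjugate

universe u
variable {G : Type u} [Group G]

/-- Weighted Cauchy–Schwarz with natural weights. -/
theorem sq_sum_le {ι : Type*} (s : Finset ι) (m : ι → ℕ) (a : ι → ℝ) :
    (∑ i ∈ s, (m i : ℝ) * a i) ^ 2 ≤ (∑ i ∈ s, (m i : ℝ)) * ∑ i ∈ s, (m i : ℝ) * a i ^ 2 := by
  have h := Finset.sum_mul_sq_le_sq_mul_sq s (fun i => Real.sqrt (m i))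
    (fun i => Real.sqrt (m i) * a i)
  have e1 : ∀ i ∈ s, Real.sqrt (m i) * (Real.sqrt (m i) * a i) = (m i : ℝ) * a i := by
    intro i _
    rw [← mul_assoc, Real.mul_self_sqrt (Nat.cast_nonneg _)]
  have e2 : ∀ i ∈ s, Real.sqrt (m i) ^ 2 = (m i : ℝ) :=
    fun i _ => Real.sq_sqrt (Nat.cast_nonneg _)
  have e3 : ∀ i ∈ s, (Real.sqrt (m i) * a i) ^ 2 = (m i : ℝ) * a i ^ 2 := by
    intro i _
    rw [mul_pow, Real.sq_sqrt (Nat.cast_nonneg _)]
  rw [Finset.sum_congr rfl e1, Finset.sum_congr rfl e2, Finset.sum_congr rfl e3] at h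
  exact h

/-- Pointwise bound for a natural combination. -/
theorem normSq_sum_le {ι : Type*} (s : Finset ι) (m : ι → ℕ) (z : ι → ℂ) :
    Complex.normSq (∑ i ∈ s, (m i : ℂ) * z i) ≤
      (∑ i ∈ s, (m i : ℝ)) * ∑ i ∈ s, (m i : ℝ) * Complex.normSq (z i) := by
  have h1 : ‖∑ i ∈ s, (m i : ℂ) * z i‖ ≤ ∑ i ∈ s, (m i : ℝ) * ‖z i‖ := by
    refine (norm_sum_le _ _).trans (le_of_eq ?_)
    refine Finset.sum_congr rfl fun i _ => ?_
    rw [norm_mul, Complex.norm_natCast]
  have h2 := sq_sum_le s m (fun i => ‖z i‖)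
  rw [Complex.normSq_eq_norm_sq]
  have h3 : ‖∑ i ∈ s, (m i : ℂ) * z i‖ ^ 2 ≤ (∑ i ∈ s, (m i : ℝ) * ‖z i‖) ^ 2 :=
    pow_le_pow_left₀ (norm_nonneg _) h1 2
  refine h3.trans (h2.trans (le_of_eq ?_))
  congr 1
  refine Finset.sum_congr rfl fun i _ => ?_
  rw [Complex.normSq_eq_norm_sq]

/-- Exchange of two finite sums with constant factors. -/
theorem swap_aux {α β : Type*} [Fintype α] [Fintype β] (p S : ℝ) (m : β → ℝ) (T : β → α → ℝ) :
    p * ∑ c : α, S * ∑ ψ : β, m ψ * T ψ c = S * ∑ ψ : β, m ψ * (p * ∑ c : α, T ψ c) := by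
  rw [← Finset.mul_sum, Finset.sum_comm]
  have key : ∀ ψ : β, ∑ c : α, m ψ * T ψ c = m ψ * ∑ c : α, T ψ c :=
    fun ψ => (Finset.mul_sum _ _ _).symm
  rw [Finset.sum_congr rfl (fun ψ _ => key ψ)]
  have h2 : ∀ ψ : β, m ψ * (p * ∑ c : α, T ψ c) = p * (m ψ * ∑ c : α, T ψ c) :=
    fun ψ => by ring
  rw [Finset.sum_congr rfl (fun ψ _ => h2 ψ), ← Finset.mul_sum]
  ring

section Main

variable [Finite G] (p : ℕ) [Fact p.Prime] (P : Sylow p G) (hP : Nat.card P = p)
  [Fintype ↥(Subgroup.centralizer ((P : Subgroup G) : Set G))]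

include hP in
/-- Multiplying by an element of `P` does not change the absolute value of an irreducible
character of `C_G(P)`. -/
theorem normSq_mul_of_mem (φ : IrrCharacter ↥(Subgroup.centralizer ((P : Subgroup G) : Set G)))
    (z r : ↥(Subgroup.centralizer ((P : Subgroup G) : Set G))) (hz : (z : G) ∈ (P : Subgroup G)) :
    Complex.normSq ((φ : ↥(Subgroup.centralizer ((P : Subgroup G) : Set G)) → ℂ) (z * r)) =
      Complex.normSq ((φ : ↥(Subgroup.centralizer ((P : Subgroup G) : Set G)) → ℂ) r) := by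
  have hzc : z ∈ Subgroup.center ↥(Subgroup.centralizer ((P : Subgroup G) : Set G)) := by
    rw [Subgroup.mem_center_iff]
    intro g
    have hg := g.2
    rw [Subgroup.mem_centralizer_iff] at hg
    apply Subtype.ext
    have := hg (z : G) hz
    simp only [Subgroup.coe_mul]
    exact this.symm
  have h1 := Cfsg.Agent.Lib.CT.Kernel.norm_eq_of_mem_center φ.2 hzc
  obtain ⟨ω, hω1, -, hω3⟩ :=
    Cfsg.Agent.Lib.CT.Kernel.exists_scalar_of_norm_eq (isCharacter_of_irr φ.2) h1
  obtain ⟨n, hn0, hn⟩ := irr_exists_apply_one_pos φ.2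
  have hω : ‖ω‖ = 1 := by
    have h2 : ‖(φ : ↥(Subgroup.centralizer ((P : Subgroup G) : Set G)) → ℂ) z‖ = ‖ω‖ * (n : ℝ) := by
      rw [hω3, norm_mul, hn, Complex.norm_natCast]
    rw [h1, hn, Complex.natCast_re] at h2
    have hn' : (n : ℝ) ≠ 0 := Nat.cast_ne_zero.mpr hn0.ne'
    have h3 : (1 : ℝ) * (n : ℝ) = ‖ω‖ * (n : ℝ) := by rw [one_mul]; exact h2
    exact (mul_right_cancel₀ hn' h3).symm
  rw [hω1, Complex.normSq_mul, Complex.normSq_eq_norm_sq ω, hω, one_pow, one_mul]

include hP in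
/-- The `p`-regular part of the norm of an irreducible character of `C_G(P)`. -/
theorem irr_reg_sum (φ : IrrCharacter ↥(Subgroup.centralizer ((P : Subgroup G) : Set G))) :
    (p : ℝ) * ∑ r : ↥(Subgroup.centralizer ((P : Subgroup G) : Set G)),
        (if p ∣ orderOf r then (0 : ℝ)
          else Complex.normSq ((φ : ↥(Subgroup.centralizer ((P : Subgroup G) : Set G)) → ℂ) r)) =
      (Nat.card ↥(Subgroup.centralizer ((P : Subgroup G) : Set G)) : ℝ) := by
  classical
  haveI := Fintype.ofFinite G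
  haveI := Fintype.ofFinite ↥(P : Subgroup G)
  obtain ⟨π, hπP, hπreg⟩ := Cfsg.Agent.Lib.Helper80.DefOneLoc.exists_proj P hP
  have h1 := Cfsg.Agent.Lib.Helper80.DefOneLoc.sum_decomp P hP π hπP hπreg
    (fun c => ((Complex.normSq
      ((φ : ↥(Subgroup.centralizer ((P : Subgroup G) : Set G)) → ℂ) c) : ℝ) : ℂ))
  have hne : (Nat.card ↥(Subgroup.centralizer ((P : Subgroup G) : Set G)) : ℂ) ≠ 0 :=
    Nat.cast_ne_zero.mpr Nat.card_pos.ne'
  have h2 : ∑ c : ↥(Subgroup.centralizer ((P : Subgroup G) : Set G)),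
      ((Complex.normSq ((φ : ↥(Subgroup.centralizer ((P : Subgroup G) : Set G)) → ℂ) c) : ℝ) : ℂ) =
      (Nat.card ↥(Subgroup.centralizer ((P : Subgroup G) : Set G)) : ℂ) := by
    have h3 := irr_orthonormal φ φ
    rw [if_pos rfl, classInner] at h3
    have h4 : ∑ c : ↥(Subgroup.centralizer ((P : Subgroup G) : Set G)),
        ((Complex.normSq ((φ : ↥(Subgroup.centralizer ((P : Subgroup G) : Set G)) → ℂ) c) : ℝ) : ℂ)
        = ∑ g : ↥(Subgroup.centralizer ((P : Subgroup G) : Set G)),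
          (φ : ↥(Subgroup.centralizer ((P : Subgroup G) : Set G)) → ℂ) g *
            conj ((φ : ↥(Subgroup.centralizer ((P : Subgroup G) : Set G)) → ℂ) g) :=
      Finset.sum_congr rfl fun c _ => (Complex.mul_conj _).symm
    rw [h4]
    calc _ = (Nat.card ↥(Subgroup.centralizer ((P : Subgroup G) : Set G)) : ℂ) *
          ((Nat.card ↥(Subgroup.centralizer ((P : Subgroup G) : Set G)) : ℂ)⁻¹ *
            ∑ g : ↥(Subgroup.centralizer ((P : Subgroup G) : Set G)),
              (φ : ↥(Subgroup.centralizer ((P : Subgroup G) : Set G)) → ℂ) g *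
                conj ((φ : ↥(Subgroup.centralizer ((P : Subgroup G) : Set G)) → ℂ) g)) := by
          rw [← mul_assoc, mul_inv_cancel₀ hne, one_mul]
      _ = _ := by rw [h3, mul_one]
  rw [h2] at h1
  have h5 : ∀ z : ↥(P : Subgroup G),
      ∑ r : ↥(Subgroup.centralizer ((P : Subgroup G) : Set G)),
        (if p ∣ orderOf r then (0 : ℂ) else ((Complex.normSq
          ((φ : ↥(Subgroup.centralizer ((P : Subgroup G) : Set G)) → ℂ)
            (Cfsg.Agent.Lib.Helper80.DefOneLoc.inc P hP z * r)) : ℝ) : ℂ)) =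
      ((∑ r : ↥(Subgroup.centralizer ((P : Subgroup G) : Set G)),
        (if p ∣ orderOf r then (0 : ℝ)
          else Complex.normSq
            ((φ : ↥(Subgroup.centralizer ((P : Subgroup G) : Set G)) → ℂ) r)) : ℝ) : ℂ) := by
    intro z
    rw [Complex.ofReal_sum]
    refine Finset.sum_congr rfl fun r _ => ?_
    by_cases hr : p ∣ orderOf r
    · rw [if_pos hr, if_pos hr, Complex.ofReal_zero]
    · rw [if_neg hr, if_neg hr,
        normSq_mul_of_mem p P hP φ (Cfsg.Agent.Lib.Helper80.DefOneLoc.inc P hP z) r z.2]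
  rw [Finset.sum_congr rfl (fun z _ => h5 z), Finset.sum_const, Finset.card_univ,
    ← Nat.card_eq_fintype_card, nsmul_eq_mul] at h1
  have hP' : Nat.card ↥(P : Subgroup G) = p := hP
  rw [hP'] at h1
  exact_mod_cast h1.symm

end Main

open Classical in
/-- [K7b] -/
theorem preg_norm [Finite G] (p : ℕ) [Fact p.Prime] (P : Sylow p G) (hP : Nat.card P = p)
    [Fintype ↥(Subgroup.centralizer ((P : Subgroup G) : Set G))]
    (Φ : ↥(Subgroup.centralizer ((P : Subgroup G) : Set G)) → ℂ)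
    (hΦ : IsCharacter ↥(Subgroup.centralizer ((P : Subgroup G) : Set G)) Φ)
    (f : ℕ) (hf : classInner Φ Φ = f) :
    (classInner (fun c : ↥(Subgroup.centralizer ((P : Subgroup G) : Set G)) => Φ c * conj (Φ c))
      (fun c : ↥(Subgroup.centralizer ((P : Subgroup G) : Set G)) =>
        if p ∣ orderOf c then (0 : ℂ) else (p : ℂ))).re ≤ (f : ℝ) ^ 2 := by
  haveI := finite_irrCharacter ↥(Subgroup.centralizer ((P : Subgroup G) : Set G))
  haveI := Fintype.ofFinite (IrrCharacter ↥(Subgroup.centralizer ((P : Subgroup G) : Set G)))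
  obtain ⟨m, hm, hexp⟩ := Cfsg.Agent.Lib.CT.NormOne.exists_mult_sum hΦ
  have hnorm := Cfsg.Agent.Lib.CT.NormOne.classInner_self_eq_sum m hm hexp
  rw [hf] at hnorm
  have hfm : f = ∑ ψ : IrrCharacter ↥(Subgroup.centralizer ((P : Subgroup G) : Set G)),
      m ψ * m ψ := by exact_mod_cast hnorm
  -- the sum of the multiplicities
  obtain ⟨S, hS⟩ : ∃ S : ℕ, S = ∑ ψ : IrrCharacter
      ↥(Subgroup.centralizer ((P : Subgroup G) : Set G)), m ψ := ⟨_, rfl⟩
  have hSf : S ≤ f := by
    rw [hS, hfm]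
    exact Finset.sum_le_sum fun ψ _ => Nat.le_mul_self _
  have hcard : (0 : ℝ) < (Nat.card ↥(Subgroup.centralizer ((P : Subgroup G) : Set G)) : ℝ) :=
    Nat.cast_pos.mpr Nat.card_pos
  -- pointwise expansion
  have hpt : ∀ c : ↥(Subgroup.centralizer ((P : Subgroup G) : Set G)),
      Φ c = ∑ ψ : IrrCharacter ↥(Subgroup.centralizer ((P : Subgroup G) : Set G)),
        (m ψ : ℂ) * (ψ : ↥(Subgroup.centralizer ((P : Subgroup G) : Set G)) → ℂ) c := by
    intro c
    have := congrFun hexp c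
    rw [Finset.sum_apply] at this
    simpa using this
  -- rewrite the inner product as a real sum
  have hre : classInner
      (fun c : ↥(Subgroup.centralizer ((P : Subgroup G) : Set G)) => Φ c * conj (Φ c))
      (fun c : ↥(Subgroup.centralizer ((P : Subgroup G) : Set G)) =>
        if p ∣ orderOf c then (0 : ℂ) else (p : ℂ)) =
      (((Nat.card ↥(Subgroup.centralizer ((P : Subgroup G) : Set G)) : ℝ)⁻¹ *
        ((p : ℝ) * ∑ c : ↥(Subgroup.centralizer ((P : Subgroup G) : Set G)),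
          (if p ∣ orderOf c then (0 : ℝ) else Complex.normSq (Φ c))) : ℝ) : ℂ) := by
    rw [classInner]
    rw [Complex.ofReal_mul, Complex.ofReal_inv, Complex.ofReal_natCast, Complex.ofReal_mul,
      Complex.ofReal_sum]
    congr 1
    rw [Finset.mul_sum]
    refine Finset.sum_congr rfl fun c _ => ?_
    by_cases hc : p ∣ orderOf c
    · rw [if_pos hc, if_pos hc, map_zero, mul_zero, Complex.ofReal_zero, mul_zero]
    · rw [if_neg hc, if_neg hc, Complex.mul_conj, Complex.conj_natCast, Complex.ofReal_natCast,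
        mul_comm]
  rw [hre, Complex.ofReal_re]
  -- the bound
  have hbound : (p : ℝ) * ∑ c : ↥(Subgroup.centralizer ((P : Subgroup G) : Set G)),
        (if p ∣ orderOf c then (0 : ℝ) else Complex.normSq (Φ c)) ≤
      (S : ℝ) ^ 2 * (Nat.card ↥(Subgroup.centralizer ((P : Subgroup G) : Set G)) : ℝ) := by
    have h1 : ∀ c : ↥(Subgroup.centralizer ((P : Subgroup G) : Set G)),
        (if p ∣ orderOf c then (0 : ℝ) else Complex.normSq (Φ c)) ≤
        (S : ℝ) * ∑ ψ : IrrCharacter ↥(Subgroup.centralizer ((P : Subgroup G) : Set G)),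
          (m ψ : ℝ) * (if p ∣ orderOf c then (0 : ℝ) else Complex.normSq
            ((ψ : ↥(Subgroup.centralizer ((P : Subgroup G) : Set G)) → ℂ) c)) := by
      intro c
      by_cases hc : p ∣ orderOf c
      · rw [if_pos hc]
        simp [hc]
      · rw [if_neg hc]
        have := normSq_sum_le Finset.univ m
          (fun ψ : IrrCharacter ↥(Subgroup.centralizer ((P : Subgroup G) : Set G)) =>
            (ψ : ↥(Subgroup.centralizer ((P : Subgroup G) : Set G)) → ℂ) c)
        rw [← hpt c] at this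
        refine this.trans (le_of_eq ?_)
        rw [hS]
        push_cast
        congr 1
        refine Finset.sum_congr rfl fun ψ _ => ?_
        rw [if_neg hc]
    have hp0 : (0 : ℝ) ≤ (p : ℝ) := Nat.cast_nonneg _
    calc (p : ℝ) * ∑ c : ↥(Subgroup.centralizer ((P : Subgroup G) : Set G)),
          (if p ∣ orderOf c then (0 : ℝ) else Complex.normSq (Φ c))
        ≤ (p : ℝ) * ∑ c : ↥(Subgroup.centralizer ((P : Subgroup G) : Set G)),
          (S : ℝ) * ∑ ψ : IrrCharacter ↥(Subgroup.centralizer ((P : Subgroup G) : Set G)),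
            (m ψ : ℝ) * (if p ∣ orderOf c then (0 : ℝ) else Complex.normSq
              ((ψ : ↥(Subgroup.centralizer ((P : Subgroup G) : Set G)) → ℂ) c)) :=
          mul_le_mul_of_nonneg_left (Finset.sum_le_sum fun c _ => h1 c) hp0
      _ = (S : ℝ) * ∑ ψ : IrrCharacter ↥(Subgroup.centralizer ((P : Subgroup G) : Set G)),
            (m ψ : ℝ) * ((p : ℝ) * ∑ c : ↥(Subgroup.centralizer ((P : Subgroup G) : Set G)),
              (if p ∣ orderOf c then (0 : ℝ) else Complex.normSq
                ((ψ : ↥(Subgroup.centralizer ((P : Subgroup G) : Set G)) → ℂ) c))) := by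
          exact swap_aux (p : ℝ) (S : ℝ)
            (fun ψ : IrrCharacter ↥(Subgroup.centralizer ((P : Subgroup G) : Set G)) =>
              (m ψ : ℝ))
            (fun (ψ : IrrCharacter ↥(Subgroup.centralizer ((P : Subgroup G) : Set G)))
                (c : ↥(Subgroup.centralizer ((P : Subgroup G) : Set G))) =>
              if p ∣ orderOf c then (0 : ℝ) else Complex.normSq
                ((ψ : ↥(Subgroup.centralizer ((P : Subgroup G) : Set G)) → ℂ) c))
      _ = (S : ℝ) * ∑ ψ : IrrCharacter ↥(Subgroup.centralizer ((P : Subgroup G) : Set G)),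
            (m ψ : ℝ) * (Nat.card ↥(Subgroup.centralizer ((P : Subgroup G) : Set G)) : ℝ) := by
          congr 1
          refine Finset.sum_congr rfl fun ψ _ => ?_
          rw [irr_reg_sum p P hP ψ]
      _ = (S : ℝ) ^ 2 * (Nat.card ↥(Subgroup.centralizer ((P : Subgroup G) : Set G)) : ℝ) := by
          rw [← Finset.sum_mul, hS]
          push_cast
          ring
  have hSf' : (S : ℝ) ^ 2 ≤ (f : ℝ) ^ 2 := by
    have : (S : ℝ) ≤ (f : ℝ) := by exact_mod_cast hSf
    exact pow_le_pow_left₀ (Nat.cast_nonneg _) this 2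
  calc (Nat.card ↥(Subgroup.centralizer ((P : Subgroup G) : Set G)) : ℝ)⁻¹ *
        ((p : ℝ) * ∑ c : ↥(Subgroup.centralizer ((P : Subgroup G) : Set G)),
          (if p ∣ orderOf c then (0 : ℝ) else Complex.normSq (Φ c)))
      ≤ (Nat.card ↥(Subgroup.centralizer ((P : Subgroup G) : Set G)) : ℝ)⁻¹ *
        ((S : ℝ) ^ 2 * (Nat.card ↥(Subgroup.centralizer ((P : Subgroup G) : Set G)) : ℝ)) :=
        mul_le_mul_of_nonneg_left hbound (inv_nonneg.mpr hcard.le)
    _ = (S : ℝ) ^ 2 := by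
        field_simp
    _ ≤ (f : ℝ) ^ 2 := hSf'

end Cfsg.Agent.Lib.Helper23.BrK7b
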