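import Cfsg.Agent.Lib.Helper23.NormalFour
import Cfsg.Prelude.Def_Balance

set_option autoImplicit false

open scoped commutatorElement

namespace Cfsg.Agent.Lib.Helper23.Connected

open Cfsg.Agent.Lib.Helper24.Alperin Cfsg.Agent.Lib.Helper24.PGroupBasic
open Cfsg.Agent.Lib.Helper53.ElemAb

variable {G : Type*} [Group G]

/-- The preimage of a subgroup `K` under an endomorphism `g` has at most `|ker g| * |K|`
elements. -/
theorem card_comap_le {H : Type*} [Group H] [Finite H] (g : H →* H) (K : Subgroup H) :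
    Nat.card (K.comap g) ≤ Nat.card g.ker * Nat.card K := by
  have h1 := Subgroup.card_mul_index (g.subgroupComap K).ker
  rw [Subgroup.index_ker] at h1
  have h2 : Nat.card (g.subgroupComap K).ker ≤ Nat.card g.ker := by
    refine Nat.card_le_card_of_injective
      (fun y : (g.subgroupComap K).ker => (⟨(y : K.comap g), ?_⟩ : g.ker)) ?_
    · have hy := y.2
      rw [MonoidHom.mem_ker] at hy ⊢
      exact congrArg (fun z : K => (z : H)) hy
    · intro y y' hyy'
      have := congrArg (fun z : g.ker => (z : H)) hyy'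
      exact Subtype.ext (Subtype.ext this)
  have h3 : Nat.card (g.subgroupComap K).range ≤ Nat.card K := Subgroup.card_le_card_group _
  rw [← h1]
  exact Nat.mul_le_mul h2 h3

/-- A nontrivial normal subgroup of a finite `p`-group contains a nontrivial central element. -/
theorem exists_central_mem [Finite G] {p : ℕ} [Fact p.Prime] (hG : IsPGroup p G)
    (A : Subgroup G) [A.Normal] (hA : A ≠ ⊥) : ∃ z ∈ A, z ≠ 1 ∧ ∀ g : G, g * z = z * g := by
  have hGnil : Group.IsNilpotent G := hG.isNilpotent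
  have hnil : Group.IsNilpotent (⊤ : Subgroup G) := inferInstance
  obtain ⟨k, hkA, hk1, hkt⟩ := exists_commutator_mem hnil (le_top : A ≤ ⊤)
    (by rw [Subgroup.normalizer_eq_top]) (fun h => hA (le_bot_iff.mp h))
  refine ⟨k, hkA, fun h => hk1 (by rw [h]; exact Subgroup.one_mem _), fun g => ?_⟩
  have := Subgroup.mem_bot.mp (hkt g (Subgroup.mem_top g))
  exact ((commutatorElement_eq_one_iff_mul_comm).mp this).symm

theorem comm_identity {M : Type*} [CommGroup M] (a u v : M) (hu : u ^ 3 = 1) (hv : v ^ 3 = 1) :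
    a * v⁻¹ * u * v⁻¹ * (u * a⁻¹ * u * v⁻¹) = 1 := by
  have h : a * v⁻¹ * u * v⁻¹ * (u * a⁻¹ * u * v⁻¹) = u ^ 3 * (v ^ 3)⁻¹ := by
    apply Additive.ofMul.injective
    simp only [ofMul_mul, ofMul_inv, ofMul_pow]
    abel
  rw [h, hu, hv]; simp

theorem comm_identity' {A : Subgroup G} (hAc : ∀ a ∈ A, ∀ b ∈ A, a * b = b * a) {a u v : G}
    (ha : a ∈ A) (hu : u ∈ A) (hv : v ∈ A) (hu3 : u ^ 3 = 1) (hv3 : v ^ 3 = 1) :
    a * v⁻¹ * u * v⁻¹ * (u * a⁻¹ * u * v⁻¹) = 1 := by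
  let _ : CommGroup ↥A :=
    { (inferInstance : Group ↥A) with mul_comm := fun a b => Subtype.ext (hAc a a.2 b b.2) }
  have h := comm_identity (M := ↥A) ⟨a, ha⟩ ⟨u, hu⟩ ⟨v, hv⟩ (Subtype.ext hu3) (Subtype.ext hv3)
  exact congrArg Subtype.val h

/-- Jordan blocks: an element of order `3` normalizing an elementary abelian group `A` of order
`81` centralizes a subgroup of order at least `9` of `A`. -/
theorem card_centralizer_ge [Finite G] (A : Subgroup G) [hAn : A.Normal]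
    (hAc : ∀ a ∈ A, ∀ b ∈ A, a * b = b * a) (hAe : ∀ a ∈ A, a ^ 3 = 1)
    (hAcard : Nat.card A = 3 ^ 4) (x : G) (hx : x ^ 3 = 1) :
    9 ≤ Nat.card ↥(A ⊓ Subgroup.centralizer {x}) := by
  have hconj : ∀ a ∈ A, x * a * x⁻¹ ∈ A := fun a ha => hAn.conj_mem a ha x
  have hνmem : ∀ a ∈ A, x * a * x⁻¹ * a⁻¹ ∈ A := fun a ha =>
    A.mul_mem (hconj a ha) (A.inv_mem ha)
  let ν : ↥A →* ↥A :=
    { toFun := fun a => ⟨x * a * x⁻¹ * (a : G)⁻¹, hνmem a a.2⟩
      map_one' := by apply Subtype.ext; simp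
      map_mul' := fun a b => by
        apply Subtype.ext
        have h1 := hAc _ (hconj b b.2) _ (A.inv_mem a.2)
        have h2 := hAc _ (A.inv_mem b.2) _ (A.inv_mem a.2)
        show x * ((a : G) * b) * x⁻¹ * ((a : G) * b)⁻¹ =
          (x * a * x⁻¹ * (a : G)⁻¹) * (x * b * x⁻¹ * (b : G)⁻¹)
        calc x * ((a : G) * b) * x⁻¹ * ((a : G) * b)⁻¹
            = (x * a * x⁻¹) * (x * b * x⁻¹) * ((b : G)⁻¹ * (a : G)⁻¹) := by group
          _ = (x * a * x⁻¹) * (x * b * x⁻¹) * ((a : G)⁻¹ * (b : G)⁻¹) := by rw [h2]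
          _ = (x * a * x⁻¹) * ((x * b * x⁻¹) * (a : G)⁻¹) * (b : G)⁻¹ := by group
          _ = (x * a * x⁻¹) * ((a : G)⁻¹ * (x * b * x⁻¹)) * (b : G)⁻¹ := by rw [h1]
          _ = _ := by group }
  have hν : ∀ a : ↥A, ((ν a : ↥A) : G) = x * a * x⁻¹ * (a : G)⁻¹ := fun a => rfl
  have hx3 : x * x * x = 1 := by rw [← hx, pow_succ, pow_two]
  have hν3 : ∀ a : ↥A, ν (ν (ν a)) = 1 := by
    intro a
    apply Subtype.ext
    rw [hν, hν, hν]
    obtain ⟨u, hu⟩ : ∃ u : G, u = x * a * x⁻¹ := ⟨_, rfl⟩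
    obtain ⟨v, hv⟩ : ∃ v : G, v = x * u * x⁻¹ := ⟨_, rfl⟩
    have huA : u ∈ A := hu ▸ hconj a a.2
    have hvA : v ∈ A := hv ▸ hconj u huA
    have hxv : x * v * x⁻¹ = a := by
      rw [hv, hu]
      calc x * (x * (x * (a : G) * x⁻¹) * x⁻¹) * x⁻¹ = (x * x * x) * a * (x * x * x)⁻¹ := by group
        _ = a := by rw [hx3]; group
    have e1 : x * (x * (x * (a : G) * x⁻¹ * (a : G)⁻¹) * x⁻¹ * (x * (a : G) * x⁻¹ * (a : G)⁻¹)⁻¹) * x⁻¹ *
        (x * (x * (a : G) * x⁻¹ * (a : G)⁻¹) * x⁻¹ * (x * (a : G) * x⁻¹ * (a : G)⁻¹)⁻¹)⁻¹ =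
        (x * v * x⁻¹) * v⁻¹ * u * v⁻¹ * (u * (a : G)⁻¹ * u * v⁻¹) := by
      rw [hv, hu]; group
    show x * (x * (x * (a : G) * x⁻¹ * (a : G)⁻¹) * x⁻¹ * (x * (a : G) * x⁻¹ * (a : G)⁻¹)⁻¹) * x⁻¹ *
        (x * (x * (a : G) * x⁻¹ * (a : G)⁻¹) * x⁻¹ * (x * (a : G) * x⁻¹ * (a : G)⁻¹)⁻¹)⁻¹ = 1
    rw [e1, hxv]
    exact comm_identity' hAc a.2 huA hvA (hAe u huA) (hAe v hvA)
  have hK3 : ((ν.ker.comap ν).comap ν) = ⊤ := by
    ext a
    simp only [Subgroup.mem_comap, MonoidHom.mem_ker, Subgroup.mem_top, iff_true]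
    exact hν3 a
  have c1 := card_comap_le ν (ν.ker.comap ν)
  have c2 := card_comap_le ν ν.ker
  rw [hK3, Subgroup.card_top, hAcard] at c1
  have hk5 : 5 ≤ Nat.card ν.ker := by
    by_contra hcon
    push Not at hcon
    have h4 : Nat.card ν.ker ≤ 4 := by omega
    have : Nat.card ν.ker * Nat.card (ν.ker.comap ν) ≤ 4 * (4 * 4) :=
      Nat.mul_le_mul h4 (c2.trans (Nat.mul_le_mul h4 h4))
    omega
  have hdvd : Nat.card ν.ker ∣ 3 ^ 4 := by
    rw [← hAcard]; exact Subgroup.card_subgroup_dvd_card _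
  obtain ⟨i, hi4, hi⟩ := (Nat.dvd_prime_pow Nat.prime_three).mp hdvd
  have hi2 : 2 ≤ i := by
    by_contra hcon
    push Not at hcon
    have : i = 0 ∨ i = 1 := by omega
    rcases this with rfl | rfl <;> omega
  have h9 : 9 ≤ Nat.card ν.ker := by
    rw [hi]
    calc 9 = 3 ^ 2 := by norm_num
      _ ≤ 3 ^ i := Nat.pow_le_pow_right (by norm_num) hi2
  have hle : ν.ker.map A.subtype ≤ A ⊓ Subgroup.centralizer {x} := by
    rintro _ ⟨a, ha, rfl⟩
    refine ⟨a.2, ?_⟩
    refine Subgroup.mem_centralizer_iff.mpr ?_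
    intro y hy
    rw [Set.mem_singleton_iff] at hy
    rw [hy]
    have h1 : x * (a : G) * x⁻¹ * (a : G)⁻¹ = 1 := by
      have := congrArg (fun z : ↥A => (z : G)) (MonoidHom.mem_ker.mp ha)
      simpa [hν] using this
    show x * (a : G) = a * x
    calc x * (a : G) = (x * a * x⁻¹ * (a : G)⁻¹) * (a * x) := by group
      _ = a * x := by rw [h1, one_mul]
  calc 9 ≤ Nat.card ν.ker := h9
    _ = Nat.card (ν.ker.map A.subtype) :=
        (Subgroup.card_map_of_injective A.subtype_injective).symm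
    _ ≤ Nat.card ↥(A ⊓ Subgroup.centralizer {x}) := Subgroup.card_le_of_le hle

theorem elemAb_zpowers {p : ℕ} {g : G} (h : g ^ p = 1) :
    Cfsg.IsElementaryAbelian p (Subgroup.zpowers g) := by
  rw [elemAb_iff]
  constructor
  · intro a ha b hb
    obtain ⟨i, rfl⟩ := Subgroup.mem_zpowers_iff.mp ha
    obtain ⟨j, rfl⟩ := Subgroup.mem_zpowers_iff.mp hb
    exact zpow_mul_comm g i j
  · intro a ha
    obtain ⟨i, rfl⟩ := Subgroup.mem_zpowers_iff.mp ha
    rw [← zpow_natCast, ← zpow_mul, mul_comm, zpow_mul, zpow_natCast, h, one_zpow]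

theorem reflTransGen_symm {α : Type*} {r : α → α → Prop} (hs : ∀ x y, r x y → r y x) {a b : α}
    (h : Relation.ReflTransGen r a b) : Relation.ReflTransGen r b a := by
  induction h with
  | refl => exact Relation.ReflTransGen.refl
  | tail _ hbc ih => exact (Relation.ReflTransGen.single (hs _ _ hbc)).trans ih

/-- A finite `3`-group of `3`-rank at least `4` is `2`-connected. -/
theorem three_group_connected {P : Type*} [Group P] [Finite P] (hP : IsPGroup 3 P)
    (hrk : ¬ Cfsg.PRankLE 3 3 P) : Cfsg.IsKConnected 3 2 P := by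
  have hF : Fact (Nat.Prime 3) := ⟨Nat.prime_three⟩
  unfold Cfsg.PRankLE at hrk
  push Not at hrk
  obtain ⟨E₁, hE₁c, hE₁e, hE₁card⟩ := hrk
  obtain ⟨j, hj⟩ := (hP.to_subgroup E₁).exists_card_eq
  have hj4 : 4 ≤ j := by
    rw [hj] at hE₁card
    have := (Nat.pow_lt_pow_iff_right (by norm_num : 1 < 3)).mp hE₁card
    omega
  obtain ⟨K, hK⟩ := Sylow.exists_subgroup_card_pow_prime 3 (n := 4) (G := ↥E₁)
    (by rw [hj]; exact pow_dvd_pow 3 hj4)
  obtain ⟨E₄, hE₄def⟩ : ∃ E₄ : Subgroup P, E₄ = K.map E₁.subtype := ⟨_, rfl⟩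
  have hE₄card : Nat.card E₄ = 3 ^ 4 := by
    rw [hE₄def, Subgroup.card_map_of_injective E₁.subtype_injective]; exact hK
  have hE₄le : E₄ ≤ E₁ := by rw [hE₄def]; exact Subgroup.map_subtype_le K
  have hE₁c' : ∀ a ∈ E₁, ∀ b ∈ E₁, a * b = b * a := by
    intro a ha b hb
    have := (isMulCommutative_iff.mp hE₁c) ⟨a, ha⟩ ⟨b, hb⟩
    exact congrArg Subtype.val this
  obtain ⟨A, hAn, hAc, hAe, hAcard⟩ :=
    Cfsg.Agent.Lib.Helper23.NormalFour.exists_normal_elemAb_four (p := 3) (by norm_num) hP E₄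
      (fun a ha b hb => hE₁c' a (hE₄le ha) b (hE₄le hb)) (fun a ha => hE₁e a (hE₄le ha)) hE₄card
  have hAbot : A ≠ ⊥ := by
    intro h
    rw [h, Subgroup.card_bot] at hAcard
    norm_num at hAcard
  obtain ⟨z, hzA, hz1, hzc⟩ := exists_central_mem hP A hAbot
  have hz3 : z ^ 3 = 1 := hAe z hzA
  have hzcard : Nat.card (Subgroup.zpowers z) = 3 := by
    rw [Nat.card_zpowers]; exact orderOf_eq_prime hz3 hz1
  have hzcen : ∀ a ∈ Subgroup.zpowers z, ∀ g : P, g * a = a * g := by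
    have hle : Subgroup.zpowers z ≤ Subgroup.center P := by
      rw [Subgroup.zpowers_le, Subgroup.mem_center_iff]
      exact hzc
    intro a ha g
    exact Subgroup.mem_center_iff.mp (hle ha) g
  have hAel : Cfsg.IsElementaryAbelian 3 A := (elemAb_iff 3 A).mpr ⟨hAc, hAe⟩
  have hA9 : 3 ^ 2 ≤ Nat.card A := by rw [hAcard]; norm_num
  have key : ∀ E : Subgroup P, Cfsg.IsElementaryAbelian 3 E → 3 ^ 2 ≤ Nat.card E →
      Relation.ReflTransGen
        (fun A B : Subgroup P => Cfsg.IsElementaryAbelian 3 A ∧ 3 ^ 2 ≤ Nat.card ↥A ∧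
          Cfsg.IsElementaryAbelian 3 B ∧ 3 ^ 2 ≤ Nat.card ↥B ∧ ∀ a ∈ A, ∀ b ∈ B, a * b = b * a)
        E A := by
    intro E hE hEcard
    have hE' := (elemAb_iff 3 E).mp hE
    obtain ⟨x, hxE, hxz⟩ : ∃ x ∈ E, x ∉ Subgroup.zpowers z := by
      by_contra hcon
      push Not at hcon
      have := Subgroup.card_le_of_le (show E ≤ Subgroup.zpowers z from hcon)
      rw [hzcard] at this
      norm_num at hEcard
      omega
    have hx3 : x ^ 3 = 1 := hE'.2 x hxE
    have hX₁el : Cfsg.IsElementaryAbelian 3 (Subgroup.zpowers z ⊔ Subgroup.zpowers x) :=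
      Cfsg.Agent.Lib.Helper23.RankTwo.elemAb_sup (elemAb_zpowers hz3) (elemAb_zpowers hx3)
        (fun a ha b hb => (hzcen a ha b).symm)
    have hX₁card : 3 ^ 2 ≤ Nat.card ↥(Subgroup.zpowers z ⊔ Subgroup.zpowers x) := by
      have hlt : Subgroup.zpowers z < Subgroup.zpowers z ⊔ Subgroup.zpowers x := by
        refine lt_of_le_of_ne le_sup_left (fun heq => hxz ?_)
        rw [heq]
        exact (le_sup_right : Subgroup.zpowers x ≤ _) (Subgroup.mem_zpowers x)
      have hclt : Nat.card (Subgroup.zpowers z) <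
          Nat.card ↥(Subgroup.zpowers z ⊔ Subgroup.zpowers x) := by
        by_contra hcon
        push Not at hcon
        exact hlt.ne (Subgroup.eq_of_le_of_card_ge hlt.le hcon)
      obtain ⟨i, hi⟩ := (hP.to_subgroup (Subgroup.zpowers z ⊔ Subgroup.zpowers x)).exists_card_eq
      rw [hzcard, hi] at hclt
      rw [hi]
      have h1 : 1 < i := by
        have : 3 ^ 1 < 3 ^ i := by simpa using hclt
        exact (Nat.pow_lt_pow_iff_right (by norm_num : 1 < 3)).mp this
      exact Nat.pow_le_pow_right (by norm_num) h1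
    have hDle : A ⊓ Subgroup.centralizer {x} ≤ A := inf_le_left
    have hDel : Cfsg.IsElementaryAbelian 3 (A ⊓ Subgroup.centralizer {x}) :=
      (elemAb_iff 3 _).mpr ⟨fun a ha b hb => hAc a (hDle ha) b (hDle hb),
        fun a ha => hAe a (hDle ha)⟩
    have hDcard : 3 ^ 2 ≤ Nat.card ↥(A ⊓ Subgroup.centralizer {x}) := by
      have := card_centralizer_ge A hAc hAe hAcard x hx3
      norm_num
      exact this
    have hR1 : ∀ a ∈ E, ∀ b ∈ Subgroup.zpowers z ⊔ Subgroup.zpowers x, a * b = b * a := by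
      have hle : Subgroup.zpowers z ⊔ Subgroup.zpowers x ≤ Subgroup.centralizer (E : Set P) := by
        apply sup_le
        · intro b hb
          exact Subgroup.mem_centralizer_iff.mpr (fun h _ => hzcen b hb h)
        · rw [Subgroup.zpowers_le]
          exact Subgroup.mem_centralizer_iff.mpr (fun h hh => hE'.1 h hh x hxE)
      intro a ha b hb
      exact Subgroup.mem_centralizer_iff.mp (hle hb) a ha
    have hR2 : ∀ a ∈ Subgroup.zpowers z ⊔ Subgroup.zpowers x,
        ∀ b ∈ A ⊓ Subgroup.centralizer {x}, a * b = b * a := by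
      have hle : Subgroup.zpowers z ⊔ Subgroup.zpowers x ≤
          Subgroup.centralizer ((A ⊓ Subgroup.centralizer {x} : Subgroup P) : Set P) := by
        apply sup_le
        · intro b hb
          exact Subgroup.mem_centralizer_iff.mpr (fun h _ => hzcen b hb h)
        · rw [Subgroup.zpowers_le]
          refine Subgroup.mem_centralizer_iff.mpr (fun h hh => ?_)
          exact (Subgroup.mem_centralizer_iff.mp hh.2 x rfl).symm
      intro a ha b hb
      exact (Subgroup.mem_centralizer_iff.mp (hle ha) b hb).symm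
    have hR3 : ∀ a ∈ A ⊓ Subgroup.centralizer {x}, ∀ b ∈ A, a * b = b * a :=
      fun a ha b hb => hAc a (hDle ha) b hb
    exact ((Relation.ReflTransGen.single ⟨hE, hEcard, hX₁el, hX₁card, hR1⟩).trans
      (Relation.ReflTransGen.single ⟨hX₁el, hX₁card, hDel, hDcard, hR2⟩)).trans
      (Relation.ReflTransGen.single ⟨hDel, hDcard, hAel, hA9, hR3⟩)
  intro E E' hE hEc hE' hE'c
  refine (key E hE hEc).trans (reflTransGen_symm ?_ (key E' hE' hE'c))
  rintro X Y ⟨h1, h2, h3, h4, h5⟩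
  exact ⟨h3, h4, h1, h2, fun a ha b hb => (h5 b hb a ha).symm⟩

end Cfsg.Agent.Lib.Helper23.Connected
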