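import Mathlib
import Cfsg.Agent.Lib.Helper23.HNStmt

set_option autoImplicit false

/-!
# S1438: assembly (helper23)
-/

namespace Cfsg.Agent.Lib.Helper23.HNAsm

universe u

open Cfsg Cfsg.Agent.Lib.Helper23.HNStmt

theorem main (hC : Compl.{u}) (hT : Tau2X.{u}) (hA : XAb.{u}) (hY : XCyc.{u}) (hP : Part2.{u})
    {G : Type u} [Group G] [Finite G] (hG : Cfsg.IsMinSimpleOddOrder G)
    (M : Subgroup G) (hM : IsCoatom M) (H : Subgroup G) (hH : H ≤ Cfsg.sigmaCore M) (hH1 : H ≠ ⊥)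
    (hHall : (Nat.card H).Coprime (H.relIndex (Cfsg.sigmaCore M))) :
    (∃ X : Subgroup G, IsCyclic X ∧ (∀ p : ℕ, p.Prime → p ∣ Nat.card X → p ∈ Cfsg.tau2 M) ∧
        M ⊓ Subgroup.centralizer (H : Set G) =
          (Cfsg.sigmaCore M ⊓ Subgroup.centralizer (H : Set G)) ⊔ X) ∧
      ∀ x ∈ H, ∀ g : G, g * x * g⁻¹ ∈ H →
        ∃ n ∈ M ⊓ Subgroup.normalizer (H : Set G), n * x * n⁻¹ = g * x * g⁻¹ := by
  obtain ⟨X, hXle, hXcop, hXeq⟩ := hC hG M hM H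
  have hτ := hT hG M hM H hH hH1 hHall X hXle hXcop
  have hab := hA hG M hM H hH hH1 X hXle hτ
  have hcyc := hY hG M hM H hH hH1 X hXle hτ hab
  exact ⟨⟨X, hcyc, hτ, hXeq⟩, hP hG M hM H hH hH1 hHall⟩

end Cfsg.Agent.Lib.Helper23.HNAsm
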