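import Mathlib
import Cfsg.Prelude.Def_Blocks
import Cfsg.Agent.Lib.Helper74.McKayDefs
import Cfsg.Agent.Lib.Helper16.FirstMain

/-!
# Conjugate characters of `C_G(P)` induce the same block (piece E of S4502)

If `θ' = θ ∘ (conjugation by n)` for some `n ∈ N_G(P)`, then the blocks of `θ` and `θ'` of
`C_G(P)` induce the same block of `G`.
-/

set_option autoImplicit false

namespace Cfsg.Agent.Lib.Helper23.McKayE

open Cfsg Cfsg.Agent.Lib.Helper74.McKayDefs

universe u
variable {G : Type u} [Group G]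

/-- Conjugation by `n ∈ N_G(P)` as a self-map of `C_G(P)`. -/
def cj (P : Subgroup G) (n : G) (hn : n ∈ Subgroup.normalizer (P : Set G))
    (c : ↥(Subgroup.centralizer (P : Set G))) : ↥(Subgroup.centralizer (P : Set G)) :=
  ⟨n * c * n⁻¹, conj_mem_centralizer P hn c.2⟩

theorem cj_bijOn (P : Subgroup G) (n : G) (hn : n ∈ Subgroup.normalizer (P : Set G)) (g : G) :
    Set.BijOn (cj P n hn) {h : ↥(Subgroup.centralizer (P : Set G)) | IsConj g (h : G)}
      {h : ↥(Subgroup.centralizer (P : Set G)) | IsConj g (h : G)} := by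
  refine ⟨?_, ?_, ?_⟩
  · intro h hh
    have hh' : IsConj g (h : G) := hh
    show IsConj g (n * (h : G) * n⁻¹)
    exact hh'.trans (isConj_iff.mpr ⟨n, rfl⟩)
  · intro a _ b _ hab
    have h1 : n * (a : G) * n⁻¹ = n * (b : G) * n⁻¹ := congrArg Subtype.val hab
    apply Subtype.ext
    calc (a : G) = n⁻¹ * (n * (a : G) * n⁻¹) * n := by group
      _ = n⁻¹ * (n * (b : G) * n⁻¹) * n := by rw [h1]
      _ = (b : G) := by group
  · intro h hh
    have hh' : IsConj g (h : G) := hh
    have hn' : n⁻¹ ∈ Subgroup.normalizer (P : Set G) := Subgroup.inv_mem _ hn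
    have hmem : n⁻¹ * (h : G) * n ∈ Subgroup.centralizer (P : Set G) := by
      have := conj_mem_centralizer P hn' h.2
      rwa [inv_inv] at this
    refine ⟨⟨n⁻¹ * (h : G) * n, hmem⟩, ?_, ?_⟩
    · show IsConj g (n⁻¹ * (h : G) * n)
      refine hh'.trans (isConj_iff.mpr ⟨n⁻¹, ?_⟩)
      rw [inv_inv]
    · apply Subtype.ext
      show n * (n⁻¹ * (h : G) * n) * n⁻¹ = (h : G)
      group

/-- **Piece E.** -/
theorem induced_conj [Finite G] (p : ℕ) [Fact p.Prime] (M : Ideal AlgInt) (hM : IsPModular p M) (P : Subgroup G) (θ θ' : IrrCharacter ↥(Subgroup.centralizer (P : Set G))) (n : G) (hn : n ∈ Subgroup.normalizer (P : Set G)) (hθ' : ∀ c c' : ↥(Subgroup.centralizer (P : Set G)), (c' : G) = n * c * n⁻¹ → (θ' : ↥(Subgroup.centralizer (P : Set G)) → ℂ) c = (θ : ↥(Subgroup.centralizer (P : Set G)) → ℂ) c') (B : Set (IrrCharacter G)) (h : IsInducedBlock M (Subgroup.centralizer (P : Set G)) (blockOf M (θ : ↥(Subgroup.centralizer (P : Set G)) → ℂ)) B) : IsInducedBlock M (Subgroup.centralizer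 (P : Set G)) (blockOf M (θ' : ↥(Subgroup.centralizer (P : Set G)) → ℂ)) B := by
  have hMp : M.IsPrime := hM.2.1.isPrime
  have hcj : ∀ c : ↥(Subgroup.centralizer (P : Set G)),
      (θ' : ↥(Subgroup.centralizer (P : Set G)) → ℂ) c =
        (θ : ↥(Subgroup.centralizer (P : Set G)) → ℂ) (cj P n hn c) :=
    fun c => hθ' c (cj P n hn c) rfl
  have hone : (θ' : ↥(Subgroup.centralizer (P : Set G)) → ℂ) 1 =
      (θ : ↥(Subgroup.centralizer (P : Set G)) → ℂ) 1 := by
    have h1 : cj P n hn 1 = 1 := by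
      apply Subtype.ext
      show n * ((1 : ↥(Subgroup.centralizer (P : Set G))) : G) * n⁻¹ = 1
      simp
    rw [hcj 1, h1]
  -- (i) the induced central characters of `θ'` and `θ` agree
  have hi : ∀ g : G, inducedCentralChar (Subgroup.centralizer (P : Set G))
      (θ' : ↥(Subgroup.centralizer (P : Set G)) → ℂ) g =
      inducedCentralChar (Subgroup.centralizer (P : Set G))
        (θ : ↥(Subgroup.centralizer (P : Set G)) → ℂ) g := by
    intro g
    unfold inducedCentralChar
    refine finsum_mem_eq_of_bijOn (cj P n hn) (cj_bijOn P n hn g) ?_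
    intro x _
    rw [hone, hcj x]
  refine ⟨⟨θ', rfl⟩, h.2.1, ?_⟩
  intro ξ' hξ' χ hχ g
  have hsb : SameBlock M (θ' : ↥(Subgroup.centralizer (P : Set G)) → ℂ)
      (ξ' : ↥(Subgroup.centralizer (P : Set G)) → ℂ) := hξ'
  -- (ii) the induced central characters of `ξ'` and `θ'` agree modulo the local ideal
  obtain ⟨R, -, -, -, hR⟩ :=
    Cfsg.Agent.Lib.Helper16.FirstMain.inducedCentralChar_eq_sum_reps'
      (Subgroup.centralizer (P : Set G)) g
  have hξc := hR (ξ' : ↥(Subgroup.centralizer (P : Set G)) → ℂ)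
    (fun x k => Cfsg.Agent.Lib.Helper16.CentralChar.irr_conj _ ξ'.2 x k)
  have hθc := hR (θ' : ↥(Subgroup.centralizer (P : Set G)) → ℂ)
    (fun x k => Cfsg.Agent.Lib.Helper16.CentralChar.irr_conj _ θ'.2 x k)
  have hii : MemLocalIdeal M
      (inducedCentralChar (Subgroup.centralizer (P : Set G))
          (ξ' : ↥(Subgroup.centralizer (P : Set G)) → ℂ) g -
        inducedCentralChar (Subgroup.centralizer (P : Set G))
          (θ' : ↥(Subgroup.centralizer (P : Set G)) → ℂ) g) := by
    rw [hξc, hθc, ← Finset.sum_sub_distrib]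
    refine Cfsg.Agent.Lib.Helper77.LocalRing.memLocalIdeal_sum hMp R _ ?_
    intro r _
    exact Cfsg.Agent.Lib.Helper77.LocalRing.memLocalIdeal_sub_comm (hsb r)
  -- (iii) the induced central character of `θ` agrees with the central character of `χ`
  have hiii := h.2.2 θ (Cfsg.Agent.Lib.Helper16.ZR.mem_blockOf_self hMp θ) χ hχ g
  rw [← hi g] at hiii
  have hsum := Cfsg.Agent.Lib.Helper77.LocalRing.memLocalIdeal_add hMp hii hiii
  rwa [sub_add_sub_cancel] at hsum

end Cfsg.Agent.Lib.Helper23.McKayE
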