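import Mathlib
import Cfsg.Prelude.Def_Transfer
import Cfsg.Prelude.Def_CaseTheorems
import Cfsg.Agent.Lib.Helper24.PGroupBasic
import Cfsg.Agent.Lib.Helper23.RankTwo

set_option autoImplicit false

open scoped commutatorElement

/-!
For an odd prime `p`, a finite `p`-group containing an elementary abelian subgroup of order `p ^ 4`
has a normal elementary abelian subgroup of order `p ^ 4`.
-/

namespace Cfsg.Agent.Lib.Helper23.NormalFour

open Cfsg.Agent.Lib.Helper24.Alperin Cfsg.Agent.Lib.Helper24.PGroupBasic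
open Cfsg.Agent.Lib.Helper24.Coprime
open Cfsg.Agent.Lib.Helper53.ElemAb

variable {G : Type*} [Group G]

/-- A subgroup strictly between a subgroup of order `p ^ n` and one of order `p ^ (n + 1)` does
not exist. -/
theorem eq_of_le_of_ne_of_card [Finite G] {p n : ℕ} (hp : p.Prime) {W T A : Subgroup G}
    (hW : Nat.card W = p ^ n) (hA : Nat.card A = p ^ (n + 1)) (hWT : W ≤ T) (hTA : T ≤ A)
    (hne : T ≠ W) : T = A := by
  have h1 : Nat.card W ∣ Nat.card T := Subgroup.card_dvd_of_le hWT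
  have h2 : Nat.card T ∣ Nat.card A := Subgroup.card_dvd_of_le hTA
  obtain ⟨c, hc⟩ := h1
  rw [hc, hW, hA, pow_succ] at h2
  have h3 : c ∣ p := (Nat.mul_dvd_mul_iff_left (pow_pos hp.pos n)).mp h2
  rcases (Nat.dvd_prime hp).mp h3 with rfl | rfl
  · exfalso
    apply hne
    refine (Subgroup.eq_of_le_of_card_ge hWT ?_).symm
    rw [hc, mul_one]
  · refine Subgroup.eq_of_le_of_card_ge hTA ?_
    rw [hc, hW, hA, pow_succ]

/-- The configuration: `A` is a normal elementary abelian subgroup of order `p ^ 3` containing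
all elements of order `p` of its centralizer, and `W ≤ A` is normal of order `p ^ 2`. -/
structure Cfg (p : ℕ) (A W : Subgroup G) : Prop where
  Acomm : ∀ a ∈ A, ∀ b ∈ A, a * b = b * a
  Aexp : ∀ a ∈ A, a ^ p = 1
  Acard : Nat.card A = p ^ 3
  Anorm : A.Normal
  alp : ∀ x : G, (∀ a ∈ A, a * x = x * a) → x ^ p = 1 → x ∈ A
  WA : W ≤ A
  Wnorm : W.Normal
  Wcard : Nat.card W = p ^ 2

/-- An elementary abelian subgroup of order at least `p ^ 4` containing `W`. -/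
structure Big (p : ℕ) (W B : Subgroup G) : Prop where
  comm : ∀ a ∈ B, ∀ b ∈ B, a * b = b * a
  exp : ∀ a ∈ B, a ^ p = 1
  card : p ^ 4 ≤ Nat.card B
  WB : W ≤ B

/-- `A / W` is central in `G / W`. -/
theorem Cfg.comm_mem [Finite G] {p : ℕ} [Fact p.Prime] (hG : IsPGroup p G) {A W : Subgroup G}
    (h : Cfg p A W) : ∀ a ∈ A, ∀ g : G, a * g * a⁻¹ * g⁻¹ ∈ W := by
  have hpr : p.Prime := Fact.out
  have hWn : W.Normal := h.Wnorm
  have hAn : A.Normal := h.Anorm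
  have hGnil : Group.IsNilpotent G := hG.isNilpotent
  have hnil : Group.IsNilpotent (⊤ : Subgroup G) := inferInstance
  have hAW : ¬ A ≤ W := by
    intro hle
    have := Subgroup.card_le_of_le hle
    rw [h.Acard, h.Wcard] at this
    have := (Nat.pow_le_pow_iff_right hpr.one_lt).mp this
    omega
  obtain ⟨k, hkA, hkW, hkt⟩ := exists_commutator_mem hnil (le_top : A ≤ ⊤)
    (by rw [Subgroup.normalizer_eq_top]) hAW
  obtain ⟨Z2, hZ2⟩ : ∃ Z2 : Subgroup G,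
      Z2 = (Subgroup.center (G ⧸ W)).comap (QuotientGroup.mk' W) := ⟨_, rfl⟩
  have hZ2mem : ∀ x : G, x ∈ Z2 ↔ ∀ g : G, x * g * x⁻¹ * g⁻¹ ∈ W := by
    intro x
    rw [hZ2, Subgroup.mem_comap, Subgroup.mem_center_iff]
    constructor
    · intro hx g
      have := hx (QuotientGroup.mk' W g)
      rw [QuotientGroup.mk'_apply, QuotientGroup.mk'_apply, ← QuotientGroup.mk_mul,
        ← QuotientGroup.mk_mul, eq_comm, QuotientGroup.eq_iff_div_mem] at this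
      have e : x * g / (g * x) = x * g * x⁻¹ * g⁻¹ := by
        rw [div_eq_mul_inv, mul_inv_rev, mul_assoc, mul_assoc, mul_assoc]
      rwa [e] at this
    · intro hx q
      obtain ⟨g, rfl⟩ := QuotientGroup.mk'_surjective W q
      rw [QuotientGroup.mk'_apply, QuotientGroup.mk'_apply, ← QuotientGroup.mk_mul,
        ← QuotientGroup.mk_mul, eq_comm, QuotientGroup.eq_iff_div_mem]
      have e : x * g / (g * x) = x * g * x⁻¹ * g⁻¹ := by
        rw [div_eq_mul_inv, mul_inv_rev, mul_assoc, mul_assoc, mul_assoc]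
      rw [e]
      exact hx g
  have hT : A ⊓ Z2 = A := by
    refine eq_of_le_of_ne_of_card hpr h.Wcard h.Acard (le_inf h.WA ?_) inf_le_left ?_
    · intro w hw
      rw [hZ2mem]
      intro g
      have : w * g * w⁻¹ * g⁻¹ = w * (g * w⁻¹ * g⁻¹) := by group
      rw [this]
      exact W.mul_mem hw (hWn.conj_mem _ (W.inv_mem hw) g)
    · intro heq
      apply hkW
      rw [← heq]
      refine ⟨hkA, (hZ2mem k).mpr (fun g => hkt g (Subgroup.mem_top g))⟩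
  intro a ha g
  have : a ∈ A ⊓ Z2 := by rw [hT]; exact ha
  exact (hZ2mem a).mp this.2 g

/-- `A` is generated by `W` and any element outside `W`; so an element commuting with both
centralizes `A`. -/
theorem Cfg.comm_of_comm [Finite G] {p : ℕ} [Fact p.Prime] {A W : Subgroup G}
    (h : Cfg p A W) {a₀ : G} (ha₀ : a₀ ∈ A) (ha₀W : a₀ ∉ W) {c : G} (hc : a₀ * c = c * a₀)
    (hcW : ∀ w ∈ W, w * c = c * w) : ∀ a ∈ A, a * c = c * a := by
  have hpr : p.Prime := Fact.out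
  have hT : W ⊔ Subgroup.zpowers a₀ = A := by
    refine eq_of_le_of_ne_of_card hpr h.Wcard h.Acard le_sup_left
      (sup_le h.WA ((Subgroup.zpowers_le).mpr ha₀)) ?_
    intro heq
    apply ha₀W
    rw [← heq]
    exact (le_sup_right : Subgroup.zpowers a₀ ≤ _) (Subgroup.mem_zpowers a₀)
  have hle : W ⊔ Subgroup.zpowers a₀ ≤ Subgroup.centralizer {c} := by
    apply sup_le
    · intro w hw
      rw [Subgroup.mem_centralizer_iff]
      simp only [Set.mem_singleton_iff, forall_eq]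
      exact (hcW w hw).symm
    · rw [Subgroup.zpowers_le, Subgroup.mem_centralizer_iff]
      simp only [Set.mem_singleton_iff, forall_eq]
      exact hc.symm
  intro a ha
  have := hle (show a ∈ W ⊔ Subgroup.zpowers a₀ by rw [hT]; exact ha)
  rw [Subgroup.mem_centralizer_iff] at this
  exact (this c rfl).symm

theorem Cfg.exists_not_mem [Finite G] {p : ℕ} [Fact p.Prime] {A W : Subgroup G}
    (h : Cfg p A W) : ∃ a₀ ∈ A, a₀ ∉ W := by
  have hpr : p.Prime := Fact.out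
  by_contra hcon
  push Not at hcon
  have := Subgroup.card_le_of_le (show A ≤ W from hcon)
  rw [h.Acard, h.Wcard] at this
  have := (Nat.pow_le_pow_iff_right hpr.one_lt).mp this
  omega

/-- `A ∩ B = W`, so `C_B(A) = W`. -/
theorem Cfg.mem_of_comm [Finite G] {p : ℕ} [Fact p.Prime] {A W B : Subgroup G}
    (h : Cfg p A W) (hB : Big p W B) : ∀ b ∈ B, (∀ a ∈ A, a * b = b * a) → b ∈ W := by
  have hpr : p.Prime := Fact.out
  have hAB : A ⊓ B = W := by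
    by_contra hne
    have hT : A ⊓ B = A :=
      eq_of_le_of_ne_of_card hpr h.Wcard h.Acard (le_inf h.WA hB.WB) inf_le_left hne
    have hAleB : A ≤ B := by rw [← hT]; exact inf_le_right
    have hBA : B ≤ A := by
      intro b hb
      exact h.alp b (fun a ha => hB.comm a (hAleB ha) b hb) (hB.exp b hb)
    have := (hB.card).trans (Subgroup.card_le_of_le hBA)
    rw [h.Acard] at this
    have := (Nat.pow_le_pow_iff_right hpr.one_lt).mp this
    omega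
  intro b hb hbA
  have hbA' : b ∈ A := h.alp b hbA (hB.exp b hb)
  rw [← hAB]
  exact ⟨hbA', hb⟩

/-- The commutator homomorphism `B → W`, `b ↦ [a₀, b]`. -/
def commHom [Finite G] {p : ℕ} [Fact p.Prime] (hG : IsPGroup p G) {A W B : Subgroup G}
    (h : Cfg p A W) (hB : Big p W B) {a₀ : G} (ha₀ : a₀ ∈ A) : ↥B →* ↥W where
  toFun b := ⟨a₀ * b * a₀⁻¹ * (b : G)⁻¹, h.comm_mem hG a₀ ha₀ b⟩
  map_one' := by
    apply Subtype.ext
    simp
  map_mul' b b' := by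
    apply Subtype.ext
    have hw := h.comm_mem hG a₀ ha₀ b'
    have hcomm := hB.comm _ (hB.WB hw) b b.2
    show a₀ * ((b : G) * b') * a₀⁻¹ * ((b : G) * b')⁻¹ =
      (a₀ * b * a₀⁻¹ * (b : G)⁻¹) * (a₀ * b' * a₀⁻¹ * (b' : G)⁻¹)
    calc a₀ * ((b : G) * b') * a₀⁻¹ * ((b : G) * b')⁻¹
        = (a₀ * b * a₀⁻¹ * (b : G)⁻¹) * ((b : G) * (a₀ * b' * a₀⁻¹ * (b' : G)⁻¹)) * (b : G)⁻¹ := by
          group
      _ = (a₀ * b * a₀⁻¹ * (b : G)⁻¹) * ((a₀ * b' * a₀⁻¹ * (b' : G)⁻¹) * (b : G)) * (b : G)⁻¹ := by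
          rw [hcomm]
      _ = _ := by group

theorem commHom_apply [Finite G] {p : ℕ} [Fact p.Prime] (hG : IsPGroup p G) {A W B : Subgroup G}
    (h : Cfg p A W) (hB : Big p W B) {a₀ : G} (ha₀ : a₀ ∈ A) (b : ↥B) :
    ((commHom hG h hB ha₀ b : ↥W) : G) = a₀ * b * a₀⁻¹ * (b : G)⁻¹ := rfl

theorem commHom_ker [Finite G] {p : ℕ} [Fact p.Prime] (hG : IsPGroup p G) {A W B : Subgroup G}
    (h : Cfg p A W) (hB : Big p W B) {a₀ : G} (ha₀ : a₀ ∈ A) (ha₀W : a₀ ∉ W) :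
    (commHom hG h hB ha₀).ker = W.subgroupOf B := by
  ext b
  rw [MonoidHom.mem_ker, Subgroup.mem_subgroupOf]
  constructor
  · intro hb
    have hb' : a₀ * b * a₀⁻¹ * (b : G)⁻¹ = 1 := by
      have := congrArg (fun x : ↥W => (x : G)) hb
      simpa [commHom_apply] using this
    have hc : a₀ * (b : G) = b * a₀ := by
      calc a₀ * (b : G) = (a₀ * b * a₀⁻¹ * (b : G)⁻¹) * (b * a₀) := by group
        _ = b * a₀ := by rw [hb', one_mul]
    exact h.mem_of_comm hB b b.2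
      (h.comm_of_comm ha₀ ha₀W hc (fun w hw => hB.comm w (hB.WB hw) b b.2))
  · intro hb
    apply Subtype.ext
    rw [commHom_apply]
    have := h.Acomm a₀ ha₀ b (h.WA hb)
    rw [this]
    simp

/-- An elementary abelian subgroup containing `W` has order at most `p ^ 4`, and the commutator
map `b ↦ [a₀, b]` is onto `W`. -/
theorem Cfg.big_card [Finite G] {p : ℕ} [Fact p.Prime] (hG : IsPGroup p G) {A W B : Subgroup G}
    (h : Cfg p A W) (hB : Big p W B) : Nat.card B = p ^ 4 := by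
  have hpr : p.Prime := Fact.out
  obtain ⟨a₀, ha₀, ha₀W⟩ := h.exists_not_mem
  have h1 := Subgroup.card_mul_index (commHom hG h hB ha₀).ker
  rw [Subgroup.index_ker, commHom_ker hG h hB ha₀ ha₀W] at h1
  have h2 : Nat.card (W.subgroupOf B) = p ^ 2 := by
    rw [← h.Wcard]
    exact Nat.card_congr (Subgroup.subgroupOfEquivOfLe hB.WB).toEquiv
  have h3 : Nat.card (commHom hG h hB ha₀).range ≤ p ^ 2 := by
    rw [← h.Wcard]
    exact Subgroup.card_le_card_group _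
  rw [h2] at h1
  apply le_antisymm _ hB.card
  rw [← h1]
  calc p ^ 2 * Nat.card (commHom hG h hB ha₀).range ≤ p ^ 2 * p ^ 2 :=
        Nat.mul_le_mul_left _ h3
    _ = p ^ 4 := by ring

theorem Cfg.exists_comm_eq [Finite G] {p : ℕ} [Fact p.Prime] (hG : IsPGroup p G)
    {A W B : Subgroup G} (h : Cfg p A W) (hB : Big p W B) {a₀ : G} (ha₀ : a₀ ∈ A)
    (ha₀W : a₀ ∉ W) : ∀ w ∈ W, ∃ b ∈ B, a₀ * b * a₀⁻¹ * b⁻¹ = w := by
  have hpr : p.Prime := Fact.out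
  have h1 := Subgroup.card_mul_index (commHom hG h hB ha₀).ker
  rw [Subgroup.index_ker, commHom_ker hG h hB ha₀ ha₀W] at h1
  have h2 : Nat.card (W.subgroupOf B) = p ^ 2 := by
    rw [← h.Wcard]
    exact Nat.card_congr (Subgroup.subgroupOfEquivOfLe hB.WB).toEquiv
  rw [h2, h.big_card hG hB] at h1
  have h3 : Nat.card (commHom hG h hB ha₀).range = p ^ 2 := by
    have h4 : p ^ 2 * Nat.card (commHom hG h hB ha₀).range = p ^ 2 * p ^ 2 := by
      rw [h1]; ring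
    exact Nat.eq_of_mul_eq_mul_left (pow_pos hpr.pos 2) h4
  have htop : (commHom hG h hB ha₀).range = ⊤ := by
    apply Subgroup.eq_top_of_card_eq
    rw [h3, h.Wcard]
  intro w hw
  have : (⟨w, hw⟩ : ↥W) ∈ (commHom hG h hB ha₀).range := by rw [htop]; trivial
  obtain ⟨b, hb⟩ := this
  refine ⟨b, b.2, ?_⟩
  have := congrArg (fun x : ↥W => (x : G)) hb
  simpa [commHom_apply] using this

/-- Two elementary abelian subgroups normalizing each other: products `b⁻¹ * b'` have order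
dividing `p` (for odd `p`). -/
theorem pow_eq_one_of_normalize {p : ℕ} [Fact p.Prime] (hp : p ≠ 2) {W B B' : Subgroup G}
    (hB : Big p W B) (hB' : Big p W B')
    (hn : ∀ b ∈ B, ∀ b' ∈ B', b' * b * b'⁻¹ ∈ B)
    (hn' : ∀ b ∈ B, ∀ b' ∈ B', b * b' * b⁻¹ ∈ B') :
    ∀ b ∈ B, ∀ b' ∈ B', (b⁻¹ * b') ^ p = 1 := by
  intro b hb b' hb'
  have hc1 : b'⁻¹ * b⁻¹⁻¹ * b' * b⁻¹ ∈ B := by
    have h1 := hn b hb b'⁻¹ (B'.inv_mem hb')
    rw [inv_inv] at h1
    have e : b'⁻¹ * b⁻¹⁻¹ * b' * b⁻¹ = (b'⁻¹ * b * b') * b⁻¹ := by group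
    rw [e]
    exact B.mul_mem h1 (B.inv_mem hb)
  have hc2 : b'⁻¹ * b⁻¹⁻¹ * b' * b⁻¹ ∈ B' := by
    have h1 := hn' b hb b' hb'
    have e : b'⁻¹ * b⁻¹⁻¹ * b' * b⁻¹ = b'⁻¹ * (b * b' * b⁻¹) := by group
    rw [e]
    exact B'.mul_mem (B'.inv_mem hb') h1
  have h := mul_pow_prime_of_central p hp (x := b⁻¹) (y := b')
    (hB.comm _ hc1 _ (B.inv_mem hb)) (hB'.comm _ hc2 _ hb')
    (by rw [hB'.exp b' hb', one_mul, mul_one])
  rw [h, inv_pow, hB.exp b hb, hB'.exp b' hb', inv_one, one_mul]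

/-- Each element of `B'` is an element of `B` times an element of `A`. -/
theorem Cfg.exists_mul_mem [Finite G] {p : ℕ} [Fact p.Prime] (hp : p ≠ 2) (hG : IsPGroup p G)
    {A W B B' : Subgroup G} (h : Cfg p A W) (hB : Big p W B) (hB' : Big p W B')
    (hn : ∀ b ∈ B, ∀ b' ∈ B', b' * b * b'⁻¹ ∈ B)
    (hn' : ∀ b ∈ B, ∀ b' ∈ B', b * b' * b⁻¹ ∈ B') :
    ∀ b' ∈ B', ∃ b ∈ B, b⁻¹ * b' ∈ A := by
  intro b' hb'
  obtain ⟨a₀, ha₀, ha₀W⟩ := h.exists_not_mem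
  obtain ⟨b, hb, hbw⟩ := h.exists_comm_eq hG hB ha₀ ha₀W _ (h.comm_mem hG a₀ ha₀ b')
  refine ⟨b, hb, ?_⟩
  apply h.alp _ _ (pow_eq_one_of_normalize hp hB hB' hn hn' b hb b' hb')
  apply h.comm_of_comm ha₀ ha₀W
  · -- `a₀` commutes with `b⁻¹ * b'`
    have e1 : a₀ * b * a₀⁻¹ = (a₀ * b' * a₀⁻¹ * b'⁻¹) * b := by
      rw [← hbw]; group
    have e2 : a₀ * b' * a₀⁻¹ = (a₀ * b' * a₀⁻¹ * b'⁻¹) * b' := by group
    have e3 : a₀ * (b⁻¹ * b') * a₀⁻¹ = b⁻¹ * b' := by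
      calc a₀ * (b⁻¹ * b') * a₀⁻¹ = (a₀ * b * a₀⁻¹)⁻¹ * (a₀ * b' * a₀⁻¹) := by group
        _ = ((a₀ * b' * a₀⁻¹ * b'⁻¹) * b)⁻¹ * ((a₀ * b' * a₀⁻¹ * b'⁻¹) * b') := by
          rw [e1, ← e2]
        _ = b⁻¹ * b' := by group
    calc a₀ * (b⁻¹ * b') = (a₀ * (b⁻¹ * b') * a₀⁻¹) * a₀ := by group
      _ = b⁻¹ * b' * a₀ := by rw [e3]
  · intro w hw
    have h1 : w * b⁻¹ = b⁻¹ * w := hB.comm w (hB.WB hw) b⁻¹ (B.inv_mem hb)
    have h2 : w * b' = b' * w := hB'.comm w (hB'.WB hw) b' hb'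
    calc w * (b⁻¹ * b') = (w * b⁻¹) * b' := by group
      _ = b⁻¹ * (w * b') := by rw [h1]; group
      _ = b⁻¹ * b' * w := by rw [h2]; group

/-- The commutator homomorphism `A → W`, `d ↦ [d, b₀]`. -/
def commHom' [Finite G] {p : ℕ} [Fact p.Prime] (hG : IsPGroup p G) {A W : Subgroup G}
    (h : Cfg p A W) (b₀ : G) : ↥A →* ↥W where
  toFun d := ⟨d * b₀ * (d : G)⁻¹ * b₀⁻¹, h.comm_mem hG d d.2 b₀⟩
  map_one' := by
    apply Subtype.ext
    simp
  map_mul' d d' := by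
    apply Subtype.ext
    have hw := h.comm_mem hG d' d'.2 b₀
    have hcomm := h.Acomm _ (h.WA hw) d d.2
    have hcomm2 := h.Acomm _ (h.WA hw) _ (h.WA (h.comm_mem hG d d.2 b₀))
    show (d : G) * d' * b₀ * ((d : G) * d')⁻¹ * b₀⁻¹ =
      ((d : G) * b₀ * (d : G)⁻¹ * b₀⁻¹) * ((d' : G) * b₀ * (d' : G)⁻¹ * b₀⁻¹)
    calc (d : G) * d' * b₀ * ((d : G) * d')⁻¹ * b₀⁻¹
        = (d : G) * ((d' : G) * b₀ * (d' : G)⁻¹ * b₀⁻¹) * (b₀ * (d : G)⁻¹ * b₀⁻¹) := by group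
      _ = ((d' : G) * b₀ * (d' : G)⁻¹ * b₀⁻¹) * (d : G) * (b₀ * (d : G)⁻¹ * b₀⁻¹) := by
          rw [hcomm]
      _ = ((d' : G) * b₀ * (d' : G)⁻¹ * b₀⁻¹) * ((d : G) * b₀ * (d : G)⁻¹ * b₀⁻¹) := by group
      _ = _ := hcomm2

theorem commHom'_apply [Finite G] {p : ℕ} [Fact p.Prime] (hG : IsPGroup p G) {A W : Subgroup G}
    (h : Cfg p A W) (b₀ : G) (d : ↥A) :
    ((commHom' hG h b₀ d : ↥W) : G) = d * b₀ * (d : G)⁻¹ * b₀⁻¹ := rfl

/-- The commutator map `d ↦ [d, b₀]` from `A` is not onto `W` when `b₀` centralizes `W`. -/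
theorem Cfg.exists_not_comm [Finite G] {p : ℕ} [Fact p.Prime] (hG : IsPGroup p G)
    {A W : Subgroup G} (h : Cfg p A W) (b₀ : G) (hb₀ : ∀ w ∈ W, w * b₀ = b₀ * w) :
    ∃ w ∈ W, ∀ d ∈ A, d * b₀ * d⁻¹ * b₀⁻¹ ≠ w := by
  have hpr : p.Prime := Fact.out
  by_contra hcon
  push Not at hcon
  have htop : (commHom' hG h b₀).range = ⊤ := by
    rw [eq_top_iff]
    rintro ⟨w, hw⟩ -
    obtain ⟨d, hd, hdw⟩ := hcon w hw
    exact ⟨⟨d, hd⟩, Subtype.ext hdw⟩
  have hker : W.subgroupOf A ≤ (commHom' hG h b₀).ker := by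
    intro d hd
    rw [Subgroup.mem_subgroupOf] at hd
    rw [MonoidHom.mem_ker]
    apply Subtype.ext
    rw [commHom'_apply, hb₀ d hd]
    simp
  have h1 := Subgroup.card_mul_index (commHom' hG h b₀).ker
  rw [Subgroup.index_ker, htop, Subgroup.card_top, h.Wcard, h.Acard] at h1
  have h2 : Nat.card (W.subgroupOf A) = p ^ 2 := by
    rw [← h.Wcard]
    exact Nat.card_congr (Subgroup.subgroupOfEquivOfLe h.WA).toEquiv
  have h3 := Subgroup.card_le_of_le hker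
  rw [h2] at h3
  have h4 : p ^ 2 * p ^ 2 ≤ p ^ 3 := by
    rw [← h1]
    exact Nat.mul_le_mul_right _ h3
  have h5 : p ^ 4 ≤ p ^ 3 := by
    calc p ^ 4 = p ^ 2 * p ^ 2 := by ring
      _ ≤ p ^ 3 := h4
  have := (Nat.pow_le_pow_iff_right hpr.one_lt).mp h5
  omega

/-- Two elementary abelian subgroups of order `p ^ 4` containing `W` that normalize each other
coincide. -/
theorem Cfg.eq_of_normalize [Finite G] {p : ℕ} [Fact p.Prime] (hp : p ≠ 2) (hG : IsPGroup p G)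
    {A W B B' : Subgroup G} (h : Cfg p A W) (hB : Big p W B) (hB' : Big p W B')
    (hn : ∀ b ∈ B, ∀ b' ∈ B', b' * b * b'⁻¹ ∈ B)
    (hn' : ∀ b ∈ B, ∀ b' ∈ B', b * b' * b⁻¹ ∈ B') : B' = B := by
  by_contra hne
  have hnot : ¬ B' ≤ B := by
    intro hle
    apply hne
    refine Subgroup.eq_of_le_of_card_ge hle ?_
    rw [h.big_card hG hB, h.big_card hG hB']
  obtain ⟨b'₀, hb'₀, hb'₀B⟩ := SetLike.not_le_iff_exists.mp hnot
  obtain ⟨b₀, hb₀, hc₀⟩ := h.exists_mul_mem hp hG hB hB' hn hn' b'₀ hb'₀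
  have hc₀W : b₀⁻¹ * b'₀ ∉ W := by
    intro hw
    apply hb'₀B
    have e : b'₀ = b₀ * (b₀⁻¹ * b'₀) := by group
    rw [e]
    exact B.mul_mem hb₀ (hB.WB hw)
  obtain ⟨w, hw, hwd⟩ := h.exists_not_comm hG b₀ (fun w hw => hB.comm w (hB.WB hw) b₀ hb₀)
  obtain ⟨b, hb, hbw⟩ := h.exists_comm_eq hG hB hc₀ hc₀W w hw
  -- write `b = b' * c` with `b' ∈ B'`, `c ∈ A`
  obtain ⟨b', hb', hc⟩ := h.exists_mul_mem hp hG hB' hB
    (fun x hx y hy => hn' y hy x hx) (fun x hx y hy => hn y hy x hx) b hb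
  -- `d = (b'⁻¹ * b)⁻¹`, so that `b' = b * d`
  apply hwd ((b'⁻¹ * b)⁻¹) (A.inv_mem hc)
  have hcomm : b'₀ * b' = b' * b'₀ := hB'.comm b'₀ hb'₀ b' hb'
  -- notation: c₀ = b₀⁻¹ * b'₀, d = (b'⁻¹ * b)⁻¹ = b⁻¹ * b'
  have hd : (b'⁻¹ * b)⁻¹ = b⁻¹ * b' := by group
  rw [hd]
  have hdA : b⁻¹ * b' ∈ A := by rw [← hd]; exact A.inv_mem hc
  -- w' = [d, b₀] lies in `W`
  have hw' : (b⁻¹ * b') * b₀ * (b⁻¹ * b')⁻¹ * b₀⁻¹ ∈ W := h.comm_mem hG _ hdA b₀
  -- both `w` and `w'` commute with `A` and `B`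
  have hwA : ∀ a ∈ A, w * a = a * w := fun a ha => h.Acomm w (h.WA hw) a ha
  have hwB : ∀ x ∈ B, w * x = x * w := fun x hx => hB.comm w (hB.WB hw) x hx
  have hw'A : ∀ a ∈ A, ((b⁻¹ * b') * b₀ * (b⁻¹ * b')⁻¹ * b₀⁻¹) * a =
      a * ((b⁻¹ * b') * b₀ * (b⁻¹ * b')⁻¹ * b₀⁻¹) := fun a ha => h.Acomm _ (h.WA hw') a ha
  have hw'B : ∀ x ∈ B, ((b⁻¹ * b') * b₀ * (b⁻¹ * b')⁻¹ * b₀⁻¹) * x =
      x * ((b⁻¹ * b') * b₀ * (b⁻¹ * b')⁻¹ * b₀⁻¹) := fun x hx => hB.comm _ (hB.WB hw') x hx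
  obtain ⟨c₀, hc₀def⟩ : ∃ c₀ : G, c₀ = b₀⁻¹ * b'₀ := ⟨_, rfl⟩
  obtain ⟨d, hddef⟩ : ∃ d : G, d = b⁻¹ * b' := ⟨_, rfl⟩
  rw [← hc₀def] at hbw hc₀ hc₀W
  rw [← hddef] at hw' hw'A hw'B hdA ⊢
  have e1 : b'₀ = b₀ * c₀ := by rw [hc₀def]; group
  have e2 : b' = b * d := by rw [hddef]; group
  rw [e1, e2] at hcomm
  -- c₀ * b = w * b * c₀ and d * b₀ = w' * b₀ * d
  have e3 : c₀ * b = w * (b * c₀) := by rw [← hbw]; group
  have e4 : d * b₀ = (d * b₀ * d⁻¹ * b₀⁻¹) * (b₀ * d) := by group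
  have hbb : b₀ * b = b * b₀ := hB.comm b₀ hb₀ b hb
  have hcd : c₀ * d = d * c₀ := h.Acomm c₀ hc₀ d hdA
  -- LHS = w * (b₀ * b * c₀ * d), RHS = w' * (b₀ * b * c₀ * d)
  have hL : b₀ * c₀ * (b * d) = w * (b₀ * b * c₀ * d) := by
    calc b₀ * c₀ * (b * d) = b₀ * (c₀ * b) * d := by group
      _ = b₀ * (w * (b * c₀)) * d := by rw [e3]
      _ = (b₀ * w) * (b * c₀) * d := by group
      _ = (w * b₀) * (b * c₀) * d := by rw [hwB b₀ hb₀]
      _ = w * (b₀ * b * c₀ * d) := by group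
  have hR : b * d * (b₀ * c₀) = (d * b₀ * d⁻¹ * b₀⁻¹) * (b₀ * b * c₀ * d) := by
    calc b * d * (b₀ * c₀) = b * (d * b₀) * c₀ := by group
      _ = b * ((d * b₀ * d⁻¹ * b₀⁻¹) * (b₀ * d)) * c₀ := by rw [← e4]
      _ = (b * (d * b₀ * d⁻¹ * b₀⁻¹)) * (b₀ * d) * c₀ := by group
      _ = ((d * b₀ * d⁻¹ * b₀⁻¹) * b) * (b₀ * d) * c₀ := by rw [hw'B b hb]
      _ = (d * b₀ * d⁻¹ * b₀⁻¹) * ((b * b₀) * (d * c₀)) := by group
      _ = (d * b₀ * d⁻¹ * b₀⁻¹) * ((b₀ * b) * (c₀ * d)) := by rw [hbb, hcd]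
      _ = (d * b₀ * d⁻¹ * b₀⁻¹) * (b₀ * b * c₀ * d) := by group
  rw [hL, hR] at hcomm
  exact (mul_right_cancel hcomm).symm

theorem mem_normalizer_of_map_conj {Q : Subgroup G} {x : G}
    (h : Q.map (MulAut.conj x).toMonoidHom = Q) : x ∈ Subgroup.normalizer (Q : Set G) := by
  rw [Subgroup.mem_normalizer_iff]
  intro y
  constructor
  · intro hy
    rw [← h]
    exact ⟨y, hy, rfl⟩
  · intro hy
    rw [← h] at hy
    obtain ⟨z, hz, hzy⟩ := hy
    have h1 : x * z * x⁻¹ = x * y * x⁻¹ := hzy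
    have : z = y := by simpa using h1
    rwa [← this]

/-- In the configuration, every elementary abelian subgroup of order `p ^ 4` containing `W` is
normal. -/
theorem Cfg.normal_of_big [Finite G] {p : ℕ} [Fact p.Prime] (hp : p ≠ 2) (hG : IsPGroup p G)
    {A W B : Subgroup G} (h : Cfg p A W) (hB : Big p W B) : B.Normal := by
  have hWn : W.Normal := h.Wnorm
  have hGnil : Group.IsNilpotent G := hG.isNilpotent
  by_contra hnn
  have hNtop : Subgroup.normalizer (B : Set G) ≠ ⊤ := by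
    intro htop
    exact hnn (Subgroup.normalizer_eq_top_iff.mp htop)
  have hlt := Group.normalizerCondition_of_isNilpotent (G := G) (Subgroup.normalizer (B : Set G))
    (lt_top_iff_ne_top.mpr hNtop)
  obtain ⟨g, hgN, hgB⟩ := SetLike.exists_of_lt hlt
  have hginv : g⁻¹ ∈ Subgroup.normalizer ((Subgroup.normalizer (B : Set G) : Subgroup G) : Set G) :=
    Subgroup.inv_mem _ hgN
  have hBN : B ≤ Subgroup.normalizer (B : Set G) := Subgroup.le_normalizer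
  obtain ⟨B', hB'def⟩ : ∃ B' : Subgroup G, B' = B.map (MulAut.conj g).toMonoidHom := ⟨_, rfl⟩
  have hB'mem : ∀ y, y ∈ B' ↔ ∃ d ∈ B, g * d * g⁻¹ = y := by
    intro y
    rw [hB'def, Subgroup.mem_map]
    rfl
  have hBig' : Big p W B' := by
    refine ⟨?_, ?_, ?_, ?_⟩
    · intro x hx y hy
      obtain ⟨d, hd, rfl⟩ := (hB'mem x).mp hx
      obtain ⟨e, he, rfl⟩ := (hB'mem y).mp hy
      calc g * d * g⁻¹ * (g * e * g⁻¹) = g * (d * e) * g⁻¹ := by group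
        _ = g * (e * d) * g⁻¹ := by rw [hB.comm d hd e he]
        _ = g * e * g⁻¹ * (g * d * g⁻¹) := by group
    · intro x hx
      obtain ⟨d, hd, rfl⟩ := (hB'mem x).mp hx
      rw [conj_pow, hB.exp d hd]; group
    · rw [hB'def, Subgroup.card_map_of_injective (MulAut.conj g).injective]
      exact hB.card
    · intro w hw
      rw [hB'mem]
      refine ⟨g⁻¹ * w * g, hB.WB ?_, by group⟩
      have := hWn.conj_mem w hw g⁻¹
      rwa [inv_inv] at this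
  have hn : ∀ b ∈ B, ∀ b' ∈ B', b' * b * b'⁻¹ ∈ B := by
    intro b hb b' hb'
    obtain ⟨d, hd, rfl⟩ := (hB'mem b').mp hb'
    have h1 : g * d * g⁻¹ ∈ Subgroup.normalizer (B : Set G) :=
      (Subgroup.mem_normalizer_iff.mp hgN d).mp (hBN hd)
    exact (Subgroup.mem_normalizer_iff.mp h1 b).mp hb
  have hn' : ∀ b ∈ B, ∀ b' ∈ B', b * b' * b⁻¹ ∈ B' := by
    intro b hb b' hb'
    obtain ⟨d, hd, rfl⟩ := (hB'mem b').mp hb'
    have h1 : g⁻¹ * b * g⁻¹⁻¹ ∈ Subgroup.normalizer (B : Set G) :=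
      (Subgroup.mem_normalizer_iff.mp hginv b).mp (hBN hb)
    have h2 := (Subgroup.mem_normalizer_iff.mp h1 d).mp hd
    rw [hB'mem]
    refine ⟨_, h2, by group⟩
  have heq := h.eq_of_normalize hp hG hB hBig' hn hn'
  apply hgB
  apply mem_normalizer_of_map_conj
  rw [← hB'def, heq]

/-- **Normal elementary abelian subgroups of order `p ^ 4`**: for an odd prime `p`, a finite
`p`-group with an elementary abelian subgroup of order `p ^ 4` has a normal one. -/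
theorem exists_normal_elemAb_four [Finite G] {p : ℕ} [Fact p.Prime] (hp : p ≠ 2)
    (hG : IsPGroup p G) (E : Subgroup G) (hEc : ∀ a ∈ E, ∀ b ∈ E, a * b = b * a)
    (hEe : ∀ a ∈ E, a ^ p = 1) (hE4 : Nat.card E = p ^ 4) :
    ∃ A : Subgroup G, A.Normal ∧ (∀ a ∈ A, ∀ b ∈ A, a * b = b * a) ∧ (∀ a ∈ A, a ^ p = 1) ∧
      Nat.card A = p ^ 4 := by
  have hpr : p.Prime := Fact.out
  obtain ⟨A, ⟨hAn, hAc, hAe⟩, -, hAmax⟩ := exists_maximal_subgroup
    (fun A : Subgroup G => A.Normal ∧ (∀ a ∈ A, ∀ b ∈ A, a * b = b * a) ∧ ∀ a ∈ A, a ^ p = 1) ⊥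
    ⟨Subgroup.normal_bot, fun a ha b hb => by
      rw [Subgroup.mem_bot.mp ha, Subgroup.mem_bot.mp hb], fun a ha => by
      rw [Subgroup.mem_bot.mp ha, one_pow]⟩
  have hmax : ∀ B : Subgroup G, B.Normal → (∀ a ∈ B, ∀ b ∈ B, a * b = b * a) →
      (∀ b ∈ B, b ^ p = 1) → A ≤ B → B = A := fun B h1 h2 h3 h4 => hAmax B ⟨h1, h2, h3⟩ h4
  by_cases h4 : p ^ 4 ≤ Nat.card A
  · obtain ⟨B, hBn, hBA, hBcard⟩ := exists_normal_le_card hG A hAe 4 h4
    exact ⟨B, hBn, fun a ha b hb => hAc a (hBA ha) b (hBA hb), fun a ha => hAe a (hBA ha), hBcard⟩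
  push Not at h4
  obtain ⟨m, hm⟩ := (hG.to_subgroup A).exists_card_eq
  have hm4 : m < 4 := by
    rw [hm] at h4
    exact (Nat.pow_lt_pow_iff_right hpr.one_lt).mp h4
  have hm3 : m = 3 := by
    by_contra hne
    have hm2 : m ≤ 2 := by omega
    have hcard : Nat.card A ≤ p ^ 2 := by
      rw [hm]; exact Nat.pow_le_pow_right hpr.pos hm2
    have := card_le_of_max_normal_elementary hp hG A hAc hAe hmax hcard E hEc hEe
    rw [hE4] at this
    have := (Nat.pow_le_pow_iff_right hpr.one_lt).mp this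
    omega
  subst hm3
  have halp : ∀ x : G, (∀ a ∈ A, a * x = x * a) → x ^ p = 1 → x ∈ A := by
    intro x hx hxp
    refine alperin hG 1 ?_ A hAc (by simpa using hAe) ?_ x
      (Subgroup.mem_centralizer_iff.mpr hx) (by simpa using hxp)
    · rw [pow_one]; exact hp
    · intro B hBn hBc hBe hAB
      exact hmax B hBn hBc (by simpa using hBe) hAB
  obtain ⟨W, hWn, hWA, hWcard⟩ := exists_normal_le_card hG A hAe 2
    (by rw [hm]; exact Nat.pow_le_pow_right hpr.pos (by norm_num))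
  have hcfg : Cfg p A W := ⟨hAc, hAe, hm, hAn, halp, hWA, hWn, hWcard⟩
  have hWel : Cfsg.IsElementaryAbelian p W :=
    (elemAb_iff p W).mpr ⟨fun a ha b hb => hAc a (hWA ha) b (hWA hb), fun a ha => hAe a (hWA ha)⟩
  -- an elementary abelian subgroup of order at least `p ^ 4` containing `W`
  have hE0 := Cfsg.Agent.Lib.Helper23.RankTwo.card_le_mul_card_inf_centralizer hG W hWel hWcard E
  obtain ⟨E₀, hE₀def⟩ : ∃ E₀ : Subgroup G, E₀ = E ⊓ Subgroup.centralizer (W : Set G) := ⟨_, rfl⟩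
  rw [← hE₀def] at hE0
  have hE₀E : E₀ ≤ E := by rw [hE₀def]; exact inf_le_left
  have hE₀W : ∀ x ∈ E₀, ∀ w ∈ W, w * x = x * w := by
    intro x hx w hw
    rw [hE₀def] at hx
    exact Subgroup.mem_centralizer_iff.mp hx.2 w hw
  have hE₀el : Cfsg.IsElementaryAbelian p E₀ :=
    (elemAb_iff p E₀).mpr ⟨fun a ha b hb => hEc a (hE₀E ha) b (hE₀E hb),
      fun a ha => hEe a (hE₀E ha)⟩
  have hDel : Cfsg.IsElementaryAbelian p (E₀ ⊔ W) :=
    Cfsg.Agent.Lib.Helper23.RankTwo.elemAb_sup hE₀el hWel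
      (fun a ha b hb => (hE₀W a ha b hb).symm)
  have hD := (elemAb_iff p (E₀ ⊔ W)).mp hDel
  have hDcard : p ^ 4 ≤ Nat.card ↥(E₀ ⊔ W) := by
    by_cases hWE₀ : W ≤ E₀
    · have hEE₀ : E ≤ E₀ := by
        intro x hx
        rw [hE₀def]
        refine ⟨hx, Subgroup.mem_centralizer_iff.mpr ?_⟩
        intro w hw
        exact hEc w (hE₀E (hWE₀ hw)) x hx
      calc p ^ 4 = Nat.card E := hE4.symm
        _ ≤ Nat.card ↥(E₀ ⊔ W) := Subgroup.card_le_of_le (hEE₀.trans le_sup_left)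
    · have hlt : E₀ < E₀ ⊔ W := by
        refine lt_of_le_of_ne le_sup_left (fun heq => hWE₀ ?_)
        rw [heq]; exact le_sup_right
      have hclt : Nat.card E₀ < Nat.card ↥(E₀ ⊔ W) := by
        by_contra hcon
        push Not at hcon
        exact hlt.ne (Subgroup.eq_of_le_of_card_ge hlt.le hcon)
      obtain ⟨i, hi⟩ := (hG.to_subgroup E₀).exists_card_eq
      obtain ⟨j, hj⟩ := (hG.to_subgroup (E₀ ⊔ W)).exists_card_eq
      rw [hi, hj] at hclt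
      rw [hE4, hi, ← pow_succ'] at hE0
      have h1 := (Nat.pow_le_pow_iff_right hpr.one_lt).mp hE0
      have h2 := (Nat.pow_lt_pow_iff_right hpr.one_lt).mp hclt
      rw [hj]
      exact Nat.pow_le_pow_right hpr.pos (by omega)
  have hBig : Big p W (E₀ ⊔ W) := ⟨hD.1, hD.2, hDcard, le_sup_right⟩
  exact ⟨E₀ ⊔ W, hcfg.normal_of_big hp hG hBig, hD.1, hD.2, hcfg.big_card hG hBig⟩

end Cfsg.Agent.Lib.Helper23.NormalFour
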