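import Mathlib
import Cfsg.Agent.Lib.Lead.OrdTypeStmt

set_option autoImplicit false

/-!
helper23: S3998/NORMCNT: if the number of `p`-rough elements is `|P|`, the Sylow `p`-subgroup `P`
is normal.
-/

namespace Cfsg.Agent.Lib.Helper23.OTNORMCNT

open Cfsg.Agent.Lib.Lead.OrdTypeStmt

universe u

theorem main : NormCnt.{u} := by
  intro X _ _ p _ P h
  have hp : p.Prime := Fact.out
  have hsub : ((P : Subgroup X) : Set X) ⊆ rough X p := by
    intro x hx q hq hqd
    have hxP : x ∈ (P : Subgroup X) := hx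
    obtain ⟨k, hk⟩ := P.isPGroup' ⟨x, hxP⟩
    have hk' : x ^ p ^ k = 1 := by simpa using congrArg Subtype.val hk
    have hd : orderOf x ∣ p ^ k := orderOf_dvd_of_pow_eq_one hk'
    have hqp : q ∣ p ^ k := hqd.trans hd
    have hqe : q = p := (Nat.prime_dvd_prime_iff_eq hq hp).1 (hq.dvd_of_dvd_pow hqp)
    exact hqe ▸ le_rfl
  have hc1 : ((P : Subgroup X) : Set X).ncard = Nat.card (P : Subgroup X) := by
    rw [← Nat.card_coe_set_eq]
    rfl
  have hc2 : (rough X p).ncard = cnt X p := by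
    rw [← Nat.card_coe_set_eq]
    rfl
  have heq : ((P : Subgroup X) : Set X) = rough X p :=
    Set.eq_of_subset_of_ncard_le hsub (by rw [hc1, hc2, h]) (Set.toFinite _)
  refine ⟨fun n hn g => ?_⟩
  have hn' : n ∈ rough X p := heq ▸ (show n ∈ ((P : Subgroup X) : Set X) from hn)
  have hconj : g * n * g⁻¹ ∈ rough X p := by
    intro q hq hqd
    have ho : orderOf (g * n * g⁻¹) = orderOf n := by
      rw [← MulAut.conj_apply, MulEquiv.orderOf_eq]
    rw [ho] at hqd
    exact hn' q hq hqd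
  have : g * n * g⁻¹ ∈ ((P : Subgroup X) : Set X) := heq ▸ hconj
  exact this

end Cfsg.Agent.Lib.Helper23.OTNORMCNT
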