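import Mathlib
import Cfsg.Agent.Lib.Helper27.OzStmt
import Cfsg.Agent.Lib.Helper48.CharPGfs

/-!
S5388/FSTAR: a finite group with a normal extraspecial 2-subgroup `Q`, with quotient the
commutator subgroup of the orthogonal group, in which some commutator of an element of the
group with an element of `Q` is not central in `Q`, has generalized Fitting subgroup `Q`.
-/

set_option autoImplicit false

namespace Cfsg.Agent.Lib.Helper23.OzFSTAR

open Cfsg Cfsg.Agent.Lib.Helper27.OzStmt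
open scoped commutatorElement

/-- A finite non-commutative simple group is not a `p`-group. -/
theorem not_isPGroup_of_simple {X : Type*} [Group X] [Finite X] [IsSimpleGroup X]
    (hnc : ¬ ∀ a b : X, a * b = b * a) (p : ℕ) [Fact p.Prime] : ¬ IsPGroup p X := by
  intro hp
  have hnt : Nontrivial (Subgroup.center X) := hp.center_nontrivial
  rcases (inferInstance : (Subgroup.center X).Normal).eq_bot_or_eq_top with h | h
  · rw [Subgroup.nontrivial_iff_ne_bot] at hnt
    exact hnt h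
  · apply hnc
    intro a b
    have ha : a ∈ Subgroup.center X := h ▸ Subgroup.mem_top a
    exact (Subgroup.mem_center_iff.1 ha b).symm

/-- In a group with simple quotient by `Q`, a normal subgroup lies in `Q` or covers the
quotient. -/
theorem normal_le_or_cover {C : Type*} [Group C] (Q : Subgroup C) [Q.Normal]
    [IsSimpleGroup (C ⧸ Q)] (N : Subgroup C) (hN : N.Normal) :
    N ≤ Q ∨ ∀ g : C, ∃ z ∈ N, z⁻¹ * g ∈ Q := by
  have hn : (N.map (QuotientGroup.mk' Q)).Normal :=
    Subgroup.Normal.map hN _ (QuotientGroup.mk'_surjective Q)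
  rcases hn.eq_bot_or_eq_top with h | h
  · left
    intro x hx
    have : QuotientGroup.mk' Q x ∈ N.map (QuotientGroup.mk' Q) := Subgroup.mem_map_of_mem _ hx
    rw [h, Subgroup.mem_bot] at this
    exact (QuotientGroup.eq_one_iff x).1 this
  · right
    intro g
    have : QuotientGroup.mk' Q g ∈ N.map (QuotientGroup.mk' Q) := h ▸ Subgroup.mem_top _
    obtain ⟨z, hz, hzg⟩ := Subgroup.mem_map.1 this
    exact ⟨z, hz, QuotientGroup.eq.1 hzg⟩

theorem main : Cfsg.Agent.Lib.Helper27.OzStmt.FStar := by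
  intro hOF C _ _ Q _ hQ ⟨e⟩ ⟨g, k, hk, k', hk', hne⟩
  obtain ⟨_, _, hsimp, hnc⟩ := hOF
  have : Fact (Nat.Prime 2) := ⟨Nat.prime_two⟩
  have hsimpQ : IsSimpleGroup (C ⧸ Q) := e.isSimpleGroup_congr.2 hsimp
  have hncQ : ¬ ∀ a b : C ⧸ Q, a * b = b * a := by
    intro h
    apply hnc
    intro a b
    have h1 := h (e.symm a) (e.symm b)
    have h2 := congrArg e h1
    simpa using h2
  have hQp : IsPGroup 2 Q := hQ.1.1
  have hQle : Q ≤ Cfsg.pCore 2 C := Cfsg.Agent.Lib.Helper78.Fitting.le_pCore inferInstance hQp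
  have hPn : (Cfsg.pCore 2 C).Normal := Cfsg.Agent.Lib.Helper78.Fitting.pCore_normal 2
  have hPp : IsPGroup 2 (Cfsg.pCore 2 C) := Cfsg.Agent.Lib.Helper78.Fitting.pCore_isPGroup 2
  have hPQ : Cfsg.pCore 2 C ≤ Q := by
    rcases normal_le_or_cover Q (Cfsg.pCore 2 C) hPn with h | h
    · exact h
    · exfalso
      apply not_isPGroup_of_simple hncQ 2
      intro x
      obtain ⟨y, rfl⟩ := QuotientGroup.mk_surjective x
      obtain ⟨z, hz, hzy⟩ := h y
      obtain ⟨n, hn⟩ := hPp ⟨z, hz⟩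
      refine ⟨n, ?_⟩
      have e1 : (QuotientGroup.mk y : C ⧸ Q) = QuotientGroup.mk z := (QuotientGroup.eq.2 hzy).symm
      rw [e1, ← QuotientGroup.mk_pow]
      have h1 : z ^ 2 ^ n = 1 := by
        have h2 := congrArg Subtype.val hn
        simpa using h2
      rw [h1]
      rfl
  have hPeq : Cfsg.pCore 2 C = Q := le_antisymm hPQ hQle
  have hZQ : Subgroup.centralizer (Q : Set C) ≤ Q := by
    rcases normal_le_or_cover Q (Subgroup.centralizer (Q : Set C)) inferInstance with h | h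
    · exact h
    · exfalso
      obtain ⟨z, hz, hzg⟩ := h g
      apply hne
      have hg : g = z * (z⁻¹ * g) := by group
      have hzc : ∀ w ∈ Q, w * z = z * w := fun w hw => Subgroup.mem_centralizer_iff.1 hz w hw
      have hcomm : g * k * g⁻¹ * k⁻¹ = (z⁻¹ * g) * k * (z⁻¹ * g)⁻¹ * k⁻¹ := by
        have h1 := hzc ((z⁻¹ * g) * k * (z⁻¹ * g)⁻¹) (Q.mul_mem (Q.mul_mem hzg hk) (Q.inv_mem hzg))
        calc g * k * g⁻¹ * k⁻¹ = z * ((z⁻¹ * g) * k * (z⁻¹ * g)⁻¹) * z⁻¹ * k⁻¹ := by group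
          _ = ((z⁻¹ * g) * k * (z⁻¹ * g)⁻¹) * z * z⁻¹ * k⁻¹ := by rw [← h1]
          _ = (z⁻¹ * g) * k * (z⁻¹ * g)⁻¹ * k⁻¹ := by group
      rw [hcomm]
      have hmem : ⁅(⟨z⁻¹ * g, hzg⟩ : Q), ⟨k, hk⟩⁆ ∈ Subgroup.center Q := by
        rw [← hQ.1.2.2]
        exact Subgroup.commutator_mem_commutator (Subgroup.mem_top _) (Subgroup.mem_top _)
      have h3 := Subgroup.mem_center_iff.1 hmem ⟨k', hk'⟩
      have h4 := congrArg Subtype.val h3
      simp only [Subgroup.coe_mul, commutatorElement_def, Subgroup.coe_inv] at h4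
      exact h4.symm
  refine (Cfsg.Agent.Lib.Helper48.CharPGfs.gfs_eq_pCore_of_centralizer_le 2 ?_).trans hPeq
  rw [hPeq]
  exact hZQ

end Cfsg.Agent.Lib.Helper23.OzFSTAR
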