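import Mathlib
import Cfsg.Agent.Lib.Helper23.S79Stmt

set_option autoImplicit false

/-!
helper23: S1379/C3A: the first half of clause 3 (assembly of COVER, ZZ, ZSET).
-/

namespace Cfsg.Agent.Lib.Helper23.S79C3A

open Cfsg Cfsg.Agent.Lib.Helper23.S79Stmt Cfsg.Agent.Lib.Helper23.S69Stmt
  Cfsg.Agent.Lib.Helper54.S68Stmt

universe u

theorem main (hCover : Cover.{u}) (hZZ : ZZ.{u}) (hZSet : ZSet.{u}) : C3A.{u} := by
  intro h51 h66 G _ _ hG M K U hM hKU hK1 g hg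
  rcases hCover h51 hG g hg with hN | ⟨M', K', U', hM', hKU', hK1', hgZ⟩
  · exact Or.inl hN
  · right
    obtain ⟨Ms, hc⟩ := h66 hG M K U hM hKU hK1
    obtain ⟨Ms', hc'⟩ := h66 hG M' K' U' hM' hKU' hK1'
    obtain ⟨h, hh⟩ := hZZ hG M K U Ms M' K' U' Ms' hc hc'
    refine ⟨h, h⁻¹ * g * h, hZSet hG M K U Ms M' K' U' Ms' hc hc' h hh g hgZ, ?_⟩
    group

end Cfsg.Agent.Lib.Helper23.S79C3A
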