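import Mathlib
import Cfsg.Agent.Lib.Helper23.S79Stmt

set_option autoImplicit false

/-!
helper23: S1379/COVER: every `g ≠ 1` is in some `Ñ` or in some `Zhat` (assembly of SPLIT,
CASEIN, CASEOUT).
-/

namespace Cfsg.Agent.Lib.Helper23.S79COVER

open Cfsg Cfsg.Agent.Lib.Helper23.S79Stmt Cfsg.Agent.Lib.Helper23.S69Stmt
  Cfsg.Agent.Lib.Helper54.S68Stmt

universe u

theorem main (hParts : Parts.{u}) (hSplit : Split.{u}) (hKAlt : KAlt.{u}) (hTAlt : TAlt.{u})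
    (hCaseIn : CaseIn.{u}) (hHConj : HConj.{u}) (hTConj : TConj.{u})
    (hCaseOut : CaseOut.{u}) : Cover.{u} := by
  intro h51 G _ _ hG g hg
  obtain ⟨M, hM, a, b, ha, ha1, rfl, hab, hσ⟩ := hSplit hParts hG g hg
  by_cases hb : b = 1
  · subst hb
    refine Or.inl ⟨M, hM, a, ⟨ha, ha1⟩, 1, Subgroup.one_mem _, 1, ?_⟩
    simp
  · by_cases hC : Subgroup.centralizer ({a} : Set G) ≤ M
    · exact hCaseIn hKAlt hTAlt h51 hG M hM a b ha ha1 hb hab hσ hC
    · exact Or.inl (hCaseOut hParts hHConj hTAlt hTConj hG M hM a b ha ha1 hab hσ hC)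

end Cfsg.Agent.Lib.Helper23.S79COVER
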