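import Mathlib
import Cfsg.Agent.Lib.Helper52.SpStmt

/-!
Piece S5171/C2: in characteristic `2`, `mk 1 (E_01 + E_10)` is conjugate in `Sp` to
`mk (1 + E_01) (E_00 + E_01 + E_10)`.
-/

set_option autoImplicit false

namespace Cfsg.Agent.Lib.Helper23.SpC2

open Matrix Cfsg.Agent.Lib.Helper43.SpBasic Cfsg.Agent.Lib.Helper43.SpSylow
open Cfsg.Agent.Lib.Helper43.PSLnUT (IsUT isUT_one)
open Cfsg.Agent.Lib.Helper52.SpStmt

universe u

section

variable {m : ℕ} {F : Type*} [Field F]

/-- the lower transvection along `f_j` -/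
def lMat (j : Fin m) : Matrix (Fin m ⊕ Fin m) (Fin m ⊕ Fin m) F :=
  fromBlocks 1 0 (Matrix.single j j 1) 1

theorem lMat_mem (j : Fin m) : lMat (F := F) j ∈ Matrix.symplecticGroup (Fin m) F := by
  rw [lMat, SymplecticGroup.fromBlocks_mem_iff]
  have hD : (Matrix.single j j (1 : F))ᵀ = Matrix.single j j 1 := Matrix.transpose_single _ _ _
  refine ⟨?_, ?_, ?_⟩
  · rw [Matrix.transpose_one, Matrix.one_mul, hD, Matrix.mul_one]
  · rw [Matrix.transpose_zero, Matrix.zero_mul, Matrix.mul_zero]
  · rw [Matrix.transpose_one, Matrix.one_mul, Matrix.mul_zero, sub_zero]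

end

theorem main : Char2Conj.{u} := by
  intro m F _ _ h2 i j h0 h1 hs hu hs'
  have hne : i ≠ j := by
    intro h
    rw [h] at h0
    omega
  refine ⟨⟨lMat j, lMat_mem j⟩, ?_⟩
  rw [mul_inv_eq_iff_eq_mul]
  apply Subtype.ext
  show lMat j * mkMat 1 (altm i j 1) =
    mkMat (1 + Matrix.single i j 1) (zmat i j 1 1) * lMat j
  have hinv : ((1 + Matrix.single i j (1 : F) : Matrix (Fin m) (Fin m) F)ᵀ)⁻¹ =
      1 - Matrix.single j i 1 := by
    apply Matrix.inv_eq_right_inv
    rw [Matrix.transpose_add, Matrix.transpose_one, Matrix.transpose_single, Matrix.add_mul,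
      Matrix.mul_sub, Matrix.mul_sub, Matrix.one_mul, Matrix.mul_one, Matrix.one_mul,
      Matrix.single_mul_single_of_ne (h := hne)]
    abel
  have hdbl : ∀ k l : Fin m, Matrix.single k l (1 : F) + Matrix.single k l 1 = 0 := by
    intro k l
    rw [← Matrix.single_add, one_add_one_eq_two, h2, Matrix.single_zero]
  have e1 : Matrix.single j j (1 : F) * Matrix.single i j (1 : F) = 0 :=
    Matrix.single_mul_single_of_ne (h := hne.symm) ..
  have e2 : Matrix.single j j (1 : F) * Matrix.single j i (1 : F) = Matrix.single j i 1 := by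
    rw [Matrix.single_mul_single_same, one_mul]
  have e3 : Matrix.single i j (1 : F) * Matrix.single j j (1 : F) = Matrix.single i j 1 := by
    rw [Matrix.single_mul_single_same, mul_one]
  have e4 : Matrix.single j i (1 : F) * Matrix.single j j (1 : F) = 0 :=
    Matrix.single_mul_single_of_ne (h := hne) ..
  have e5 : Matrix.single i i (1 : F) * Matrix.single j j (1 : F) = 0 :=
    Matrix.single_mul_single_of_ne (h := hne) ..
  have e6 : Matrix.single i i (1 : F) * Matrix.single j i (1 : F) = 0 :=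
    Matrix.single_mul_single_of_ne (h := hne) ..
  have e7 : Matrix.single i j (1 : F) * Matrix.single j i (1 : F) = Matrix.single i i 1 := by
    rw [Matrix.single_mul_single_same, mul_one]
  have e8 : Matrix.single j i (1 : F) * Matrix.single j i (1 : F) = 0 :=
    Matrix.single_mul_single_of_ne (h := hne) ..
  unfold mkMat lMat altm zmat
  rw [hinv]
  simp only [Matrix.transpose_one, inv_one, Matrix.mul_one]
  rw [Matrix.fromBlocks_multiply, Matrix.fromBlocks_multiply]
  congr 1
  · simp only [Matrix.mul_add, Matrix.add_mul, Matrix.mul_sub, Matrix.sub_mul, Matrix.mul_neg,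
      Matrix.neg_mul, Matrix.mul_one, Matrix.one_mul, Matrix.mul_zero, Matrix.zero_mul,
      e1, e2, e3, e4, e5, e6, e7, e8]
    have := hdbl i j
    simp only [add_zero, zero_add, sub_zero]
    rw [add_assoc, this, add_zero]
  · simp only [Matrix.mul_add, Matrix.add_mul, Matrix.mul_sub, Matrix.sub_mul, Matrix.mul_neg,
      Matrix.neg_mul, Matrix.mul_one, Matrix.one_mul, Matrix.mul_zero, Matrix.zero_mul,
      e1, e2, e3, e4, e5, e6, e7, e8]
    abel
  · simp only [Matrix.mul_add, Matrix.add_mul, Matrix.mul_sub, Matrix.sub_mul, Matrix.mul_neg,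
      Matrix.neg_mul, Matrix.mul_one, Matrix.one_mul, Matrix.mul_zero, Matrix.zero_mul,
      e1, e2, e3, e4, e5, e6, e7, e8]
    abel
  · simp only [Matrix.mul_add, Matrix.add_mul, Matrix.mul_sub, Matrix.sub_mul, Matrix.mul_neg,
      Matrix.neg_mul, Matrix.mul_one, Matrix.one_mul, Matrix.mul_zero, Matrix.zero_mul,
      e1, e2, e3, e4, e5, e6, e7, e8]
    have h := eq_neg_of_add_eq_zero_left (hdbl j i)
    rw [zero_add, zero_add, sub_eq_add_neg, ← h, add_comm]

end Cfsg.Agent.Lib.Helper23.SpC2
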