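import Mathlib
import Cfsg.Agent.Lib.Helper52.SpStmt

/-!
Piece S5171/WC: Weyl conjugation of a Siegel root element to a Levi root element in `Sp`.
-/

set_option autoImplicit false

namespace Cfsg.Agent.Lib.Helper23.SpWC

open Matrix Cfsg.Agent.Lib.Helper43.SpBasic Cfsg.Agent.Lib.Helper43.SpSylow
open Cfsg.Agent.Lib.Helper43.PSLnUT (IsUT isUT_one)
open Cfsg.Agent.Lib.Helper52.SpStmt

universe u

section

variable {m : ℕ} {F : Type*} [Field F]

/-- the partial Weyl element exchanging `e_j` and `f_j` up to sign -/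
def wMat (j : Fin m) : Matrix (Fin m ⊕ Fin m) (Fin m ⊕ Fin m) F :=
  fromBlocks (1 - Matrix.single j j 1) (Matrix.single j j 1) (-Matrix.single j j 1)
    (1 - Matrix.single j j 1)

theorem wMat_mem (j : Fin m) : wMat (F := F) j ∈ Matrix.symplecticGroup (Fin m) F := by
  rw [wMat, SymplecticGroup.fromBlocks_mem_iff]
  have hD : (Matrix.single j j (1 : F))ᵀ = Matrix.single j j 1 := Matrix.transpose_single _ _ _
  have hDD : Matrix.single j j (1 : F) * Matrix.single j j 1 = Matrix.single j j 1 := by
    rw [Matrix.single_mul_single_same, mul_one]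
  refine ⟨?_, ?_, ?_⟩
  · simp only [Matrix.transpose_sub, Matrix.transpose_one, Matrix.transpose_neg, hD,
      Matrix.sub_mul, Matrix.mul_sub, Matrix.neg_mul, Matrix.mul_neg, Matrix.one_mul,
      Matrix.mul_one, hDD]
    abel
  · simp only [Matrix.transpose_sub, Matrix.transpose_one, hD,
      Matrix.sub_mul, Matrix.mul_sub, Matrix.one_mul, Matrix.mul_one, hDD]
  · simp only [Matrix.transpose_sub, Matrix.transpose_one, Matrix.transpose_neg, hD,
      Matrix.sub_mul, Matrix.mul_sub, Matrix.neg_mul, Matrix.one_mul,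
      Matrix.mul_one, hDD]
    abel

end

theorem main : WeylConj.{u} := by
  intro m F _ _ i j hij b hu hz
  have hne : i ≠ j := ne_of_lt hij
  refine ⟨⟨wMat j, wMat_mem j⟩, b, altm_isSymm i j b, ?_⟩
  rw [mul_inv_eq_iff_eq_mul]
  apply Subtype.ext
  show wMat j * mkMat 1 (altm i j b) = mkMat (1 + Matrix.single i j b) 0 * wMat j
  have hinv : ((1 + Matrix.single i j b : Matrix (Fin m) (Fin m) F)ᵀ)⁻¹ =
      1 - Matrix.single j i b := by
    apply Matrix.inv_eq_right_inv
    rw [Matrix.transpose_add, Matrix.transpose_one, Matrix.transpose_single, Matrix.add_mul,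
      Matrix.mul_sub, Matrix.mul_sub, Matrix.one_mul, Matrix.mul_one, Matrix.one_mul,
      Matrix.single_mul_single_of_ne (h := hne)]
    abel
  have e1 : Matrix.single j j (1 : F) * Matrix.single i j b = 0 :=
    Matrix.single_mul_single_of_ne (h := hne.symm) ..
  have e2 : Matrix.single j j (1 : F) * Matrix.single j i b = Matrix.single j i b := by
    rw [Matrix.single_mul_single_same, one_mul]
  have e3 : Matrix.single i j b * Matrix.single j j (1 : F) = Matrix.single i j b := by
    rw [Matrix.single_mul_single_same, mul_one]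
  have e4 : Matrix.single j i b * Matrix.single j j (1 : F) = 0 :=
    Matrix.single_mul_single_of_ne (h := hne) ..
  unfold mkMat wMat altm
  rw [hinv]
  simp only [Matrix.transpose_one, inv_one, Matrix.mul_one, Matrix.zero_mul]
  rw [Matrix.fromBlocks_multiply, Matrix.fromBlocks_multiply]
  congr 1
  · simp only [Matrix.mul_add, Matrix.add_mul, Matrix.mul_sub, Matrix.sub_mul, Matrix.mul_neg,
      Matrix.neg_mul, Matrix.mul_one, Matrix.one_mul, Matrix.mul_zero, Matrix.zero_mul,
      e1, e2, e3, e4]
    abel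
  · simp only [Matrix.mul_add, Matrix.add_mul, Matrix.mul_sub, Matrix.sub_mul, Matrix.mul_neg,
      Matrix.neg_mul, Matrix.mul_one, Matrix.one_mul, Matrix.mul_zero, Matrix.zero_mul,
      e1, e2, e3, e4]
    abel
  · simp only [Matrix.mul_add, Matrix.add_mul, Matrix.mul_sub, Matrix.sub_mul, Matrix.mul_neg,
      Matrix.neg_mul, Matrix.mul_one, Matrix.one_mul, Matrix.mul_zero, Matrix.zero_mul,
      e1, e2, e3, e4]
    abel
  · simp only [Matrix.mul_add, Matrix.add_mul, Matrix.mul_sub, Matrix.sub_mul, Matrix.mul_neg,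
      Matrix.neg_mul, Matrix.mul_one, Matrix.one_mul, Matrix.mul_zero, Matrix.zero_mul,
      e1, e2, e3, e4]
    abel

end Cfsg.Agent.Lib.Helper23.SpWC
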