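import Mathlib
import Cfsg.Agent.Lib.Helper24.PGroupBasic

/-!
# The stability bound for a normal abelian subgroup of a `p`-group

If `A` is a normal abelian subgroup of order `p ^ a` of a finite `p`-group `G`, then
`|G : C_G(A)| ≤ p ^ (a (a - 1) / 2)`.
-/

set_option autoImplicit false

open scoped commutatorElement

namespace Cfsg.Agent.Lib.Helper23.StabBound

universe u

variable {G : Type u} [Group G]

/-- In a nilpotent group, `[A, G] ≠ A` for a nontrivial subgroup `A`. -/
theorem commutator_top_ne [Group.IsNilpotent G] (A : Subgroup G) (hA : A ≠ ⊥) :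
    ⁅A, (⊤ : Subgroup G)⁆ ≠ A := by
  intro h
  obtain ⟨n, hn⟩ :=
    Subgroup.nilpotent_iff_lowerCentralSeries.1 (inferInstance : Group.IsNilpotent G)
  have key : ∀ k, A ≤ (⊤ : Subgroup G).lowerCentralSeries k := by
    intro k
    induction k with
    | zero => exact le_top
    | succ k ih =>
      calc A = ⁅A, (⊤ : Subgroup G)⁆ := h.symm
        _ ≤ ⁅(⊤ : Subgroup G).lowerCentralSeries k, (⊤ : Subgroup G)⁆ :=
          Subgroup.commutator_mono ih le_rfl
        _ = (⊤ : Subgroup G).lowerCentralSeries (k + 1) := rfl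
  exact hA (le_bot_iff.1 (hn ▸ key n))

theorem arith (a : ℕ) : a * (a - 1) / 2 + a = (a + 1) * (a + 1 - 1) / 2 := by
  have h1 : (a + 1) * (a + 1 - 1) = a * (a - 1) + 2 * a := by
    cases a with
    | zero => rfl
    | succ b => simp only [Nat.add_sub_cancel]; ring
  rw [h1, Nat.add_mul_div_left _ _ (by norm_num : 0 < 2)]

/-- A normal subgroup `B` of index `p` inside a nontrivial normal subgroup `A` of a `p`-group,
containing `[A, G]`. -/
theorem exists_normal_index_p [Finite G] {p : ℕ} [Fact p.Prime] (hG : IsPGroup p G)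
    (A : Subgroup G) [A.Normal] (a : ℕ) (hAc : Nat.card A = p ^ (a + 1)) :
    ∃ B : Subgroup G, B.Normal ∧ B ≤ A ∧ Nat.card B = p ^ a ∧ ⁅A, (⊤ : Subgroup G)⁆ ≤ B := by
  have hpr : p.Prime := Fact.out
  have hnil : Group.IsNilpotent G := hG.isNilpotent
  have hAne : A ≠ ⊥ := by
    rintro rfl
    rw [Subgroup.card_bot] at hAc
    have := Nat.one_lt_pow (n := a + 1) (by omega) hpr.one_lt
    omega
  have hNle : ⁅A, (⊤ : Subgroup G)⁆ ≤ A := Subgroup.commutator_le_left A ⊤
  have hNne := commutator_top_ne A hAne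
  obtain ⟨n, hn⟩ := (hG.to_subgroup (⁅A, (⊤ : Subgroup G)⁆)).exists_card_eq
  have hNlt : Nat.card ↥(⁅A, (⊤ : Subgroup G)⁆) < Nat.card A := by
    by_contra hge
    push Not at hge
    exact hNne (Subgroup.eq_of_le_of_card_ge hNle hge)
  have hna : n ≤ a := by
    rw [hn, hAc] at hNlt
    have := (Nat.pow_lt_pow_iff_right hpr.one_lt).1 hNlt
    omega
  have hsub : Nat.card ↥((⁅A, (⊤ : Subgroup G)⁆).subgroupOf A) = p ^ n := by
    rw [← hn]
    exact Nat.card_congr (Subgroup.subgroupOfEquivOfLe hNle).toEquiv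
  have hdvd : p ^ a ∣ Nat.card A := by rw [hAc]; exact pow_dvd_pow p (Nat.le_succ a)
  obtain ⟨K, hKc, hKle⟩ := Sylow.exists_subgroup_card_pow_prime_le p hdvd _ hsub hna
  have hBA : K.map A.subtype ≤ A := by
    rintro _ ⟨k, -, rfl⟩
    exact k.2
  have hNB : ⁅A, (⊤ : Subgroup G)⁆ ≤ K.map A.subtype := by
    intro x hx
    have hxA : x ∈ A := hNle hx
    exact ⟨⟨x, hxA⟩, hKle (Subgroup.mem_subgroupOf.2 hx), rfl⟩
  refine ⟨K.map A.subtype, ⟨fun b hb g => ?_⟩, hBA, ?_, hNB⟩
  · have e : g * b * g⁻¹ = (⁅b, g⁆)⁻¹ * b := by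
      simp only [commutatorElement_def]; group
    rw [e]
    refine Subgroup.mul_mem _ (Subgroup.inv_mem _ (hNB ?_)) hb
    exact Subgroup.commutator_mem_commutator (hBA hb) (Subgroup.mem_top g)
  · rw [Subgroup.card_map_of_injective (Subgroup.subtype_injective _), hKc]

/-- The stability bound: `|G| ≤ p ^ (a (a - 1) / 2) * |C_G(A)|` for a normal abelian subgroup
`A` of order `p ^ a` of a finite `p`-group. -/
theorem card_le_pow_mul_card_centralizer [Finite G] {p : ℕ} [Fact p.Prime] (hG : IsPGroup p G) :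
    ∀ (a : ℕ) (A : Subgroup G), A.Normal → (∀ x ∈ A, ∀ y ∈ A, x * y = y * x) →
      Nat.card A = p ^ a →
      Nat.card G ≤ p ^ (a * (a - 1) / 2) * Nat.card ↥(Subgroup.centralizer (A : Set G)) := by
  have hpr : p.Prime := Fact.out
  intro a
  induction a with
  | zero =>
    intro A _ _ hAc
    rw [pow_zero, Subgroup.card_eq_one] at hAc
    subst hAc
    have : Subgroup.centralizer (((⊥ : Subgroup G) : Subgroup G) : Set G) = ⊤ := by
      rw [eq_top_iff]
      intro g _
      rw [Subgroup.mem_centralizer_iff]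
      intro h hh
      rw [SetLike.mem_coe, Subgroup.mem_bot] at hh
      rw [hh, mul_one, one_mul]
    rw [this, Subgroup.card_top]
    simp
  | succ a ih =>
    intro A hAn hAab hAc
    haveI := hAn
    obtain ⟨B, hBn, hBA, hBc, hNB⟩ := exists_normal_index_p hG A a hAc
    have hBab : ∀ x ∈ B, ∀ y ∈ B, x * y = y * x := fun x hx y hy => hAab x (hBA hx) y (hBA hy)
    have h1 := ih B hBn hBab hBc
    -- an element of `A` outside `B`
    have hex : ∃ x₀ ∈ A, x₀ ∉ B := by
      by_contra hno
      push Not at hno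
      have hle : A ≤ B := hno
      have := Subgroup.card_le_of_le hle
      rw [hAc, hBc] at this
      have := (Nat.pow_le_pow_iff_right hpr.one_lt).1 this
      omega
    obtain ⟨x₀, hx₀A, hx₀B⟩ := hex
    have hsup : B ⊔ Subgroup.zpowers x₀ = A := by
      have hle : B ⊔ Subgroup.zpowers x₀ ≤ A := sup_le hBA (Subgroup.zpowers_le.2 hx₀A)
      have hlt : B < B ⊔ Subgroup.zpowers x₀ := by
        refine lt_of_le_of_ne le_sup_left (fun h => hx₀B ?_)
        rw [h]
        exact (le_sup_right : Subgroup.zpowers x₀ ≤ B ⊔ Subgroup.zpowers x₀)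
          (Subgroup.mem_zpowers x₀)
      obtain ⟨k, hk⟩ := (hG.to_subgroup (B ⊔ Subgroup.zpowers x₀)).exists_card_eq
      have hcl : Nat.card B < Nat.card ↥(B ⊔ Subgroup.zpowers x₀) := by
        by_contra hge
        push Not at hge
        exact hlt.ne (Subgroup.eq_of_le_of_card_ge hlt.le hge)
      rw [hBc, hk] at hcl
      have hk1 : a < k := (Nat.pow_lt_pow_iff_right hpr.one_lt).1 hcl
      apply Subgroup.eq_of_le_of_card_ge hle
      rw [hAc, hk]
      exact Nat.pow_le_pow_right hpr.pos hk1
    -- the commutator homomorphism `C(B) → B`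
    have hmem : ∀ t : G, ⁅x₀, t⁆ ∈ B := fun t =>
      hNB (Subgroup.commutator_mem_commutator hx₀A (Subgroup.mem_top t))
    let f : ↥(Subgroup.centralizer (B : Set G)) →* B :=
      { toFun := fun t => ⟨⁅x₀, (t : G)⁆, hmem t⟩
        map_one' := by
          apply Subtype.ext
          simp
        map_mul' := by
          intro s t
          apply Subtype.ext
          have hc : (s : G) * ⁅x₀, (t : G)⁆ = ⁅x₀, (t : G)⁆ * (s : G) :=
            (Subgroup.mem_centralizer_iff.1 s.2 _ (hmem t)).symm
          show ⁅x₀, (s : G) * (t : G)⁆ = ⁅x₀, (s : G)⁆ * ⁅x₀, (t : G)⁆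
          have e1 : ⁅x₀, (s : G) * (t : G)⁆
              = ⁅x₀, (s : G)⁆ * ((s : G) * ⁅x₀, (t : G)⁆ * (s : G)⁻¹) := by
            simp only [commutatorElement_def]; group
          rw [e1, hc, mul_inv_cancel_right] }
    have h2 : Nat.card ↥(Subgroup.centralizer (B : Set G)) = Nat.card f.ker * Nat.card f.range := by
      rw [← Subgroup.index_ker, Subgroup.card_mul_index]
    have h3 : Nat.card f.range ≤ p ^ a := by
      have := Subgroup.card_le_card_group f.range
      rwa [hBc] at this
    have h4 : Nat.card f.ker ≤ Nat.card ↥(Subgroup.centralizer (A : Set G)) := by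
      have hle : f.ker.map (Subgroup.centralizer (B : Set G)).subtype
          ≤ Subgroup.centralizer (A : Set G) := by
        rintro _ ⟨t, ht, rfl⟩
        have ht1 : ⁅x₀, (t : G)⁆ = 1 := by
          have := MonoidHom.mem_ker.mp ht
          exact congrArg Subtype.val this
        rw [commutatorElement_eq_one_iff_mul_comm] at ht1
        have hle2 : A ≤ Subgroup.centralizer ({(t : G)} : Set G) := by
          rw [← hsup]
          apply sup_le
          · intro b hb
            rw [Subgroup.mem_centralizer_iff]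
            intro h hh
            rw [Set.mem_singleton_iff.mp hh]
            exact (Subgroup.mem_centralizer_iff.1 t.2 b hb).symm
          · rw [Subgroup.zpowers_le, Subgroup.mem_centralizer_iff]
            intro h hh
            rw [Set.mem_singleton_iff.mp hh]
            exact ht1.symm
        refine Subgroup.mem_centralizer_iff.mpr ?_
        intro h hh
        have := Subgroup.mem_centralizer_iff.mp (hle2 hh) (t : G) (Set.mem_singleton _)
        exact this.symm
      calc Nat.card f.ker
          = Nat.card ↥(f.ker.map (Subgroup.centralizer (B : Set G)).subtype) :=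
            (Subgroup.card_map_of_injective (Subgroup.subtype_injective _)).symm
        _ ≤ _ := Subgroup.card_le_of_le hle
    calc Nat.card G ≤ p ^ (a * (a - 1) / 2) * Nat.card ↥(Subgroup.centralizer (B : Set G)) := h1
      _ = p ^ (a * (a - 1) / 2) * (Nat.card f.ker * Nat.card f.range) := by rw [h2]
      _ ≤ p ^ (a * (a - 1) / 2) *
          (Nat.card ↥(Subgroup.centralizer (A : Set G)) * p ^ a) :=
        Nat.mul_le_mul_left _ (Nat.mul_le_mul h4 h3)
      _ = p ^ ((a + 1) * (a + 1 - 1) / 2) * Nat.card ↥(Subgroup.centralizer (A : Set G)) := by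
        rw [← arith a, pow_add]; ring

end Cfsg.Agent.Lib.Helper23.StabBound
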