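import Mathlib
import Cfsg.Agent.Lib.Helper23.Transitivity
import Cfsg.Agent.Lib.Helper31.CoprimeGen

set_option autoImplicit false

namespace Cfsg.Agent.Lib.Helper23.Transitivity2

open Cfsg.Agent.Lib.Helper23.Transitivity

variable {G : Type*} [Group G]

theorem kConj_symm {K Q Q' : Subgroup G} (h : KConj K Q Q') : KConj K Q' Q := by
  obtain ⟨k, hk, rfl⟩ := h
  exact ⟨k⁻¹, K.inv_mem hk, by rw [map_conj_map_conj, inv_mul_cancel, map_conj_one]⟩

theorem kConj_refl (K Q : Subgroup G) : KConj K Q Q :=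
  ⟨1, K.one_mem, by rw [map_conj_one]⟩

/-- In a minimal simple group of odd order, nontrivial elements have proper centralizers. -/
theorem centralizer_singleton_ne_top (hG : Cfsg.IsMinSimpleOddOrder G) {b : G} (hb : b ≠ 1) :
    Subgroup.centralizer ({b} : Set G) ≠ ⊤ := by
  intro h
  have hS : IsSimpleGroup G := hG.2.1
  have hbc : b ∈ Subgroup.center G := by
    rw [Subgroup.mem_center_iff]
    intro g
    have : g ∈ Subgroup.centralizer ({b} : Set G) := h ▸ Subgroup.mem_top g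
    exact (Subgroup.mem_centralizer_iff.mp this b rfl).symm
  rcases (inferInstance : (Subgroup.center G).Normal).eq_bot_or_eq_top with h0 | h0
  · rw [h0, Subgroup.mem_bot] at hbc
    exact hb hbc
  · apply hG.2.2.1
    refine isMulCommutative_iff.mpr (fun x y => ?_)
    have hy : y ∈ Subgroup.center G := h0 ▸ Subgroup.mem_top y
    exact Subgroup.mem_center_iff.mp hy x

/-- Coprime generation for invariant `q`-subgroups: an elementary abelian `p`-subgroup `B ≤ A`
of order at least `p ^ (k + 1)` has a subgroup `D` of order at least `p ^ k` centralizing a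
nontrivial subgroup of a given nontrivial `A`-invariant `q`-subgroup. -/
theorem exists_centralizer_ne_bot [Finite G] {A : Subgroup G} {q : ℕ} (hq : q.Prime)
    (hqA : ¬ q ∣ Nat.card A) {p : ℕ} [Fact p.Prime] {B : Subgroup G} (hBA : B ≤ A)
    (hBc : ∀ x ∈ B, ∀ y ∈ B, x * y = y * x) (hBp : ∀ x ∈ B, x ^ p = 1) (k : ℕ)
    (hk : p ^ (k + 1) ≤ Nat.card B) {Q : Subgroup G} (hQ : Q ∈ Cfsg.invSubgroups ⊤ A {q})
    (hQne : Q ≠ ⊥) :
    ∃ D : Subgroup G, D ≤ B ∧ p ^ k ≤ Nat.card D ∧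
      Q ⊓ Subgroup.centralizer (D : Set G) ≠ ⊥ := by
  have hp : p.Prime := Fact.out
  rw [mem_inv_iff A q hq] at hQ
  have hpA : p ∣ Nat.card A := by
    have h1 : p ∣ Nat.card B := by
      have hBpg : IsPGroup p B := fun g => ⟨1, by
        rw [pow_one]; exact Subtype.ext (by simpa using hBp g g.2)⟩
      obtain ⟨n, hn⟩ := IsPGroup.iff_card.mp hBpg
      rw [hn] at hk ⊢
      have hn0 : n ≠ 0 := by
        rintro rfl
        have : 1 < p ^ (k + 1) := Nat.one_lt_pow (by omega) hp.one_lt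
        rw [pow_zero] at hk
        omega
      exact dvd_pow_self p hn0
    exact h1.trans (Subgroup.card_dvd_of_le hBA)
  have hpq : p ≠ q := fun h => hqA (h ▸ hpA)
  have hX : ¬ p ∣ Nat.card Q := by
    have hF : Fact q.Prime := ⟨hq⟩
    obtain ⟨n, hn⟩ := IsPGroup.iff_card.mp hQ.1
    rw [hn]
    intro h
    exact hpq ((Nat.prime_dvd_prime_iff_eq hp hq).mp (hp.dvd_of_dvd_pow h))
  have hgen := Cfsg.Agent.Lib.Helper31.CoprimeGen.elementary_generation B Q hBc hBp hX
    (hBA.trans hQ.2) k hk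
  by_contra hcon
  push Not at hcon
  apply hQne
  rw [eq_bot_iff]
  refine hgen.trans (iSup_le ?_)
  rintro ⟨D, hDB, hDc⟩
  exact (hcon D hDB hDc).le

/-- If the centre of `A` has rank greater than `k`, it contains an elementary abelian
`p`-subgroup of order `p ^ (k + 1)` for some prime `p`. -/
theorem exists_elemAb_of_not_rankLE [Finite G] {A : Subgroup G} {k : ℕ}
    (hZ : ¬ Cfsg.RankLE k ↥(A ⊓ Subgroup.centralizer (A : Set G))) :
    ∃ p : ℕ, p.Prime ∧ ∃ B : Subgroup G, B ≤ A ⊓ Subgroup.centralizer (A : Set G) ∧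
      (∀ x ∈ B, ∀ y ∈ B, x * y = y * x) ∧ (∀ x ∈ B, x ^ p = 1) ∧
      Nat.card B = p ^ (k + 1) := by
  unfold Cfsg.RankLE Cfsg.PRankLE at hZ
  push Not at hZ
  obtain ⟨p, hp, B', hB'c, hB'p, hB'card⟩ := hZ
  have hF : Fact p.Prime := ⟨hp⟩
  have hB'pg : IsPGroup p B' := fun g => ⟨1, by
    rw [pow_one]; exact Subtype.ext (hB'p g.1 g.2)⟩
  obtain ⟨n, hn⟩ := IsPGroup.iff_card.mp hB'pg
  have hkn : k + 1 ≤ n := by
    rw [hn] at hB'card
    have := (Nat.pow_lt_pow_iff_right hp.one_lt).mp hB'card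
    omega
  have hdvd : p ^ (k + 1) ∣ Nat.card B' := by
    rw [hn]; exact pow_dvd_pow p hkn
  obtain ⟨B'', hB''⟩ := Sylow.exists_subgroup_card_pow_prime p hdvd
  refine ⟨p, hp, (B''.map B'.subtype).map (A ⊓ Subgroup.centralizer (A : Set G)).subtype,
    Subgroup.map_subtype_le _, ?_, ?_, ?_⟩
  · rintro _ ⟨x, ⟨x', -, rfl⟩, rfl⟩ _ ⟨y, ⟨y', -, rfl⟩, rfl⟩
    have h := isMulCommutative_iff.mp hB'c x' y'
    have h2 := congrArg (fun z : B' => ((z : ↥(A ⊓ Subgroup.centralizer (A : Set G))) : G)) h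
    simpa using h2
  · rintro _ ⟨x, ⟨x', -, rfl⟩, rfl⟩
    have h := hB'p x'.1 x'.2
    have h2 := congrArg (fun z : ↥(A ⊓ Subgroup.centralizer (A : Set G)) => (z : G)) h
    simpa using h2
  · rw [Subgroup.card_map_of_injective (Subgroup.subtype_injective _),
      Subgroup.card_map_of_injective (Subgroup.subtype_injective _), hB'']

end Cfsg.Agent.Lib.Helper23.Transitivity2
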