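import Mathlib
import Cfsg.Agent.Lib.Helper23.Transitivity2
import Cfsg.Agent.S0059

set_option autoImplicit false

open scoped commutatorElement

namespace Cfsg.Agent.Lib.Helper23.Transitivity3

open Cfsg.Agent.Lib.Helper23.Transitivity Cfsg.Agent.Lib.Helper23.Transitivity2

variable {G : Type*} [Group G]

/-- Abstract form of the transitivity hypothesis for a set of primes `π'`: every `A`-invariant
`π'`-subgroup of a proper subgroup `X ≥ A` lies in `O_{π'}(X)`. -/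
def Hyp (π' : Set ℕ) (A : Subgroup G) : Prop :=
  ∀ X : Subgroup G, X ≠ ⊤ → A ≤ X → ∀ Y : Subgroup G, Y ≤ X → IsPiNum π' (Nat.card Y) →
    A ≤ Subgroup.normalizer (Y : Set G) → Y ≤ Cfsg.piCoreOf π' X

/-- The order of `A` is coprime to every `π'`-number. -/
def Cop (π' : Set ℕ) (A : Subgroup G) : Prop :=
  ∀ n : ℕ, IsPiNum π' n → (Nat.card A).Coprime n

/-- `O_{π'}(C_G(A))` is transitive on the maximal `A`-invariant `q`-subgroups. -/
def Tr (π' : Set ℕ) (q : ℕ) (A : Subgroup G) : Prop :=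
  ∀ Q₁ ∈ Cfsg.maxInvSubgroups ⊤ A {q}, ∀ Q₂ ∈ Cfsg.maxInvSubgroups ⊤ A {q},
    KConj (Cfsg.piCoreOf π' (Subgroup.centralizer (A : Set G))) Q₁ Q₂

theorem hyp_of_transitivityHypothesis {A : Subgroup G} (hA : Cfsg.TransitivityHypothesis A) :
    Hyp (Cfsg.primesNotDvd (Nat.card A)) A := by
  intro X hX hAX Y hYX hYπ hAY
  exact hyp_le hA hX hAX ⟨hYX, hYπ, hAY⟩

theorem Hyp.mono {π' : Set ℕ} {A A' : Subgroup G} (h : Hyp π' A) (hAA' : A ≤ A') :
    Hyp π' A' :=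
  fun X hX hA'X Y hYX hYπ hA'Y => h X hX (hAA'.trans hA'X) Y hYX hYπ (hAA'.trans hA'Y)

theorem Cop.mono [Finite G] {π' : Set ℕ} {A A' : Subgroup G} (h : Cop π' A') (hAA' : A ≤ A') :
    Cop π' A :=
  fun n hn => Nat.Coprime.coprime_dvd_left (Subgroup.card_dvd_of_le hAA') (h n hn)

theorem inv_conj_mem_of_mem_normalizer {A : Subgroup G} {x a : G}
    (hx : x ∈ Subgroup.normalizer (A : Set G)) (ha : a ∈ A) : x⁻¹ * a * x ∈ A := by
  have := (Subgroup.mem_normalizer_iff.mp (Subgroup.inv_mem _ hx) a).mp ha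
  simpa using this

theorem conj_mem_centralizer {A : Subgroup G} {x c : G}
    (hx : x ∈ Subgroup.normalizer (A : Set G)) (hc : c ∈ Subgroup.centralizer (A : Set G)) :
    x * c * x⁻¹ ∈ Subgroup.centralizer (A : Set G) := by
  refine Subgroup.mem_centralizer_iff.mpr ?_
  intro a ha
  have ha' : x⁻¹ * a * x ∈ A := inv_conj_mem_of_mem_normalizer hx ha
  have h := Subgroup.mem_centralizer_iff.mp hc _ ha'
  calc a * (x * c * x⁻¹) = x * ((x⁻¹ * a * x) * c) * x⁻¹ := by group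
    _ = x * (c * (x⁻¹ * a * x)) * x⁻¹ := by rw [h]
    _ = x * c * x⁻¹ * a := by group

/-- `N_G(A)` normalizes `O_π(C_G(A))`. -/
theorem normalizer_le_normalizer_K [Finite G] (π' : Set ℕ) (A : Subgroup G) :
    Subgroup.normalizer (A : Set G) ≤
      Subgroup.normalizer (Cfsg.piCoreOf π' (Subgroup.centralizer (A : Set G)) : Set G) := by
  apply le_normalizer_of_conj_mem
  intro x hx y hy
  have hle : (Cfsg.piCoreOf π' (Subgroup.centralizer (A : Set G))).map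
      (MulAut.conj x).toMonoidHom ≤ Cfsg.piCoreOf π' (Subgroup.centralizer (A : Set G)) := by
    apply le_piCoreOf π'
    · rintro _ ⟨c, hc, rfl⟩
      exact conj_mem_centralizer hx (piCoreOf_le _ _ hc)
    · apply le_normalizer_of_conj_mem
      rintro c hc _ ⟨y, hy, rfl⟩
      have hc' : x⁻¹ * c * x ∈ Subgroup.centralizer (A : Set G) := by
        have := conj_mem_centralizer (Subgroup.inv_mem _ hx) hc
        simpa using this
      refine ⟨(x⁻¹ * c * x) * y * (x⁻¹ * c * x)⁻¹,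
        conj_mem_of_le_normalizer (le_normalizer_piCoreOf π' _) hc' hy, ?_⟩
      simp only [MulEquiv.coe_toMonoidHom, MulAut.conj_apply]
      group
    · rw [Subgroup.card_map_of_injective (MulAut.conj x).injective]
      exact isPiNum_card_piCoreOf π' _
  exact hle ⟨y, hy, rfl⟩

theorem conj_mem_inv_of_normalizer [Finite G] {A : Subgroup G} {q : ℕ} (hq : q.Prime)
    {Y : Subgroup G} (hY : Y ∈ Cfsg.invSubgroups ⊤ A {q}) {g : G}
    (hg : g ∈ Subgroup.normalizer (A : Set G)) :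
    Y.map (MulAut.conj g).toMonoidHom ∈ Cfsg.invSubgroups ⊤ A {q} := by
  rw [mem_inv_iff A q hq] at hY ⊢
  refine ⟨hY.1.map _, ?_⟩
  apply le_normalizer_of_conj_mem
  rintro a ha _ ⟨y, hy, rfl⟩
  have ha' : g⁻¹ * a * g ∈ A := inv_conj_mem_of_mem_normalizer hg ha
  refine ⟨(g⁻¹ * a * g) * y * (g⁻¹ * a * g)⁻¹, conj_mem_of_le_normalizer hY.2 ha' hy, ?_⟩
  simp only [MulEquiv.coe_toMonoidHom, MulAut.conj_apply]
  group

theorem conj_mem_maxInv_of_normalizer [Finite G] {A : Subgroup G} {q : ℕ} (hq : q.Prime)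
    {Q : Subgroup G} (hQ : Q ∈ Cfsg.maxInvSubgroups ⊤ A {q}) {g : G}
    (hg : g ∈ Subgroup.normalizer (A : Set G)) :
    Q.map (MulAut.conj g).toMonoidHom ∈ Cfsg.maxInvSubgroups ⊤ A {q} := by
  refine ⟨conj_mem_inv_of_normalizer hq hQ.1 hg, fun R hR hle => ?_⟩
  have hg' : g⁻¹ ∈ Subgroup.normalizer (A : Set G) := inv_mem hg
  have hR' := conj_mem_inv_of_normalizer hq hR hg'
  have hle' : Q ≤ R.map (MulAut.conj g⁻¹).toMonoidHom := by
    have := Subgroup.map_mono (f := (MulAut.conj g⁻¹).toMonoidHom) hle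
    rwa [map_conj_map_conj, inv_mul_cancel, map_conj_one] at this
  have := hQ.2 _ hR' hle'
  rw [← this, map_conj_map_conj, mul_inv_cancel, map_conj_one]

theorem mem_normalizer_of_map_conj_eq {Q : Subgroup G} {x : G}
    (h : Q.map (MulAut.conj x).toMonoidHom = Q) : x ∈ Subgroup.normalizer (Q : Set G) := by
  rw [Subgroup.mem_normalizer_iff]
  intro y
  constructor
  · intro hy
    rw [← h]
    exact ⟨y, hy, rfl⟩
  · intro hy
    rw [← h] at hy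
    obtain ⟨z, hz, hzy⟩ := hy
    have h1 : x * z * x⁻¹ = x * y * x⁻¹ := hzy
    have : z = y := by simpa using h1
    rwa [← this]

theorem map_conj_eq_of_mem_normalizer {Q : Subgroup G} {x : G}
    (h : x ∈ Subgroup.normalizer (Q : Set G)) : Q.map (MulAut.conj x).toMonoidHom = Q := by
  ext y
  constructor
  · rintro ⟨z, hz, rfl⟩
    exact (Subgroup.mem_normalizer_iff.mp h z).mp hz
  · intro hy
    exact ⟨x⁻¹ * y * x, inv_conj_mem_of_mem_normalizer h hy, by simp [mul_assoc]⟩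

/-- A nontrivial maximal `A₂`-invariant `q`-subgroup is a maximal `A₁`-invariant `q`-subgroup,
for `A₁ ≤ A₂` with `A₁` satisfying the transitivity hypothesis. -/
theorem maxInv_of_ne_bot [Finite G] (hG : Cfsg.IsMinSimpleOddOrder G) {π' : Set ℕ} {q : ℕ}
    (hq : q.Prime) (hqπ : q ∈ π') {A₁ A₂ : Subgroup G} (h12 : A₁ ≤ A₂) (hA₂ : A₂ ≠ ⊤)
    (hyp : Hyp π' A₁) (hcop : Cop π' A₂) {Q' : Subgroup G}
    (hQ' : Q' ∈ Cfsg.maxInvSubgroups ⊤ A₂ {q}) (hne : Q' ≠ ⊥) :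
    Q' ∈ Cfsg.maxInvSubgroups ⊤ A₁ {q} := by
  have hF : Fact q.Prime := ⟨hq⟩
  have hS : IsSimpleGroup G := hG.2.1
  have hQ'p := (mem_inv_iff A₂ q hq Q').mp hQ'.1
  refine ⟨(mem_inv_iff A₁ q hq Q').mpr ⟨hQ'p.1, h12.trans hQ'p.2⟩, ?_⟩
  intro R hR hle
  by_contra hRQ
  have hRp := (mem_inv_iff A₁ q hq R).mp hR
  obtain ⟨t, htR, htN, htQ⟩ := Cfsg.Agent.Lib.Helper53.SylowMore.exists_normalizer_not_mem
    R Q' hRp.1 hle (fun h => hRQ h.symm)
  have hQtop : Q' ≠ ⊤ := by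
    intro h
    apply hRQ
    rw [h] at hle ⊢
    exact top_le_iff.mp hle
  have hN : Subgroup.normalizer (Q' : Set G) ≠ ⊤ := normalizer_ne_top_of_simple hS hne hQtop
  have hA₂N : A₂ ≤ Subgroup.normalizer (Q' : Set G) := hQ'p.2
  have hTinv : A₁ ≤ Subgroup.normalizer
      ((R ⊓ Subgroup.normalizer (Q' : Set G) : Subgroup G) : Set G) := by
    apply le_normalizer_of_conj_mem
    intro a ha y hy
    refine ⟨conj_mem_of_le_normalizer hRp.2 ha hy.1, ?_⟩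
    have haN : a ∈ Subgroup.normalizer (Q' : Set G) := hA₂N (h12 ha)
    exact Subgroup.mul_mem _ (Subgroup.mul_mem _ haN hy.2) (Subgroup.inv_mem _ haN)
  have hTp : IsPGroup q ↥(R ⊓ Subgroup.normalizer (Q' : Set G)) := hRp.1.to_le inf_le_left
  have hTπ : IsPiNum π' (Nat.card ↥(R ⊓ Subgroup.normalizer (Q' : Set G))) := by
    intro p hp hpd
    obtain ⟨n, hn⟩ := IsPGroup.iff_card.mp hTp
    rw [hn] at hpd
    have : p = q := (Nat.prime_dvd_prime_iff_eq hp hq).mp (hp.dvd_of_dvd_pow hpd)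
    rw [this]
    exact hqπ
  have hTL := hyp _ hN (h12.trans hA₂N) _ inf_le_right hTπ hTinv
  obtain ⟨L, hL⟩ : ∃ L, L = Cfsg.piCoreOf π' (Subgroup.normalizer (Q' : Set G)) := ⟨_, rfl⟩
  rw [← hL] at hTL
  have hLπ : IsPiNum π' (Nat.card L) := by rw [hL]; exact isPiNum_card_piCoreOf _ _
  have hA₂L : A₂ ≤ Subgroup.normalizer (L : Set G) := by
    rw [hL]; exact hA₂N.trans (le_normalizer_piCoreOf _ _)
  have hQ'T : Q' ≤ R ⊓ Subgroup.normalizer (Q' : Set G) := le_inf hle Subgroup.le_normalizer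
  have hsolv : Group.IsSolvable A₂ := hG.2.2.2 A₂ hA₂
  obtain ⟨P₀, hP₀Q, hP₀A⟩ := Cfsg.Agent.S0025.result A₂ L hA₂L (hcop _ hLπ) (Or.inl hsolv) q Q'
    (hQ'T.trans hTL) hQ'p.1 hQ'p.2
  have hSinv : (P₀ : Subgroup L).map L.subtype ∈ Cfsg.invSubgroups ⊤ A₂ {q} :=
    (mem_inv_iff A₂ q hq _).mpr ⟨P₀.isPGroup'.map _, hP₀A⟩
  have hSQ : (P₀ : Subgroup L).map L.subtype = Q' := hQ'.2 _ hSinv hP₀Q
  have hTsub : (R ⊓ Subgroup.normalizer (Q' : Set G)).subgroupOf L = (P₀ : Subgroup L) := by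
    apply P₀.is_maximal'
    · exact hTp.comap_subtype
    · intro y hy
      rw [Subgroup.mem_subgroupOf]
      apply hQ'T
      rw [← hSQ]
      exact ⟨y, hy, rfl⟩
  apply htQ
  have htT : t ∈ R ⊓ Subgroup.normalizer (Q' : Set G) := ⟨htR, htN⟩
  have htL : t ∈ L := hTL htT
  have : (⟨t, htL⟩ : L) ∈ (P₀ : Subgroup L) := by
    rw [← hTsub, Subgroup.mem_subgroupOf]
    exact htT
  rw [← hSQ]
  exact ⟨⟨t, htL⟩, this, rfl⟩

theorem K_inf_centralizer_le [Finite G] (π' : Set ℕ) {A₁ A₂ : Subgroup G} (h12 : A₁ ≤ A₂) :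
    Cfsg.piCoreOf π' (Subgroup.centralizer (A₁ : Set G)) ⊓ Subgroup.centralizer (A₂ : Set G) ≤
      Cfsg.piCoreOf π' (Subgroup.centralizer (A₂ : Set G)) := by
  have hC : Subgroup.centralizer (A₂ : Set G) ≤ Subgroup.centralizer (A₁ : Set G) :=
    Subgroup.centralizer_le h12
  apply le_piCoreOf π' inf_le_right
  · apply le_normalizer_of_conj_mem
    intro x hx y hy
    exact ⟨conj_mem_of_le_normalizer (le_normalizer_piCoreOf π' _) (hC hx) hy.1,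
      Subgroup.mul_mem _ (Subgroup.mul_mem _ hx hy.2) (Subgroup.inv_mem _ hx)⟩
  · exact isPiNum_of_dvd (isPiNum_card_piCoreOf π' _) (Subgroup.card_dvd_of_le inf_le_left)

/-- The conjugation action of a subgroup `L ≤ N_G(A)` on the maximal `A`-invariant
`q`-subgroups. -/
@[reducible] def conjActMaxInv [Finite G] (A : Subgroup G) (q : ℕ) (hq : q.Prime)
    (L : Subgroup G) (hL : L ≤ Subgroup.normalizer (A : Set G)) :
    MulAction L {Q : Subgroup G // Q ∈ Cfsg.maxInvSubgroups ⊤ A {q}} where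
  smul g Q := ⟨Q.1.map (MulAut.conj (g : G)).toMonoidHom,
    conj_mem_maxInv_of_normalizer hq Q.2 (hL g.2)⟩
  one_smul Q := Subtype.ext (map_conj_one Q.1)
  mul_smul g h Q := Subtype.ext (by
    show Q.1.map (MulAut.conj ((g * h : L) : G)).toMonoidHom =
      (Q.1.map (MulAut.conj (h : G)).toMonoidHom).map (MulAut.conj (g : G)).toMonoidHom
    rw [map_conj_map_conj]
    rfl)

/-- The normal step: if `A₁ ⊴ A₂` and `O_{π'}(C(A₁))` is transitive on the maximal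
`A₁`-invariant `q`-subgroups, then the maximal `A₂`-invariant `q`-subgroups are maximal
`A₁`-invariant and `O_{π'}(C(A₂))` is transitive on them. -/
theorem normal_step [Finite G] (hG : Cfsg.IsMinSimpleOddOrder G) {π' : Set ℕ} {q : ℕ}
    (hq : q.Prime) (hqπ : q ∈ π') {A₁ A₂ : Subgroup G} (h12 : A₁ ≤ A₂)
    (hn : A₂ ≤ Subgroup.normalizer (A₁ : Set G)) (hA₂ : A₂ ≠ ⊤)
    (hyp : Hyp π' A₁) (hcop : Cop π' A₂) (htr : Tr π' q A₁) :
    Cfsg.maxInvSubgroups ⊤ A₂ {q} ⊆ Cfsg.maxInvSubgroups ⊤ A₁ {q} ∧ Tr π' q A₂ := by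
  classical
  have hF : Fact q.Prime := ⟨hq⟩
  obtain ⟨K₁, hK₁⟩ : ∃ K₁, K₁ = Cfsg.piCoreOf π' (Subgroup.centralizer (A₁ : Set G)) :=
    ⟨_, rfl⟩
  have hK₁π : IsPiNum π' (Nat.card K₁) := by rw [hK₁]; exact isPiNum_card_piCoreOf _ _
  have hK₁C : K₁ ≤ Subgroup.centralizer (A₁ : Set G) := by rw [hK₁]; exact piCoreOf_le _ _
  have hA₂K : A₂ ≤ Subgroup.normalizer (K₁ : Set G) := by
    rw [hK₁]; exact hn.trans (normalizer_le_normalizer_K π' A₁)
  have hcopK : (Nat.card A₂).Coprime (Nat.card K₁) := hcop _ hK₁π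
  have hd : Disjoint K₁ A₂ := Subgroup.disjoint_of_coprime_natCard hcopK.symm
  have hKL : K₁ ≤ K₁ ⊔ A₂ := le_sup_left
  have hAL : A₂ ≤ K₁ ⊔ A₂ := le_sup_right
  have hLN : K₁ ⊔ A₂ ≤ Subgroup.normalizer (A₁ : Set G) :=
    sup_le (hK₁C.trans (Subgroup.centralizer_le_normalizer _)) hn
  have hLnK : K₁ ⊔ A₂ ≤ Subgroup.normalizer (K₁ : Set G) := sup_le Subgroup.le_normalizer hA₂K
  let _act := conjActMaxInv A₁ q hq (K₁ ⊔ A₂) hLN
  have _hKn : (K₁.subgroupOf (K₁ ⊔ A₂)).Normal :=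
    (Subgroup.normal_subgroupOf_iff_le_normalizer hKL).mpr hLnK
  have hcompl := Cfsg.Agent.S0023.compl_in_sup K₁ A₂ hA₂K hd
  have hcopL : (Nat.card (K₁.subgroupOf (K₁ ⊔ A₂))).Coprime
      (Nat.card (A₂.subgroupOf (K₁ ⊔ A₂))) := by
    rw [Cfsg.Agent.S0001.card_subgroupOf_of_le hKL, Cfsg.Agent.S0001.card_subgroupOf_of_le hAL]
    exact hcopK.symm
  have hsolvA₂ : Group.IsSolvable A₂ := hG.2.2.2 A₂ hA₂
  have hsolvL : Group.IsSolvable (K₁.subgroupOf (K₁ ⊔ A₂)) ∨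
      Group.IsSolvable (A₂.subgroupOf (K₁ ⊔ A₂)) :=
    Or.inr (Cfsg.Agent.S0001.solv_subgroupOf A₂ _)
  have hsmul : ∀ (g : ↥(K₁ ⊔ A₂)) (x : {Q : Subgroup G // Q ∈ Cfsg.maxInvSubgroups ⊤ A₁ {q}}),
      ((g • x : {Q : Subgroup G // Q ∈ Cfsg.maxInvSubgroups ⊤ A₁ {q}}) : Subgroup G) =
        x.1.map (MulAut.conj (g : G)).toMonoidHom := fun g x => rfl
  have htrans : ∀ x y : {Q : Subgroup G // Q ∈ Cfsg.maxInvSubgroups ⊤ A₁ {q}},
      ∃ k ∈ K₁.subgroupOf (K₁ ⊔ A₂), k • x = y := by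
    intro x y
    obtain ⟨k, hk, hxy⟩ := htr x.1 x.2 y.1 y.2
    rw [← hK₁] at hk
    refine ⟨⟨k, hKL hk⟩, Subgroup.mem_subgroupOf.mpr hk, Subtype.ext ?_⟩
    rw [hsmul]
    exact hxy.symm
  have hfix : ∀ x : {Q : Subgroup G // Q ∈ Cfsg.maxInvSubgroups ⊤ A₁ {q}},
      A₂ ≤ Subgroup.normalizer ((x.1 : Subgroup G) : Set G) →
      ∀ a ∈ A₂.subgroupOf (K₁ ⊔ A₂), a • x = x := by
    intro x hx a ha
    apply Subtype.ext
    rw [hsmul]
    exact map_conj_eq_of_mem_normalizer (hx (Subgroup.mem_subgroupOf.mp ha))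
  have hincl : Cfsg.maxInvSubgroups ⊤ A₂ {q} ⊆ Cfsg.maxInvSubgroups ⊤ A₁ {q} := by
    intro Q' hQ'
    by_cases hne : Q' = ⊥
    · have hbot : (⊥ : Subgroup G) ∈ Cfsg.invSubgroups ⊤ A₁ {q} := by
        rw [mem_inv_iff A₁ q hq]
        refine ⟨IsPGroup.of_bot, ?_⟩
        apply le_normalizer_of_conj_mem
        intro a _ y hy
        rw [Subgroup.mem_bot] at hy ⊢
        rw [hy]
        group
      obtain ⟨R₀, hR₀, -⟩ := exists_maxInv_ge hbot
      obtain ⟨x, hx⟩ := Cfsg.Agent.S0059.glauberman_exists (K₁.subgroupOf (K₁ ⊔ A₂))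
        (A₂.subgroupOf (K₁ ⊔ A₂)) hcompl hcopL hsolvL htrans ⟨R₀, hR₀⟩
      have hxA₂ : A₂ ≤ Subgroup.normalizer ((x.1 : Subgroup G) : Set G) := by
        intro a ha
        apply mem_normalizer_of_map_conj_eq
        have := hx ⟨a, hAL ha⟩ (Subgroup.mem_subgroupOf.mpr ha)
        have h2 := congrArg Subtype.val this
        rw [hsmul] at h2
        exact h2
      have hxinv : x.1 ∈ Cfsg.invSubgroups ⊤ A₂ {q} :=
        (mem_inv_iff A₂ q hq _).mpr ⟨((mem_inv_iff A₁ q hq _).mp x.2.1).1, hxA₂⟩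
      have := hQ'.2 x.1 hxinv (hne ▸ bot_le)
      rw [← this]
      exact x.2
    · exact maxInv_of_ne_bot hG hq hqπ h12 hA₂ hyp hcop hQ' hne
  refine ⟨hincl, ?_⟩
  intro Q₁ hQ₁ Q₂ hQ₂
  have hQ₁p := (mem_inv_iff A₂ q hq Q₁).mp hQ₁.1
  have hQ₂p := (mem_inv_iff A₂ q hq Q₂).mp hQ₂.1
  obtain ⟨k, hk, hkQ⟩ := Cfsg.Agent.S0059.glauberman_conj (K₁.subgroupOf (K₁ ⊔ A₂))
    (A₂.subgroupOf (K₁ ⊔ A₂)) hcompl hcopL hsolvL htrans ⟨Q₁, hincl hQ₁⟩ ⟨Q₂, hincl hQ₂⟩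
    (hfix _ hQ₁p.2) (hfix _ hQ₂p.2)
  have hkK : (k : G) ∈ K₁ := Subgroup.mem_subgroupOf.mp hk.1
  have hkC : (k : G) ∈ Subgroup.centralizer (A₂ : Set G) := by
    refine Subgroup.mem_centralizer_iff.mpr ?_
    intro a ha
    have h1 := (Subgroup.mem_centralizer_iff.mp hk.2) ⟨a, hAL ha⟩
      (Subgroup.mem_subgroupOf.mpr ha)
    exact congrArg Subtype.val h1
  refine ⟨(k : G), K_inf_centralizer_le π' h12 ⟨hK₁ ▸ hkK, hkC⟩, ?_⟩
  have h2 := congrArg Subtype.val hkQ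
  rw [hsmul] at h2
  exact h2.symm

/-- Induction along a subnormal chain from `A` to `P`. -/
theorem chain_induction [Finite G] (hG : Cfsg.IsMinSimpleOddOrder G) {π' : Set ℕ} {q : ℕ}
    (hq : q.Prime) (hqπ : q ∈ π') {A P : Subgroup G} (hAP : A ≤ P) (hP : P ≠ ⊤)
    (hyp : Hyp π' A) (hcop : Cop π' P) (hsn : (A.subgroupOf P).IsSubnormal)
    (htr : Tr π' q A) :
    Cfsg.maxInvSubgroups ⊤ P {q} ⊆ Cfsg.maxInvSubgroups ⊤ A {q} ∧ Tr π' q P := by
  have key : ∀ B : Subgroup ↥P, B.IsSubnormal → ∀ A₁ : Subgroup G, A₁ = B.map P.subtype →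
      Hyp π' A₁ → Tr π' q A₁ →
      Cfsg.maxInvSubgroups ⊤ P {q} ⊆ Cfsg.maxInvSubgroups ⊤ A₁ {q} ∧ Tr π' q P := by
    intro B hB
    induction hB with
    | top =>
      intro A₁ hA₁ _ htr₁
      have : A₁ = P := by
        rw [hA₁, ← MonoidHom.range_eq_map, Subgroup.range_subtype]
      rw [this] at htr₁ ⊢
      exact ⟨subset_rfl, htr₁⟩
    | step H K h_le hSubn hN ih =>
      intro A₁ hA₁ hyp₁ htr₁
      have h12 : A₁ ≤ K.map P.subtype := by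
        rw [hA₁]; exact Subgroup.map_mono h_le
      have hA₂P : K.map P.subtype ≤ P := Subgroup.map_subtype_le K
      have hA₂top : K.map P.subtype ≠ ⊤ := fun h => hP (top_le_iff.mp (h ▸ hA₂P))
      have hn : K.map P.subtype ≤ Subgroup.normalizer (A₁ : Set G) := by
        apply le_normalizer_of_conj_mem
        rintro _ ⟨k, hk, rfl⟩ y hy
        rw [hA₁] at hy ⊢
        obtain ⟨h, hh, rfl⟩ := hy
        have := hN.conj_mem ⟨h, h_le hh⟩ (Subgroup.mem_subgroupOf.mpr hh) ⟨k, hk⟩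
        exact ⟨k * h * k⁻¹, Subgroup.mem_subgroupOf.mp this, rfl⟩
      obtain ⟨hincl, htr₂⟩ := normal_step hG hq hqπ h12 hn hA₂top hyp₁ (hcop.mono hA₂P) htr₁
      obtain ⟨hincl', htrP⟩ := ih (K.map P.subtype) rfl (hyp₁.mono h12) htr₂
      exact ⟨hincl'.trans hincl, htrP⟩
  have hAeq : A = (A.subgroupOf P).map P.subtype := (Subgroup.map_subgroupOf_eq_of_le hAP).symm
  exact key _ hsn A hAeq hyp htr

/-- Frattini argument: `N_G(P) = O_{π'}(C_G(P)) (N_G(P) ∩ N_G(Q))`, elementwise. -/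
theorem exists_mem_normalizer_inf [Finite G] {π' : Set ℕ} {q : ℕ} (hq : q.Prime)
    {P : Subgroup G} (htr : Tr π' q P) {Q : Subgroup G}
    (hQ : Q ∈ Cfsg.maxInvSubgroups ⊤ P {q}) :
    ∀ g ∈ Subgroup.normalizer (P : Set G),
      ∃ k ∈ Cfsg.piCoreOf π' (Subgroup.centralizer (P : Set G)),
        k⁻¹ * g ∈ Subgroup.normalizer (P : Set G) ⊓ Subgroup.normalizer (Q : Set G) := by
  intro g hg
  have hQg := conj_mem_maxInv_of_normalizer hq hQ hg
  obtain ⟨k, hk, hkQ⟩ := htr Q hQ _ hQg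
  have hkN : k ∈ Subgroup.normalizer (P : Set G) :=
    Subgroup.centralizer_le_normalizer _ (piCoreOf_le _ _ hk)
  refine ⟨k, hk, Subgroup.mul_mem _ (Subgroup.inv_mem _ hkN) hg, ?_⟩
  apply mem_normalizer_of_map_conj_eq
  rw [← map_conj_map_conj, hkQ, map_conj_map_conj, inv_mul_cancel, map_conj_one]

theorem normalizer_eq_sup [Finite G] {π' : Set ℕ} {q : ℕ} (hq : q.Prime)
    {P : Subgroup G} (htr : Tr π' q P) {Q : Subgroup G}
    (hQ : Q ∈ Cfsg.maxInvSubgroups ⊤ P {q}) :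
    Subgroup.normalizer (P : Set G) = Cfsg.piCoreOf π' (Subgroup.centralizer (P : Set G)) ⊔
      (Subgroup.normalizer (P : Set G) ⊓ Subgroup.normalizer (Q : Set G)) := by
  apply le_antisymm
  · intro g hg
    obtain ⟨k, hk, hkg⟩ := exists_mem_normalizer_inf hq htr hQ g hg
    have : g = k * (k⁻¹ * g) := by group
    rw [this]
    exact Subgroup.mul_mem _ (Subgroup.mem_sup_left hk) (Subgroup.mem_sup_right hkg)
  · exact sup_le ((piCoreOf_le _ _).trans (Subgroup.centralizer_le_normalizer _)) inf_le_left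

theorem mul_pow_mem_of_normalizes (J : Subgroup G) (j o : G) (hj : j ∈ J)
    (ho : ∀ c ∈ J, ∀ i : ℕ, o ^ i * c * (o ^ i)⁻¹ ∈ J) (m : ℕ) :
    (j * o) ^ m * (o ^ m)⁻¹ ∈ J := by
  induction m with
  | zero => simp
  | succ n ih =>
    have h3 : (j * o) ^ (n + 1) * (o ^ (n + 1))⁻¹ =
        ((j * o) ^ n * (o ^ n)⁻¹) * (o ^ n * j * (o ^ n)⁻¹) := by
      rw [pow_succ, pow_succ]; group
    rw [h3]
    exact J.mul_mem ih (ho j hj n)

/-- `P ∩ N_G(P)' ≤ N_G(Q)'` for a maximal `P`-invariant `q`-subgroup `Q`, when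
`O_{π'}(C_G(P))` is transitive on the maximal `P`-invariant `q`-subgroups. -/
theorem inf_commutator_le [Finite G] {π' : Set ℕ} {q : ℕ} (hq : q.Prime) {P : Subgroup G}
    (hcop : Cop π' P) (htr : Tr π' q P) {Q : Subgroup G}
    (hQ : Q ∈ Cfsg.maxInvSubgroups ⊤ P {q}) :
    P ⊓ ⁅Subgroup.normalizer (P : Set G), Subgroup.normalizer (P : Set G)⁆ ≤
      ⁅Subgroup.normalizer (Q : Set G), Subgroup.normalizer (Q : Set G)⁆ := by
  obtain ⟨N, hN⟩ : ∃ N, N = Subgroup.normalizer (P : Set G) := ⟨_, rfl⟩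
  obtain ⟨N₁, hN₁⟩ : ∃ N₁, N₁ = Subgroup.normalizer (P : Set G) ⊓
    Subgroup.normalizer (Q : Set G) := ⟨_, rfl⟩
  obtain ⟨K, hK⟩ : ∃ K, K = Cfsg.piCoreOf π' (Subgroup.centralizer (P : Set G)) := ⟨_, rfl⟩
  have hNK : N ≤ Subgroup.normalizer (K : Set G) := by
    rw [hN, hK]; exact normalizer_le_normalizer_K π' P
  have hN₁N : N₁ ≤ N := by rw [hN, hN₁]; exact inf_le_left
  have hCN : ⁅N₁, N₁⁆ ≤ N := (Subgroup.commutator_le_self N₁).trans hN₁N
  have cong_mul : ∀ g h n m : G, n ∈ N → g * n⁻¹ ∈ K → h * m⁻¹ ∈ K →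
      (g * h) * (n * m)⁻¹ ∈ K := by
    intro g h n m hn hg hh
    have e : (g * h) * (n * m)⁻¹ = (g * n⁻¹) * (n * (h * m⁻¹) * n⁻¹) := by group
    rw [e]
    exact K.mul_mem hg (conj_mem_of_le_normalizer hNK hn hh)
  have cong_inv : ∀ g n : G, n ∈ N → g * n⁻¹ ∈ K → g⁻¹ * n⁻¹⁻¹ ∈ K := by
    intro g n hn hg
    have e : g⁻¹ * n⁻¹⁻¹ = n⁻¹ * (g * n⁻¹)⁻¹ * n⁻¹⁻¹ := by group
    rw [e]
    exact conj_mem_of_le_normalizer hNK (N.inv_mem hn) (K.inv_mem hg)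
  have hdec : ∀ g ∈ N, ∃ n ∈ N₁, g * n⁻¹ ∈ K := by
    intro g hg
    rw [hN] at hg
    obtain ⟨k, hk, hkg⟩ := exists_mem_normalizer_inf hq htr hQ g hg
    refine ⟨k⁻¹ * g, hN₁ ▸ hkg, ?_⟩
    have e : g * (k⁻¹ * g)⁻¹ = k := by group
    rw [e, hK]
    exact hk
  have step1 : ∀ x ∈ ⁅N, N⁆, ∃ n' ∈ ⁅N₁, N₁⁆, x * n'⁻¹ ∈ K := by
    intro x hx
    rw [Subgroup.commutator_def] at hx
    induction hx using Subgroup.closure_induction with
    | mem y hy =>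
      obtain ⟨g, hg, h, hh, rfl⟩ := hy
      obtain ⟨n, hn, hgn⟩ := hdec g hg
      obtain ⟨m, hm, hhm⟩ := hdec h hh
      refine ⟨⁅n, m⁆, Subgroup.commutator_mem_commutator hn hm, ?_⟩
      have hnN := hN₁N hn
      have hmN := hN₁N hm
      have h1 := cong_mul g h n m hnN hgn hhm
      have h2 := cong_inv g n hnN hgn
      have h3 := cong_inv h m hmN hhm
      have h4 := cong_mul (g * h) g⁻¹ (n * m) n⁻¹ (N.mul_mem hnN hmN) h1 h2
      have h5 := cong_mul (g * h * g⁻¹) h⁻¹ (n * m * n⁻¹) m⁻¹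
        (N.mul_mem (N.mul_mem hnN hmN) (N.inv_mem hnN)) h4 h3
      rw [commutatorElement_def, commutatorElement_def]
      exact h5
    | one => exact ⟨1, Subgroup.one_mem _, by simp⟩
    | mul a b _ _ iha ihb =>
      obtain ⟨n, hn, han⟩ := iha
      obtain ⟨m, hm, hbm⟩ := ihb
      exact ⟨n * m, Subgroup.mul_mem _ hn hm, cong_mul a b n m (hCN hn) han hbm⟩
    | inv a _ iha =>
      obtain ⟨n, hn, han⟩ := iha
      exact ⟨n⁻¹, Subgroup.inv_mem _ hn, cong_inv a n (hCN hn) han⟩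
  intro x hx
  obtain ⟨hxP, hxN⟩ := hx
  rw [← hN] at hxN
  obtain ⟨n', hn', hxn⟩ := step1 x hxN
  have hPN₁ : P ≤ N₁ := by
    rw [hN₁]
    exact le_inf Subgroup.le_normalizer ((mem_inv_iff P q hq Q).mp hQ.1).2
  have hxN₁ : x ∈ N₁ := hPN₁ hxP
  have hnorm : ∀ c ∈ ⁅N₁, N₁⁆, ∀ i : ℕ, x ^ i * c * (x ^ i)⁻¹ ∈ ⁅N₁, N₁⁆ := by
    intro c hc i
    have hxi : x ^ i ∈ N₁ := N₁.pow_mem hxN₁ i
    have e : x ^ i * c * (x ^ i)⁻¹ = ⁅x ^ i, c⁆ * c := by
      rw [commutatorElement_def]; group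
    rw [e]
    exact Subgroup.mul_mem _
      (Subgroup.commutator_mem_commutator hxi (Subgroup.commutator_le_self N₁ hc)) hc
  have hxm : x ^ Nat.card P = 1 := by
    have h1 : (⟨x, hxP⟩ : P) ^ Nat.card P = 1 := pow_card_eq_one'
    have h2 := congrArg Subtype.val h1
    rw [Subgroup.coe_pow, Subgroup.coe_one] at h2
    exact h2
  have hj : x * n'⁻¹ * x⁻¹ ∈ ⁅N₁, N₁⁆ := by
    have := hnorm n'⁻¹ (Subgroup.inv_mem _ hn') 1
    simpa using this
  have hκm : (x * n'⁻¹) ^ Nat.card P ∈ ⁅N₁, N₁⁆ := by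
    have h1 := mul_pow_mem_of_normalizes ⁅N₁, N₁⁆ (x * n'⁻¹ * x⁻¹) x hj hnorm (Nat.card P)
    have e : x * n'⁻¹ * x⁻¹ * x = x * n'⁻¹ := by group
    rw [e, hxm, inv_one, mul_one] at h1
    exact h1
  have hcop' : (Nat.card P).Coprime (orderOf (x * n'⁻¹)) := by
    have h1 : orderOf (x * n'⁻¹) ∣ Nat.card K := Subgroup.orderOf_dvd_natCard K hxn
    refine Nat.Coprime.coprime_dvd_right h1 (hcop _ ?_)
    rw [hK]
    exact isPiNum_card_piCoreOf π' _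
  obtain ⟨i, hi⟩ := exists_pow_eq_self_of_coprime hcop'
  have hκC : x * n'⁻¹ ∈ ⁅N₁, N₁⁆ := by
    rw [← hi]
    exact Subgroup.pow_mem _ hκm i
  have hx : x = (x * n'⁻¹) * n' := by group
  rw [hx]
  have hmono : ⁅N₁, N₁⁆ ≤ ⁅Subgroup.normalizer (Q : Set G), Subgroup.normalizer (Q : Set G)⁆ := by
    rw [hN₁]
    exact Subgroup.commutator_mono inf_le_right inf_le_right
  exact hmono (Subgroup.mul_mem _ hκC hn')

end Cfsg.Agent.Lib.Helper23.Transitivity3
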