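import Mathlib
import Cfsg.Agent.Lib.Helper41.UnitStmt
import Cfsg.Agent.Lib.Helper40.HPoly
import Cfsg.Agent.Lib.Helper40.GUReal
import Cfsg.Agent.Lib.Helper40.SSConj
import Cfsg.Agent.Lib.Helper21.SubfROOTMULT
import Cfsg.Agent.S2568

/-!
# S5982 piece BADUPOLY
-/

set_option autoImplicit false

namespace Cfsg.Agent.Lib.Helper23.UnitBADUPOLY

open Polynomial UniqueFactorizationMonoid
open Cfsg.Agent.Lib.Helper40.RecipPoly Cfsg.Agent.Lib.Helper41.UnitStmt

universe u

/-- BADUPOLY -/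
theorem main : BadUPoly.{u} := by
  classical
  intro F _ _ p _ _ q₀ hK φ hφ r _ hr2 hrp hi2 n x hxr hfin hself
  have hp : p.Prime := Fact.out
  have hr : r.Prime := Fact.out
  have hφ2 : ∀ y, φ (φ y) = y := by
    intro y
    rw [hφ, hφ, ← pow_mul, ← pow_two, ← hK, FiniteField.pow_card]
  obtain ⟨b, S, hipos, hb, hSne, hX1, hS, hdiv, hSstar, hSiff⟩ :=
    Cfsg.Agent.Lib.Helper40.HPoly.gu_cyclo_facts (p := p) hK φ hφ hφ2 r hr hr2 hrp
      (orderOf ((q₀ : ℕ) : ZMod r)) rfl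
  have hb' : b = orderOf ((Fintype.card F : ℕ) : ZMod r) := by
    rw [hK, Nat.cast_pow, orderOf_pow' _ two_ne_zero, hb]
    split_ifs with hodd
    · rw [Nat.Coprime.gcd_eq_one (Nat.Coprime.symm (Nat.coprime_two_left.mpr hodd)), Nat.div_one]
    · rw [Nat.gcd_eq_right (even_iff_two_dvd.mp (Nat.not_odd_iff_even.mp hodd))]
  have hr0 : (r : F) ≠ 0 := by
    rw [Ne, CharP.cast_eq_zero_iff F p]
    intro h
    exact hrp ((Nat.prime_dvd_prime_iff_eq hp hr).mp h).symm
  have hss : Module.End.IsSemisimple (Matrix.toLin' x) :=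
    Cfsg.Agent.Lib.Helper40.SSConj.isSemisimple_toLin' x r hr0 hxr
  have hmult := Cfsg.Agent.Lib.Helper21.SubfROOTMULT.main F n x hss
  rw [hmult] at hfin
  obtain ⟨i, hi⟩ : ∃ i, i = orderOf ((Fintype.card F : ℕ) : ZMod r) := ⟨_, rfl⟩
  rw [← hi] at hfin hi2 hb'
  have hmon : x.charpoly.Monic := Matrix.charpoly_monic x
  have hne : x.charpoly ≠ 0 := hmon.ne_zero
  have hfac := Polynomial.pow_mul_divByMonic_rootMultiplicity_eq x.charpoly 1
  have hg1 := Polynomial.eval_divByMonic_pow_rootMultiplicity_ne_zero (1 : F) hne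
  obtain ⟨k, hk⟩ : ∃ k, k = x.charpoly.rootMultiplicity 1 := ⟨_, rfl⟩
  rw [← hk] at hfin hfac hg1
  obtain ⟨g, hg⟩ : ∃ g, g = x.charpoly /ₘ (X - C (1 : F)) ^ k := ⟨_, rfl⟩
  rw [← hg] at hfac hg1
  have hXk : ((X - C (1 : F)) ^ k).Monic := (monic_X_sub_C 1).pow k
  have hgmon : g.Monic := hXk.of_mul_monic_left (by rw [hfac]; exact hmon)
  have hgdeg : g.natDegree = i := by
    have h1 := congrArg natDegree hfac
    rw [hXk.natDegree_mul hgmon, natDegree_pow, natDegree_X_sub_C,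
      Matrix.charpoly_natDegree_eq_dim, Fintype.card_fin] at h1
    omega
  have hgne : g ≠ 0 := hgmon.ne_zero
  have hgnu : ¬ IsUnit g := by
    intro h
    have := natDegree_eq_zero_of_isUnit h
    omega
  obtain ⟨P, hP⟩ : ∃ P, P ∈ normalizedFactors g := by
    obtain ⟨P0, hP0irr, hP0dvd⟩ := WfDvdMonoid.exists_irreducible_factor hgnu hgne
    obtain ⟨P, hP, -⟩ := exists_mem_normalizedFactors_of_dvd hgne hP0irr hP0dvd
    exact ⟨P, hP⟩
  have hPirr := irreducible_of_normalized_factor P hP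
  have hPmon := Cfsg.Agent.S2568.monic_of_mem_nf g P hP
  have hPg : P ∣ g := dvd_of_mem_normalizedFactors hP
  have hPchar : P ∈ normalizedFactors x.charpoly := by
    rw [← hfac, normalizedFactors_mul hXk.ne_zero hgne]
    exact Multiset.mem_add.2 (Or.inr hP)
  have hPdvd : P ∣ X ^ r - C (1 : F) := Cfsg.Agent.S2568.dvd_of_mem_nf_charpoly x _
    (by rw [map_sub, map_pow, aeval_X, aeval_C, map_one, hxr, sub_self]) P hPchar
  have hPS : P ∈ S := by
    rcases (hdiv P hPirr hPmon).1 hPdvd with h | h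
    · exfalso
      apply hg1
      obtain ⟨c, hc⟩ := hPg
      rw [hc, h]
      simp
    · exact h
  have hPdeg : P.natDegree = i := by rw [(hS P hPS).2.2.1, hb']
  have hgP : g = P :=
    Polynomial.eq_of_monic_of_dvd_of_natDegree_le hPmon hgmon hPg (by omega)
  have hgS : g ∈ S := hgP ▸ hPS
  have hstar : rstar φ g = g := by
    have h1 : rstar φ x.charpoly = (X - C (1 : F)) ^ k * rstar φ g := by
      rw [← hfac, rstar_mul, Cfsg.Agent.Lib.Helper40.GUReal.rstar_pow, rstar_X_sub_one]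
    rw [hself] at h1
    have h2 : (X - C (1 : F)) ^ k * rstar φ g = (X - C (1 : F)) ^ k * g := by
      rw [← h1, hfac]
    exact mul_left_cancel₀ hXk.ne_zero h2
  exact (hSiff g hgS).1 hstar

end Cfsg.Agent.Lib.Helper23.UnitBADUPOLY
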