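import Mathlib
import Cfsg.Agent.Lib.Helper41.UnitStmt

/-!
# S5982 piece IDXU2 (arithmetic)
-/

set_option autoImplicit false

namespace Cfsg.Agent.Lib.Helper23.UnitIDXU2

open Cfsg.Agent.Lib.Helper41.UnitStmt

/-- the unitary factor `q₀^(i+1) - (-1)^(i+1)` -/
def fA (q₀ i : ℕ) : ℕ := if Even i then q₀ ^ (i + 1) + 1 else q₀ ^ (i + 1) - 1

/-- the complementary factor `q₀^(i+1) + (-1)^(i+1)` -/
def fB (q₀ i : ℕ) : ℕ := if Even i then q₀ ^ (i + 1) - 1 else q₀ ^ (i + 1) + 1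

theorem fA_mul_fB (q₀ i : ℕ) (hq : 2 ≤ q₀) : fA q₀ i * fB q₀ i = (q₀ ^ 2) ^ (i + 1) - 1 := by
  have h1 : (q₀ ^ 2) ^ (i + 1) = q₀ ^ (i + 1) * q₀ ^ (i + 1) := by ring
  have hpos : 1 ≤ q₀ ^ (i + 1) := Nat.one_le_pow _ _ (by omega)
  obtain ⟨y, hy⟩ : ∃ y, q₀ ^ (i + 1) = y + 1 := ⟨q₀ ^ (i + 1) - 1, by omega⟩
  unfold fA fB
  rw [h1, hy]
  split_ifs
  · rw [Nat.add_sub_cancel]
    symm
    apply Nat.sub_eq_of_eq_add
    ring
  · rw [Nat.add_sub_cancel]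
    symm
    apply Nat.sub_eq_of_eq_add
    ring

theorem fA_pos (q₀ i : ℕ) (hq : 2 ≤ q₀) : 0 < fA q₀ i := by
  have h2le : 2 ≤ q₀ ^ (i + 1) := by
    calc 2 ≤ q₀ := hq
      _ = q₀ ^ 1 := (pow_one _).symm
      _ ≤ q₀ ^ (i + 1) := Nat.pow_le_pow_right (by omega) (by omega)
  unfold fA
  split_ifs
  · omega
  · omega

theorem prod_gl (q n : ℕ) :
    ∏ i : Fin n, (q ^ n - q ^ (i : ℕ)) =
      q ^ (n * (n - 1) / 2) * ∏ i ∈ Finset.range n, (q ^ (i + 1) - 1) := by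
  rw [Fin.prod_univ_eq_prod_range (fun i => q ^ n - q ^ i) n]
  have h1 : ∀ i ∈ Finset.range n, q ^ n - q ^ i = q ^ i * (q ^ (n - 1 - i + 1) - 1) := by
    intro i hi
    rw [Finset.mem_range] at hi
    rw [Nat.mul_sub, mul_one, ← pow_add]
    congr 2
    omega
  have h2 : ∏ j ∈ Finset.range n, (q ^ (n - 1 - j + 1) - 1) =
      ∏ j ∈ Finset.range n, (q ^ (j + 1) - 1) :=
    Finset.prod_range_reflect (fun j => q ^ (j + 1) - 1) n
  rw [Finset.prod_congr rfl h1, Finset.prod_mul_distrib, Finset.prod_pow_eq_pow_sum,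
    Finset.sum_range_id, h2]

/-- IDXU2 -/
theorem main : IdxU2 := by
  intro n q₀ r hn hq hr hr2 hrq hdvd
  obtain ⟨n', rfl⟩ : ∃ n', n = n' + 1 := ⟨n - 1, by omega⟩
  obtain ⟨N, hN⟩ : ∃ N, N = (n' + 1) * (n' + 1 - 1) / 2 := ⟨_, rfl⟩
  have hdvdA : r * (q₀ ^ N * (∏ i ∈ Finset.range (n' + 1), fA q₀ i) * (q₀ - 1)) ∣
      ∏ i : Fin (n' + 1), ((q₀ ^ 2) ^ (n' + 1) - (q₀ ^ 2) ^ (i : ℕ)) := by
    rw [hN]
    exact hdvd
  have hsplit : ∏ i ∈ Finset.range (n' + 1), ((q₀ ^ 2) ^ (i + 1) - 1) =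
      (∏ i ∈ Finset.range (n' + 1), fA q₀ i) *
        ((q₀ - 1) * ∏ i ∈ Finset.range n', fB q₀ (i + 1)) := by
    have h1 : ∏ i ∈ Finset.range (n' + 1), ((q₀ ^ 2) ^ (i + 1) - 1) =
        ∏ i ∈ Finset.range (n' + 1), (fA q₀ i * fB q₀ i) :=
      Finset.prod_congr rfl (fun i _ => (fA_mul_fB q₀ i hq).symm)
    have hB0 : fB q₀ 0 = q₀ - 1 := by simp [fB]
    rw [h1, Finset.prod_mul_distrib, Finset.prod_range_succ' (fB q₀) n', hB0,
      mul_comm (∏ i ∈ Finset.range n', fB q₀ (i + 1)) (q₀ - 1)]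
  have hL : 0 < q₀ ^ N * (∏ i ∈ Finset.range (n' + 1), fA q₀ i) * (q₀ - 1) :=
    Nat.mul_pos (Nat.mul_pos (pow_pos (by omega) _)
      (Finset.prod_pos (fun i _ => fA_pos q₀ i hq))) (by omega)
  have hdvd' : (q₀ ^ N * (∏ i ∈ Finset.range (n' + 1), fA q₀ i) * (q₀ - 1)) * r ∣
      (q₀ ^ N * (∏ i ∈ Finset.range (n' + 1), fA q₀ i) * (q₀ - 1)) *
        (q₀ ^ N * ∏ i ∈ Finset.range n', fB q₀ (i + 1)) := by
    have h1 : (q₀ ^ N * (∏ i ∈ Finset.range (n' + 1), fA q₀ i) * (q₀ - 1)) *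
        (q₀ ^ N * ∏ i ∈ Finset.range n', fB q₀ (i + 1)) =
        ∏ i : Fin (n' + 1), ((q₀ ^ 2) ^ (n' + 1) - (q₀ ^ 2) ^ (i : ℕ)) := by
      rw [prod_gl, hsplit, ← hN]
      ring
    rw [h1, mul_comm _ r]
    exact hdvdA
  have h3 : r ∣ q₀ ^ N * ∏ i ∈ Finset.range n', fB q₀ (i + 1) :=
    Nat.dvd_of_mul_dvd_mul_left hL hdvd'
  rcases (Nat.Prime.dvd_mul hr).1 h3 with h | h
  · exact absurd (hr.dvd_of_dvd_pow h) hrq
  · obtain ⟨i, hi, hri⟩ := (Prime.dvd_finset_prod_iff hr.prime _).1 h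
    rw [Finset.mem_range] at hi
    refine ⟨i + 2, by omega, by omega, ?_⟩
    have hpos : 1 ≤ q₀ ^ (i + 1 + 1) := Nat.one_le_pow _ _ (by omega)
    unfold fB at hri
    split_ifs at hri with he
    · have hodd : Odd (i + 2) := by
        have := he.add_one
        exact this
      have h4 : ((q₀ : ℕ) : ZMod r) ^ (i + 2) = 1 := by
        have h5 := (ZMod.natCast_eq_zero_iff _ r).2 hri
        rw [Nat.cast_sub hpos, Nat.cast_pow, Nat.cast_one, sub_eq_zero] at h5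
        exact h5
      rw [hodd.neg_pow, h4]
    · have hev : Even (i + 2) := by
        have h5 : Odd (i + 1) := Nat.not_even_iff_odd.1 he
        exact h5.add_one
      have h4 : ((q₀ : ℕ) : ZMod r) ^ (i + 2) = -1 := by
        have h5 := (ZMod.natCast_eq_zero_iff _ r).2 hri
        rw [Nat.cast_add, Nat.cast_pow, Nat.cast_one] at h5
        exact eq_neg_of_add_eq_zero_left h5
      rw [hev.neg_pow, h4]

end Cfsg.Agent.Lib.Helper23.UnitIDXU2
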